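import Mathlib
import Cfsg.Prelude.Def_GeometricClasses
import Cfsg.Agent.Helper71.T4Defs
import Cfsg.Agent.Helper96.T5Defs

/-!
# Helper33: PIECE CNT of CALL S5704 (helper96): contraction lemmas.
-/

set_option autoImplicit false
set_option linter.unusedVariables false

namespace Cfsg.Agent.Helper33.T5CNT

open Matrix Cfsg Cfsg.Geo Cfsg.Agent.Helper71.T4 Cfsg.Agent.Helper96.T5
open scoped Kronecker

variable {F : Type*} [Field F] {a b : ℕ}

/-- The tensor form against a pure tensor `u ⊗ e` is the `J₁`-form of the contraction. -/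
theorem bf_kron_pt_cnt (J₁ : Matrix (Fin a) (Fin a) F) (J₂ : Matrix (Fin b) (Fin b) F)
    (e : Fin b → F) (u : Fin a → F) (v : Fin a × Fin b → F) :
    bf (J₁ ⊗ₖ J₂) v (pt u e) = bf J₁ (cnt J₂ e v) u := by
  rw [bf, kron_mulVec_pt]
  simp only [bf, dotProduct, pt, cnt, Fintype.sum_prod_type, Finset.sum_mul]
  refine Finset.sum_congr rfl fun i _ => Finset.sum_congr rfl fun k _ => ?_
  ring

variable {J₁ : Matrix (Fin a) (Fin a) F} {J₂ : Matrix (Fin b) (Fin b) F}
  {Q : (Fin a × Fin b → F) → F}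

/-- PIECE CNT (1/2) -/
theorem cnt_eq_zero_iff (hT : TQ J₁ J₂ Q) (e : Fin b → F) (v : Fin a × Fin b → F) :
    cnt J₂ e v = 0 ↔ ∀ u : Fin a → F, bf (J₁ ⊗ₖ J₂) v (pt u e) = 0 := by
  constructor
  · intro h u
    rw [bf_kron_pt_cnt, h, bf_zero_left]
  · intro h
    by_contra hne
    obtain ⟨y, hy⟩ := exists_bf_eq_one J₁ hT.det₁ (cnt J₂ e v) hne
    have := h y
    rw [bf_kron_pt_cnt, hy] at this
    exact one_ne_zero this

/-- Finite sums of elements satisfying an additive predicate. -/
theorem sum_induction_P {ι : Type*} (P : (Fin a × Fin b → F) → Prop) (h0 : P 0)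
    (hadd : ∀ r r', P r → P r' → P (r + r')) (s : Finset ι) (f : ι → (Fin a × Fin b → F))
    (hf : ∀ i ∈ s, P (f i)) : P (∑ i ∈ s, f i) := by
  classical
  induction s using Finset.induction_on with
  | empty => simpa using h0
  | insert i s hi ih =>
    rw [Finset.sum_insert hi]
    exact hadd _ _ (hf i (Finset.mem_insert_self i s))
      (ih fun j hj => hf j (Finset.mem_insert_of_mem hj))

/-- PIECE CNT (2/2) -/
theorem cnt_induction (hT : TQ J₁ J₂ Q) (e : Fin b → F) (he : e ≠ 0)
    (P : (Fin a × Fin b → F) → Prop) (h0 : P 0) (hadd : ∀ r r', P r → P r' → P (r + r'))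
    (hpt : ∀ (u : Fin a → F) (w : Fin b → F), bf J₂ w e = 0 → P (pt u w)) :
    ∀ v, cnt J₂ e v = 0 → P v := by
  intro v hv
  obtain ⟨y, hy⟩ := exists_bf_eq_one J₂ hT.det₂ e he
  -- `et` with `bf et e = 1`
  have het : bf J₂ (-y) e = 1 := by
    rw [bf_neg_left, bf_swap J₂ hT.alt₂ y e, hy]; ring
  set et : Fin b → F := -y with het_def
  let wk : Fin b → (Fin b → F) := fun k => Pi.single k 1 - ((J₂ *ᵥ e) k) • et
  have hwk : ∀ k, bf J₂ (wk k) e = 0 := by
    intro k
    have h1 : bf J₂ (Pi.single k (1 : F)) e = (J₂ *ᵥ e) k := by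
      simp [bf, single_dotProduct]
    simp only [wk]
    rw [bf_sub_left, bf_smul_left, het, h1]; ring
  have hdec : v = ∑ p : Fin a × Fin b, pt (v p • Pi.single p.1 (1 : F)) (wk p.2) := by
    ext ⟨i, k'⟩
    have hc : (cnt J₂ e v) i = 0 := by rw [hv]; rfl
    simp only [cnt] at hc
    rw [Finset.sum_apply, Fintype.sum_prod_type]
    simp only [pt, wk, Pi.smul_apply, Pi.sub_apply, Pi.single_apply, smul_eq_mul, mul_ite,
      mul_one, mul_zero, ite_mul, zero_mul]
    rw [Finset.sum_eq_single i]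
    · simp only [if_true]
      simp only [mul_sub, Finset.sum_sub_distrib]
      rw [Finset.sum_eq_single k']
      · simp only [if_true]
        have : ∑ x : Fin b, v (i, x) * ((J₂ *ᵥ e) x * et k') = (∑ x, (J₂ *ᵥ e) x * v (i, x)) * et k' := by
          rw [Finset.sum_mul]
          refine Finset.sum_congr rfl fun x _ => ?_
          ring
        rw [this, hc]; ring
      · intro k _ hk
        simp [Ne.symm hk]
      · intro h; exact absurd (Finset.mem_univ _) h
    · intro j _ hj
      simp [Ne.symm hj]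
    · intro h; exact absurd (Finset.mem_univ _) h
  rw [hdec]
  exact sum_induction_P P h0 hadd _ _ fun p _ => hpt _ _ (hwk p.2)

end Cfsg.Agent.Helper33.T5CNT
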