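import Mathlib
import Cfsg.Agent.Helper71.SQDefs
import Cfsg.Agent.Helper11.SORT
import Cfsg.Agent.Helper11.SOTR
import Cfsg.Agent.Helper43.QuadFin

/-!
# Helper33: PIECE CN of CALL S5867 (helper71) (double): a non-scalar `S`-selfadjoint `D` on `F^3`
is non-zero on some singular vector.
-/

set_option autoImplicit false

namespace Cfsg.Agent.Helper33.SQCN

open Matrix Cfsg.Agent.Helper71.T4 Cfsg.Agent.Helper71.SO Cfsg.Agent.Helper71.SQ
open scoped Kronecker

variable {F : Type*} [Field F] {m n : ℕ}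

open Cfsg.Agent.Helper11.SORT Cfsg.Agent.Helper11.SOTR in
/-- CN -/
theorem conic_nonscalar [Finite F] (hq : 5 ≤ Nat.card F) (h2 : (2 : F) ≠ 0)
    (S : Matrix (Fin 3) (Fin 3) F) (hS : Sᵀ = S) (hdet : S.det ≠ 0)
    (D : Matrix (Fin 3) (Fin 3) F) (hsym : (S * D)ᵀ = S * D)
    (hns : ∀ c : F, D ≠ c • (1 : Matrix (Fin 3) (Fin 3) F)) :
    ∃ u : Fin 3 → F, u ≠ 0 ∧ bl S u u = 0 ∧ bl S u (D *ᵥ u) ≠ 0 := by
  classical
  by_contra hcon
  push Not at hcon
  have h2i : (2 : F)⁻¹ * 2 = 1 := inv_mul_cancel₀ h2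
  have hβ : ∀ u : Fin 3 → F, u ≠ 0 → bl S u u = 0 → bl (S * D) u u = 0 := by
    intro u hu huu
    have := hcon u hu huu
    unfold bl at this ⊢
    rwa [Matrix.mulVec_mulVec] at this
  -- a singular vector
  obtain ⟨u₀, hu₀, hu₀u₀⟩ : ∃ u₀ : Fin 3 → F, u₀ ≠ 0 ∧ bl S u₀ u₀ = 0 := by
    have h3 : 3 ≤ Module.finrank F (Fin 3 → F) := by rw [Module.finrank_fin_fun]
    obtain ⟨v, hv, hQ⟩ := Cfsg.Agent.Helper43.exists_singular (Matrix.toQuadraticForm' S) h3
    refine ⟨v, hv, ?_⟩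
    unfold Matrix.toQuadraticForm' at hQ
    rw [LinearMap.BilinMap.toQuadraticMap_apply, Matrix.toLinearMap₂'_apply'] at hQ
    exact hQ
  obtain ⟨u₁, hu₁u₁, hu₀u₁⟩ := sing_partner h2 S hS hdet u₀ hu₀ hu₀u₀
  have hu₁u₀ : bl S u₁ u₀ = 1 := by rw [bl_comm S hS, hu₀u₁]
  have hu₁ : u₁ ≠ 0 := by
    rintro rfl
    rw [bl_zero_right] at hu₀u₁
    exact zero_ne_one hu₀u₁
  -- a vector orthogonal to both
  obtain ⟨w, hw, hwu₀, hwu₁⟩ : ∃ w : Fin 3 → F, w ≠ 0 ∧ bl S w u₀ = 0 ∧ bl S w u₁ = 0 := by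
    let R : Matrix (Fin 3) (Fin 3) F := Matrix.of ![S *ᵥ u₀, S *ᵥ u₁, 0]
    have hR : R.det = 0 := Matrix.det_eq_zero_of_row_eq_zero 2 (fun j => rfl)
    obtain ⟨v, hv, hRv⟩ := Matrix.exists_mulVec_eq_zero_iff.mpr hR
    refine ⟨v, hv, ?_, ?_⟩
    · have := congrFun hRv 0
      unfold bl
      rw [dotProduct_comm]
      exact this
    · have := congrFun hRv 1
      unfold bl
      rw [dotProduct_comm]
      exact this
  have hu₀w : bl S u₀ w = 0 := by rw [bl_comm S hS, hwu₀]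
  have hu₁w : bl S u₁ w = 0 := by rw [bl_comm S hS, hwu₁]
  obtain ⟨κ, hκ⟩ : ∃ κ : F, bl S w w = κ := ⟨_, rfl⟩
  -- bilinear expansion
  have hexp : ∀ (T : Matrix (Fin 3) (Fin 3) F) (a b c a' b' c' : F),
      bl T (a • u₀ + b • w + c • u₁) (a' • u₀ + b' • w + c' • u₁) =
        a * a' * bl T u₀ u₀ + a * b' * bl T u₀ w + a * c' * bl T u₀ u₁
        + b * a' * bl T w u₀ + b * b' * bl T w w + b * c' * bl T w u₁
        + c * a' * bl T u₁ u₀ + c * b' * bl T u₁ w + c * c' * bl T u₁ u₁ := by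
    intro T a b c a' b' c'
    simp only [bl_add_left, bl_add_right, bl_smul_left, bl_smul_right]
    ring
  -- the basis matrix
  let P : Matrix (Fin 3) (Fin 3) F := Matrix.of fun i j => ![u₀, w, u₁] j i
  have hP : ∀ v : Fin 3 → F, P *ᵥ v = v 0 • u₀ + v 1 • w + v 2 • u₁ := by
    intro v
    ext i
    simp [P, Matrix.mulVec, dotProduct, Fin.sum_univ_three]
    ring
  have hPdet : P.det ≠ 0 := by
    intro h0
    obtain ⟨v, hv, hPv⟩ := Matrix.exists_mulVec_eq_zero_iff.mpr h0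
    rw [hP] at hPv
    have e0 : v 0 = 0 := by
      have := congrArg (fun x => bl S x u₁) hPv
      simp only [bl_add_left, bl_smul_left, hu₀u₁, hwu₁, hu₁u₁, bl_zero_left] at this
      linear_combination this
    have e2 : v 2 = 0 := by
      have := congrArg (fun x => bl S x u₀) hPv
      simp only [bl_add_left, bl_smul_left, hu₀u₀, hwu₀, hu₁u₀, bl_zero_left] at this
      linear_combination this
    have e1 : v 1 = 0 := by
      rw [e0, e2, zero_smul, zero_smul, zero_add, add_zero] at hPv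
      rcases smul_eq_zero.mp hPv with h | h
      · exact h
      · exact absurd h hw
    apply hv
    ext i
    fin_cases i <;> simp [e0, e1, e2]
  have hsurj : ∀ x : Fin 3 → F, ∃ a b c : F, x = a • u₀ + b • w + c • u₁ := by
    intro x
    refine ⟨(P⁻¹ *ᵥ x) 0, (P⁻¹ *ᵥ x) 1, (P⁻¹ *ᵥ x) 2, ?_⟩
    rw [← hP, Matrix.mulVec_mulVec, Matrix.mul_nonsing_inv P (isUnit_iff_ne_zero.mpr hPdet),
      Matrix.one_mulVec]
  -- κ ≠ 0
  have hκ0 : κ ≠ 0 := by
    intro h0
    obtain ⟨x, hx⟩ := exists_bl_ne S hdet w hw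
    obtain ⟨a, b, c, rfl⟩ := hsurj x
    apply hx
    simp only [bl_add_right, bl_smul_right, hwu₀, hwu₁, hκ, h0]
    ring
  -- the values of β
  have hT := bl_comm (S * D) hsym
  have b00 : bl (S * D) u₀ u₀ = 0 := hβ u₀ hu₀ hu₀u₀
  have b11 : bl (S * D) u₁ u₁ = 0 := hβ u₁ hu₁ hu₁u₁
  have hst : ∀ t : F, bl (S * D) (u₁ + t • w - (t ^ 2 * κ * 2⁻¹) • u₀)
      (u₁ + t • w - (t ^ 2 * κ * 2⁻¹) • u₀) = 0 := by
    intro t
    apply hβ
    · intro h0
      have := congrArg (fun x => bl S u₀ x) h0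
      simp only [bl_sub_right, bl_add_right, bl_smul_right, hu₀u₁, hu₀w, hu₀u₀,
        bl_zero_right] at this
      apply one_ne_zero (α := F)
      linear_combination this
    · simp only [bl_sub_left, bl_sub_right, bl_add_left, bl_add_right, bl_smul_left,
        bl_smul_right, hu₀u₀, hu₁u₁, hu₀u₁, hu₁u₀, hwu₀, hwu₁, hu₀w, hu₁w, hκ]
      linear_combination (-t ^ 2 * κ) * h2i
  have hpoly : ∀ t : F, 2 * t * bl (S * D) u₁ w
      + t ^ 2 * (bl (S * D) w w - κ * bl (S * D) u₀ u₁)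
      - t ^ 3 * κ * bl (S * D) w u₀ = 0 := by
    intro t
    have := hst t
    simp only [bl_sub_left, bl_sub_right, bl_add_left, bl_add_right, bl_smul_left,
      bl_smul_right, b00, b11] at this
    rw [hT w u₁, hT u₁ u₀, hT u₀ w] at this
    linear_combination this + (t ^ 2 * κ * bl (S * D) u₀ u₁
      + t ^ 3 * κ * bl (S * D) w u₀) * h2i
  obtain ⟨t, ht0, ht1, htm1⟩ : ∃ t : F, t ≠ 0 ∧ t ≠ 1 ∧ t ≠ -1 := by
    by_contra hne
    push Not at hne
    have : Fintype F := Fintype.ofFinite F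
    have hle : Fintype.card F ≤ 3 := by
      calc Fintype.card F = (Finset.univ : Finset F).card := Finset.card_univ.symm
        _ ≤ ({0, 1, -1} : Finset F).card := by
            apply Finset.card_le_card
            intro t _
            simp only [Finset.mem_insert, Finset.mem_singleton]
            by_cases h0 : t = 0
            · exact Or.inl h0
            · by_cases h1 : t = 1
              · exact Or.inr (Or.inl h1)
              · exact Or.inr (Or.inr (hne t h0 h1))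
        _ ≤ 3 := Finset.card_le_three
    rw [Nat.card_eq_fintype_card] at hq
    omega
  have p1 := hpoly 1
  have pm1 := hpoly (-1)
  have pt := hpoly t
  have he : bl (S * D) w w - κ * bl (S * D) u₀ u₁ = 0 := by
    have : 2 * (bl (S * D) w w - κ * bl (S * D) u₀ u₁) = 0 := by
      linear_combination p1 + pm1
    rcases mul_eq_zero.mp this with h | h
    · exact absurd h h2
    · exact h
  have hd : bl (S * D) w u₀ = 0 := by
    have : t * ((1 - t) * (1 + t)) * κ * bl (S * D) w u₀ = 0 := by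
      linear_combination pt - t * p1 + (t - t ^ 2) * he
    have h1t : (1 : F) - t ≠ 0 := fun h => ht1 (by linear_combination -h)
    have h1t' : (1 : F) + t ≠ 0 := fun h => htm1 (by linear_combination h)
    rcases mul_eq_zero.mp this with h | h
    · exact absurd h (mul_ne_zero (mul_ne_zero ht0 (mul_ne_zero h1t h1t')) hκ0)
    · exact h
  have hb : bl (S * D) u₁ w = 0 := by
    have : 2 * bl (S * D) u₁ w = 0 := by
      linear_combination p1 - he + κ * hd
    rcases mul_eq_zero.mp this with h | h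
    · exact absurd h h2
    · exact h
  obtain ⟨lam, hlam⟩ : ∃ lam : F, bl (S * D) u₀ u₁ = lam := ⟨_, rfl⟩
  have hsm : ∀ (l : F) (x y : Fin 3 → F), bl (l • S) x y = l * bl S x y := by
    intro l x y
    unfold bl
    rw [Matrix.smul_mulVec, dotProduct_smul, smul_eq_mul]
  have hSD : S * D = lam • S := by
    apply bl_ext
    intro x y
    obtain ⟨a, b, c, rfl⟩ := hsurj x
    obtain ⟨a', b', c', rfl⟩ := hsurj y
    rw [hsm, hexp (S * D), hexp S, b00, b11, hT u₁ u₀, hT w u₁, hT u₀ w, hb, hd, hlam,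
      hu₀u₀, hu₁u₁, hu₀u₁, hu₁u₀, hwu₀, hwu₁, hu₀w, hu₁w, hκ]
    rw [hlam] at he
    linear_combination b * b' * he
  apply hns lam
  have hinv : S⁻¹ * S = 1 := Matrix.nonsing_inv_mul S (isUnit_iff_ne_zero.mpr hdet)
  calc D = S⁻¹ * (S * D) := by rw [← Matrix.mul_assoc, hinv, Matrix.one_mul]
    _ = S⁻¹ * (lam • S) := by rw [hSD]
    _ = lam • (1 : Matrix (Fin 3) (Fin 3) F) := by rw [Matrix.mul_smul, hinv]

end Cfsg.Agent.Helper33.SQCN
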