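/-
Helper33: the type of an orthogonal space carrying an isometric orthogonal frame
(piece X4 of the shared Ω^± library).

* `o_frame_plus_iff` : if `D` is an `IsOrthogonalMDecomposition Q 1` of `F^ι`, `|ι| = 2m`, then
  `Q` is of plus type iff `(-1)^m` is a square.
-/
import Cfsg.Agent.Helper33.ODisc
import Cfsg.Agent.Helper43.QuadFin2

set_option linter.unusedVariables false
set_option linter.unusedSectionVars false

namespace Cfsg.Agent.Helper33

open Cfsg Cfsg.Geo Matrix Module
open Cfsg.Agent.Helper43 Cfsg.Agent.Helper43.OrthEven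

namespace OFrame

variable {ι : Type} [Fintype ι] [DecidableEq ι] {F : Type*} [Field F]

/-- the number of members times their dimension is the dimension of the space -/
theorem card_decomp {t k : ℕ} (D : Fin t → Submodule F (ι → F)) (hD : IsMDecomposition k D) :
    t * k = Fintype.card ι := by
  classical
  have hint := DirectSum.isInternal_submodule_of_iSupIndep_of_iSup_eq_top hD.indep hD.iSup_eq_top
  have e := LinearEquiv.ofBijective (DirectSum.coeLinearMap D) hint
  have h1 := e.finrank_eq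
  rw [Module.finrank_directSum, Module.finrank_fintype_fun_eq_card] at h1
  rw [← h1]
  simp [hD.finrank_eq]

theorem polar_self (Q : (ι → F) → F) (hQ : IsNondegenerateQuadraticForm Q) (v : ι → F) :
    QuadraticMap.polar Q v v = 2 * Q v := by
  unfold QuadraticMap.polar
  have h := hQ.smul 2 v
  rw [two_smul] at h
  rw [h]
  ring

/-- a non-degenerate line: a spanning vector is non-singular, and `2 ≠ 0` -/
theorem line_nonsing (Q : (ι → F) → F) (hQ : IsNondegenerateQuadraticForm Q)
    (L : Submodule F (ι → F)) (hL : finrank F L = 1)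
    (hnd : IsNondegenerateOn (QuadraticMap.polar Q) L) :
    ∃ v ∈ L, (2 : F) ≠ 0 ∧ Q v ≠ 0 := by
  have hne : L ≠ ⊥ := by
    intro h
    rw [h, finrank_bot] at hL
    omega
  obtain ⟨v, hv, hv0⟩ := Submodule.exists_mem_ne_zero_of_ne_bot hne
  obtain ⟨-, x, hx, hvx⟩ := hnd v hv hv0
  have hspan : ∀ w : L, ∃ c : F, c • (⟨v, hv⟩ : L) = w :=
    (finrank_eq_one_iff_of_nonzero' (⟨v, hv⟩ : L) (fun h => hv0 (congrArg Subtype.val h))).1 hL
  obtain ⟨c, hc⟩ := hspan ⟨x, hx⟩
  have hc' : x = c • v := by
    have := congrArg Subtype.val hc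
    exact this.symm
  rw [hc', hQ.polar_bilinear.smul_right, polar_self Q hQ] at hvx
  refine ⟨v, hv, ?_, ?_⟩
  · intro h
    apply hvx
    rw [h, zero_mul, mul_zero]
  · intro h
    apply hvx
    rw [h, mul_zero, mul_zero]

end OFrame

section Main

variable {ι : Type} [Fintype ι] [DecidableEq ι] {F : Type*} [Field F]

open OFrame in
/-- **Frames**: if `F^ι` (`|ι| = 2m`) has an isometric orthogonal frame for `Q`, then `Q` is of
plus type iff `(-1)^m` is a square. -/
theorem o_frame_plus_iff [Fintype F] (Q : (ι → F) → F) (hQ : IsNondegenerateQuadraticForm Q)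
    {m t : ℕ} (hm : 1 ≤ m) (hcard : Fintype.card ι = 2 * m)
    (D : Fin t → Submodule F (ι → F)) (hD : IsOrthogonalMDecomposition Q 1 D) :
    IsPlusTypeOn Q ⊤ ↔ IsSquare ((-1 : F) ^ m) := by
  classical
  have ht2 : 2 ≤ t := hD.decomp.decomp.two_le
  have htc : t = Fintype.card ι := by
    have := card_decomp D hD.decomp.decomp
    omega
  let i₀ : Fin t := ⟨0, by omega⟩
  obtain ⟨v₀, hv₀, h2, hQv₀⟩ := line_nonsing Q hQ (D i₀) (hD.decomp.decomp.finrank_eq i₀)
    (hD.decomp.nondegenerate i₀)
  choose e he using fun i => hD.isometric i₀ i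
  let v : Fin t → (ι → F) := fun i => ((e i ⟨v₀, hv₀⟩ : D i) : ι → F)
  have hvmem : ∀ i, v i ∈ D i := fun i => (e i ⟨v₀, hv₀⟩).2
  have hQv : ∀ i, Q (v i) = Q v₀ := fun i => he i ⟨v₀, hv₀⟩
  have horth : ∀ i j, i ≠ j → QuadraticMap.polar Q (v i) (v j) = 0 := fun i j hij =>
    hD.decomp.orthogonal i j hij (v i) (hvmem i) (v j) (hvmem j)
  have hli : LinearIndependent F v :=
    linIndep_of_ortho (Helper98.op_qf Q hQ) h2 v horth (fun i => by
      rw [Helper98.op_qf_coe, hQv]
      exact hQv₀)
  have hfin : Fintype.card (Fin t) = finrank F (ι → F) := by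
    rw [Fintype.card_fin, Module.finrank_fintype_fun_eq_card, htc]
  have hne : Nonempty (Fin t) := ⟨i₀⟩
  let b : Module.Basis (Fin t) F (ι → F) := basisOfLinearIndependentOfCardEqFinrank hli hfin
  have hb : ∀ i, b i = v i := fun i => by
    simp only [b, coe_basisOfLinearIndependentOfCardEqFinrank]
  have hgram : (Matrix.of fun i j => QuadraticMap.polar Q (b i) (b j))
      = Matrix.diagonal (fun _ : Fin t => 2 * Q v₀) := by
    ext i j
    rw [Matrix.of_apply, hb, hb]
    by_cases hij : i = j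
    · subst hij
      rw [Matrix.diagonal_apply_eq, polar_self Q hQ, hQv]
    · rw [Matrix.diagonal_apply_ne _ hij, horth i j hij]
  rw [o_plus_iff_disc h2 Q hQ hm hcard b, hgram, Matrix.det_diagonal, Finset.prod_const,
    Finset.card_univ, Fintype.card_fin, htc, hcard]
  have hd : (2 * Q v₀) ^ m ≠ 0 := pow_ne_zero _ (mul_ne_zero h2 hQv₀)
  have e1 : (-1 : F) ^ m * (2 * Q v₀) ^ (2 * m) = ((2 * Q v₀) ^ m) ^ 2 * (-1) ^ m := by
    rw [← pow_mul, mul_comm m 2]
    ring
  rw [e1, isSquare_sq_mul_iff hd]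

end Main

end Cfsg.Agent.Helper33
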