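/-
Helper33: the type of an orthogonal space that is the orthogonal sum of two non-degenerate
subspaces of the same odd dimension (piece X5 of the shared Ω^± library).

* `OTwo.plus_iff_of_families` : type from two orthogonal families spanning two orthogonal halves.
* `OTwo.iso_of_families`      : matching orthogonal families give an isometry.
* `o_two_blocks_plus_iff`     : `IsPlusTypeOn Q ⊤ ↔ (AreIsometricFor Q (D 0) (D 1) ↔ IsSquare (-1))`
  for a non-degenerate decomposition `D : Fin 2 → _` into blocks of odd dimension.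
-/
import Cfsg.Agent.Helper33.OFrame
import Cfsg.Agent.Helper76.O12L2

set_option linter.unusedVariables false
set_option linter.unusedSectionVars false

namespace Cfsg.Agent.Helper33

open Cfsg Cfsg.Geo Matrix Module
open Cfsg.Agent.Helper43 Cfsg.Agent.Helper43.OrthEven

namespace OTwo

section Abstract

variable {F : Type*} [Field F]
variable {V V' : Type*} [AddCommGroup V] [Module F V] [AddCommGroup V'] [Module F V']

/-- matching orthogonal families of non-singular vectors (as many as the dimension) give an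
isometry -/
theorem iso_of_families_abs [FiniteDimensional F V] [FiniteDimensional F V'] (h2 : (2 : F) ≠ 0)
    {k : ℕ} (hk : 1 ≤ k) (QV : QuadraticForm F V) (QV' : QuadraticForm F V')
    (hV : finrank F V = k) (hV' : finrank F V' = k) (u : Fin k → V) (w : Fin k → V')
    (huo : ∀ i j, i ≠ j → QuadraticMap.polar QV (u i) (u j) = 0)
    (hwo : ∀ i j, i ≠ j → QuadraticMap.polar QV' (w i) (w j) = 0)
    (hQu : ∀ j, QV (u j) ≠ 0) (hQw : ∀ j, QV' (w j) = QV (u j)) :
    ∃ e : V ≃ₗ[F] V', ∀ x, QV' (e x) = QV x := by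
  classical
  have hne : Nonempty (Fin k) := ⟨⟨0, by omega⟩⟩
  have hliu : LinearIndependent F u := linIndep_of_ortho QV h2 u huo hQu
  have hliw : LinearIndependent F w := linIndep_of_ortho QV' h2 w hwo (fun j => by
    rw [hQw]
    exact hQu j)
  let bu : Module.Basis (Fin k) F V :=
    basisOfLinearIndependentOfCardEqFinrank hliu (by rw [Fintype.card_fin, hV])
  let bw : Module.Basis (Fin k) F V' :=
    basisOfLinearIndependentOfCardEqFinrank hliw (by rw [Fintype.card_fin, hV'])
  have hbu : ∀ j, bu j = u j := fun j => by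
    simp only [bu, coe_basisOfLinearIndependentOfCardEqFinrank]
  have hbw : ∀ j, bw j = w j := fun j => by
    simp only [bw, coe_basisOfLinearIndependentOfCardEqFinrank]
  refine ⟨bu.equiv bw (Equiv.refl _), fun x => ?_⟩
  have hx : x = ∑ j, bu.repr x j • u j := by
    conv_lhs => rw [← bu.sum_repr x]
    exact Finset.sum_congr rfl fun j _ => by rw [hbu]
  have hex : bu.equiv bw (Equiv.refl _) x = ∑ j, bu.repr x j • w j := by
    conv_lhs => rw [← bu.sum_repr x]
    rw [map_sum]
    refine Finset.sum_congr rfl fun j _ => ?_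
    rw [map_smul, Module.Basis.equiv_apply, Equiv.refl_apply, hbw]
  rw [hex]
  conv_rhs => rw [hx]
  rw [map_sum_of_ortho QV' Finset.univ w hwo, map_sum_of_ortho QV Finset.univ u huo]
  exact Finset.sum_congr rfl fun j _ => by rw [hQw]

end Abstract

section Geo

variable {ι : Type} [Fintype ι] [DecidableEq ι] {F : Type*} [Field F]

/-- matching orthogonal families in two subspaces of the same dimension give an isometry -/
theorem iso_of_families (h2 : (2 : F) ≠ 0) (Q : (ι → F) → F)
    (hQ : IsNondegenerateQuadraticForm Q) {k : ℕ} (hk : 1 ≤ k) (W W' : Submodule F (ι → F))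
    (hW : finrank F W = k) (hW' : finrank F W' = k) (u : Fin k → W) (w : Fin k → W')
    (huo : ∀ i j, i ≠ j → QuadraticMap.polar Q (u i : ι → F) (u j : ι → F) = 0)
    (hwo : ∀ i j, i ≠ j → QuadraticMap.polar Q (w i : ι → F) (w j : ι → F) = 0)
    (hQu : ∀ j, Q (u j : ι → F) ≠ 0) (hQw : ∀ j, Q (w j : ι → F) = Q (u j : ι → F)) :
    AreIsometricFor Q W W' := by
  obtain ⟨e, he⟩ := iso_of_families_abs h2 hk (OType.restr Q hQ W) (OType.restr Q hQ W') hW hW'
    u w huo hwo hQu hQw
  exact ⟨e, fun x => he x⟩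

/-- the type of `Q` from two orthogonal families of non-singular vectors in two orthogonal
subspaces, `k` vectors each, `|ι| = 2k` -/
theorem plus_iff_of_families [Fintype F] (h2 : (2 : F) ≠ 0) (Q : (ι → F) → F)
    (hQ : IsNondegenerateQuadraticForm Q) {k : ℕ} (hk : 1 ≤ k) (hcard : Fintype.card ι = 2 * k)
    (W W' : Submodule F (ι → F)) (horth : AreOrthogonalFor (QuadraticMap.polar Q) W W')
    (u w : Fin k → (ι → F)) (hu : ∀ j, u j ∈ W) (hw : ∀ j, w j ∈ W')
    (huo : ∀ i j, i ≠ j → QuadraticMap.polar Q (u i) (u j) = 0)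
    (hwo : ∀ i j, i ≠ j → QuadraticMap.polar Q (w i) (w j) = 0)
    (hQu : ∀ j, Q (u j) ≠ 0) (hQw : ∀ j, Q (w j) ≠ 0) :
    IsPlusTypeOn Q ⊤ ↔
      IsSquare ((-1 : F) ^ k * ((∏ j, 2 * Q (u j)) * (∏ j, 2 * Q (w j)))) := by
  classical
  let v : Fin k ⊕ Fin k → (ι → F) := Sum.elim u w
  have hvo : ∀ s s', s ≠ s' → QuadraticMap.polar Q (v s) (v s') = 0 := by
    rintro (i | i) (j | j) hne
    · exact huo i j (fun h => hne (congrArg Sum.inl h))
    · exact horth (u i) (hu i) (w j) (hw j)
    · show QuadraticMap.polar Q (w i) (u j) = 0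
      rw [QuadraticMap.polar_comm]
      exact horth (u j) (hu j) (w i) (hw i)
    · exact hwo i j (fun h => hne (congrArg Sum.inr h))
  have hQv : ∀ s, Q (v s) ≠ 0 := by
    rintro (i | i)
    · exact hQu i
    · exact hQw i
  have hli : LinearIndependent F v := linIndep_of_ortho (Helper98.op_qf Q hQ) h2 v hvo hQv
  have hfin : Fintype.card (Fin k ⊕ Fin k) = finrank F (ι → F) := by
    rw [Fintype.card_sum, Fintype.card_fin, Module.finrank_fintype_fun_eq_card, hcard]
    omega
  have hne : Nonempty (Fin k ⊕ Fin k) := ⟨Sum.inl ⟨0, by omega⟩⟩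
  let b : Module.Basis (Fin k ⊕ Fin k) F (ι → F) := basisOfLinearIndependentOfCardEqFinrank hli hfin
  have hb : ∀ s, b s = v s := fun s => by
    simp only [b, coe_basisOfLinearIndependentOfCardEqFinrank]
  have hgram : (Matrix.of fun s s' => QuadraticMap.polar Q (b s) (b s'))
      = Matrix.diagonal (fun s : Fin k ⊕ Fin k => 2 * Q (v s)) := by
    ext s s'
    rw [Matrix.of_apply, hb, hb]
    by_cases hss : s = s'
    · subst hss
      rw [Matrix.diagonal_apply_eq, OFrame.polar_self Q hQ]
    · rw [Matrix.diagonal_apply_ne _ hss, hvo s s' hss]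
  rw [o_plus_iff_disc h2 Q hQ hk hcard b, hgram, Matrix.det_diagonal, Fintype.prod_sum_type]
  rfl

end Geo

end OTwo

section Main

variable {ι : Type} [Fintype ι] [DecidableEq ι] {F : Type*} [Field F]

open OTwo in
/-- **Two odd blocks**: if `F^ι` is the orthogonal sum of two non-degenerate subspaces of the
same odd dimension, then `Q` is of plus type iff (the two are isometric iff `-1` is a square). -/
theorem o_two_blocks_plus_iff [Fintype F] (Q : (ι → F) → F) (hQ : IsNondegenerateQuadraticForm Q)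
    {k : ℕ} (hk : Odd k) (D : Fin 2 → Submodule F (ι → F))
    (hD : IsNondegenerateMDecomposition (QuadraticMap.polar Q) k D) :
    IsPlusTypeOn Q ⊤ ↔ (AreIsometricFor Q (D 0) (D 1) ↔ IsSquare (-1 : F)) := by
  classical
  have hfr0 := hD.decomp.finrank_eq 0
  have hfr1 := hD.decomp.finrank_eq 1
  have h2 : (2 : F) ≠ 0 := Helper76.o12_two_ne_of_odd Q hQ (D 0) (hD.nondegenerate 0) (by
    rw [hfr0]
    exact hk)
  have hcard : Fintype.card ι = 2 * k := by
    have := OFrame.card_decomp D hD.decomp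
    omega
  have hneg : (-1 : F) ^ k = -1 := hk.neg_one_pow
  obtain ⟨n, rfl⟩ : ∃ n, k = n + 1 := ⟨k - 1, by
    have := hk.pos
    omega⟩
  have h01 : AreOrthogonalFor (QuadraticMap.polar Q) (D 0) (D 1) := hD.orthogonal 0 1 (by decide)
  obtain ⟨v0, hv0o, hv0one, hv0last⟩ := diag_family h2 n (D 0) (OType.restr Q hQ (D 0)) hfr0
    (OType.polarNondeg_restr Q hQ _ (hD.nondegenerate 0))
  obtain ⟨v1, hv1o, hv1one, hv1last⟩ := diag_family h2 n (D 1) (OType.restr Q hQ (D 1)) hfr1
    (OType.polarNondeg_restr Q hQ _ (hD.nondegenerate 1))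
  have hv0o' : ∀ i j, i ≠ j → QuadraticMap.polar Q (v0 i : ι → F) (v0 j : ι → F) = 0 := hv0o
  have hv1o' : ∀ i j, i ≠ j → QuadraticMap.polar Q (v1 i : ι → F) (v1 j : ι → F) = 0 := hv1o
  have hv0one' : ∀ i, i ≠ Fin.last n → Q (v0 i : ι → F) = 1 := hv0one
  have hv1one' : ∀ i, i ≠ Fin.last n → Q (v1 i : ι → F) = 1 := hv1one
  have hv0last' : Q (v0 (Fin.last n) : ι → F) ≠ 0 := hv0last
  have hv1last' : Q (v1 (Fin.last n) : ι → F) ≠ 0 := hv1last
  have hQv0 : ∀ j, Q (v0 j : ι → F) ≠ 0 := by
    intro j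
    by_cases hj : j = Fin.last n
    · subst hj
      exact hv0last'
    · rw [hv0one' j hj]
      exact one_ne_zero
  have hQv1 : ∀ j, Q (v1 j : ι → F) ≠ 0 := by
    intro j
    by_cases hj : j = Fin.last n
    · subst hj
      exact hv1last'
    · rw [hv1one' j hj]
      exact one_ne_zero
  by_cases hiso : AreIsometricFor Q (D 0) (D 1)
  · simp only [hiso, true_iff]
    obtain ⟨φ, hφ⟩ := hiso
    have hpol : ∀ a b : D 0, QuadraticMap.polar Q ((φ a : D 1) : ι → F) ((φ b : D 1) : ι → F)
        = QuadraticMap.polar Q (a : ι → F) (b : ι → F) := by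
      intro a b
      have h1 := hφ (a + b)
      rw [map_add] at h1
      have h1' : Q (((φ a : D 1) : ι → F) + ((φ b : D 1) : ι → F))
          = Q ((a : ι → F) + (b : ι → F)) := h1
      unfold QuadraticMap.polar
      rw [h1', hφ a, hφ b]
    rw [plus_iff_of_families h2 Q hQ (by omega) hcard (D 0) (D 1) h01
      (fun j => (v0 j : ι → F)) (fun j => ((φ (v0 j) : D 1) : ι → F)) (fun j => (v0 j).2)
      (fun j => (φ (v0 j)).2) hv0o' (fun i j hij => by
        rw [hpol]
        exact hv0o' i j hij) hQv0 (fun j => by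
        rw [hφ]
        exact hQv0 j), hneg]
    simp only [hφ]
    have hP : (∏ j, 2 * Q (v0 j : ι → F)) ≠ 0 :=
      Finset.prod_ne_zero_iff.2 (fun j _ => mul_ne_zero h2 (hQv0 j))
    have e1 : (-1 : F) * ((∏ j, 2 * Q (v0 j : ι → F)) * (∏ j, 2 * Q (v0 j : ι → F)))
        = (∏ j, 2 * Q (v0 j : ι → F)) ^ 2 * (-1) := by ring
    rw [e1, isSquare_sq_mul_iff hP]
  · simp only [hiso, false_iff]
    rw [plus_iff_of_families h2 Q hQ (by omega) hcard (D 0) (D 1) h01
      (fun j => (v0 j : ι → F)) (fun j => (v1 j : ι → F)) (fun j => (v0 j).2)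
      (fun j => (v1 j).2) hv0o' hv1o' hQv0 hQv1, hneg]
    have hP0 : (∏ j, 2 * Q (v0 j : ι → F)) = 2 ^ (n + 1) * Q (v0 (Fin.last n) : ι → F) := by
      rw [Fin.prod_univ_castSucc]
      have h1 : ∀ j : Fin n, 2 * Q (v0 (Fin.castSucc j) : ι → F) = 2 := by
        intro j
        rw [hv0one' _ (Fin.castSucc_lt_last j).ne, mul_one]
      simp only [h1, Finset.prod_const, Finset.card_univ, Fintype.card_fin]
      ring
    have hP1 : (∏ j, 2 * Q (v1 j : ι → F)) = 2 ^ (n + 1) * Q (v1 (Fin.last n) : ι → F) := by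
      rw [Fin.prod_univ_castSucc]
      have h1 : ∀ j : Fin n, 2 * Q (v1 (Fin.castSucc j) : ι → F) = 2 := by
        intro j
        rw [hv1one' _ (Fin.castSucc_lt_last j).ne, mul_one]
      simp only [h1, Finset.prod_const, Finset.card_univ, Fintype.card_fin]
      ring
    rw [hP0, hP1]
    obtain ⟨d0, hd0⟩ : ∃ d0, d0 = Q (v0 (Fin.last n) : ι → F) := ⟨_, rfl⟩
    obtain ⟨d1, hd1⟩ : ∃ d1, d1 = Q (v1 (Fin.last n) : ι → F) := ⟨_, rfl⟩
    rw [← hd0, ← hd1]
    have hd0ne : d0 ≠ 0 := by rw [hd0]; exact hv0last'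
    have hd1ne : d1 ≠ 0 := by rw [hd1]; exact hv1last'
    have hns : ¬ IsSquare (d0 * d1) := by
      rintro ⟨s, hs⟩
      apply hiso
      have hc : (s / d1) * (s / d1) * d1 = d0 := by
        field_simp
        linear_combination (-1 : F) * hs
      let a : Fin (n + 1) → F := fun j => if j = Fin.last n then s / d1 else 1
      refine iso_of_families h2 Q hQ (by omega) (D 0) (D 1) hfr0 hfr1 v0
        (fun j => a j • v1 j) hv0o' ?_ hQv0 ?_
      · intro i j hij
        show QuadraticMap.polar Q (a i • (v1 i : ι → F)) (a j • (v1 j : ι → F)) = 0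
        rw [hQ.polar_bilinear.smul_left, hQ.polar_bilinear.smul_right, hv1o' i j hij, mul_zero,
          mul_zero]
      · intro j
        show Q (a j • (v1 j : ι → F)) = Q (v0 j : ι → F)
        rw [hQ.smul]
        by_cases hj : j = Fin.last n
        · subst hj
          simp only [a, if_true]
          rw [← hd0, ← hd1, ← hc]
          ring
        · simp only [a, hj, if_false]
          rw [hv0one' j hj, hv1one' j hj]
          ring
    have e : (-1 : F) * (2 ^ (n + 1) * d0 * (2 ^ (n + 1) * d1))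
        = ((2 : F) ^ (n + 1)) ^ 2 * (-1 * (d0 * d1)) := by ring
    rw [e, isSquare_sq_mul_iff (pow_ne_zero _ h2),
      isSquare_mul_nonsquare_iff (neg_ne_zero.2 one_ne_zero) hns]

end Main

end Cfsg.Agent.Helper33
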