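import Mathlib
import Cfsg.Agent.Helper96.OHDefs
import Cfsg.Agent.Helper43.SingCount
import Cfsg.Agent.Helper43.OrthEven
import Cfsg.Agent.S2617

set_option autoImplicit false
set_option linter.unusedSectionVars false
set_option linter.unusedVariables false

/-!
# S5992 piece OSINGCNT (helper33): number of singular vectors of a nondegenerate `2l`-space.
-/

namespace Cfsg.Agent.Helper33.OH5992

open Module Polynomial Cfsg Cfsg.Geo
open Cfsg.Agent.Helper13.TIu Cfsg.Agent.Helper96.OH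

variable {ι : Type} [Fintype ι] [DecidableEq ι] {F : Type*} [Field F] (Q : (ι → F) → F)

/-- transport of the count of singular vectors along a linear isometry onto a subspace -/
theorem osc_card_congr (N : Submodule F (ι → F)) {V' : Type*} [AddCommGroup V'] [Module F V']
    (Q' : V' → F) (Ψ : V' ≃ₗ[F] N) (hΨ : ∀ z, Q ((Ψ z : N) : ι → F) = Q' z) :
    Nat.card {v : ι → F // v ∈ N ∧ Q v = 0} = Nat.card {z : V' // Q' z = 0} := by
  apply Nat.card_congr
  refine
    { toFun := fun v => ⟨Ψ.symm ⟨v.1, v.2.1⟩, ?_⟩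
      invFun := fun z => ⟨((Ψ z.1 : N) : ι → F), (Ψ z.1).2, ?_⟩
      left_inv := ?_
      right_inv := ?_ }
  · rw [← hΨ, LinearEquiv.apply_symm_apply]
    exact v.2.2
  · rw [hΨ]
    exact z.2
  · intro v
    apply Subtype.ext
    show ((Ψ (Ψ.symm ⟨v.1, v.2.1⟩) : N) : ι → F) = v.1
    rw [LinearEquiv.apply_symm_apply]
  · intro z
    apply Subtype.ext
    show Ψ.symm ⟨((Ψ z.1 : N) : ι → F), (Ψ z.1).2⟩ = z.1
    rw [Subtype.coe_eta, LinearEquiv.symm_apply_apply]

theorem o_sing_count [Fintype F] (hQ : IsNondegenerateQuadraticForm Q) (N : Submodule F (ι → F))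
    (hN : ONd Q N) (l : ℕ) (hl : 1 ≤ l) (hdim : finrank F N = 2 * l) :
    (OPl Q N → Fintype.card F * Nat.card {v : ι → F // v ∈ N ∧ Q v = 0} =
      Fintype.card F ^ (l + 1) + (Fintype.card F ^ l - 1) * Fintype.card F ^ l) ∧
    (¬ OPl Q N → Fintype.card F * Nat.card {v : ι → F // v ∈ N ∧ Q v = 0} =
      Fintype.card F ^ l +
        Fintype.card F ^ 2 * (Fintype.card F ^ (l - 1) - 1) * Fintype.card F ^ (l - 1)) := by
  have hnd := Cfsg.Agent.Helper33.OType.polarNondeg_restr Q hQ N hN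
  have hiff := Cfsg.Agent.Helper33.OType.plus_iff_hasTS Q hQ N hN hdim
  have hcF : Nat.card F = Fintype.card F := Nat.card_eq_fintype_card
  constructor
  · intro hpl
    obtain ⟨Ψ, hΨ⟩ := Cfsg.Agent.Helper43.OrthEven.exists_plus_of_hasTS hl hdim
      (Cfsg.Agent.Helper33.OType.restr Q hQ N) hnd (hiff.mp hpl)
    rw [osc_card_congr Q N (Cfsg.quadFormPlus l F) Ψ (fun z => hΨ z), ← hcF]
    exact Cfsg.Agent.Helper43.SingCount.card_sing_plus l
  · intro hpl
    obtain ⟨ζ, hζ, Ψ, hΨ⟩ := Cfsg.Agent.Helper43.OrthEven.exists_minus_of_not_hasTS hl hdim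
      (Cfsg.Agent.Helper33.OType.restr Q hQ N) hnd (fun h => hpl (hiff.mpr h))
    rw [osc_card_congr Q N (Cfsg.quadFormMinus (l - 1) F 1 ζ) Ψ (fun z => hΨ z), ← hcF]
    have h := Cfsg.Agent.Helper43.SingCount.card_sing_minus (F := F) (l - 1) 1 ζ
      (Cfsg.Agent.S2617.aniso ζ hζ)
    have hl1 : l - 1 + 1 = l := by omega
    rw [hl1] at h
    exact h

end Cfsg.Agent.Helper33.OH5992
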