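import Mathlib
import Cfsg.Agent.Helper96.OHDefs
import Cfsg.Agent.Helper43.OrthEven

set_option autoImplicit false
set_option linter.unusedSectionVars false
set_option linter.unusedVariables false

/-!
# S5992 piece OLINE (helper33): completing a nonsingular vector orthogonal to a nondegenerate
plane to a nondegenerate plane of prescribed type.
-/

namespace Cfsg.Agent.Helper33.OH5992

open Module Polynomial Cfsg Cfsg.Geo
open Cfsg.Agent.Helper13.TIu Cfsg.Agent.Helper96.OH

variable {ι : Type} [Fintype ι] [DecidableEq ι] {F : Type*} [Field F] (Q : (ι → F) → F)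

theorem ol_card_odd [Fintype F] (h2 : (2 : F) ≠ 0) : Fintype.card F % 2 = 1 := by
  have h := FiniteField.even_card_iff_char_two (F := F)
  have hne : ringChar F ≠ 2 := by
    intro hc
    haveI : CharP F 2 := ringChar.of_eq hc
    exact h2 (by exact_mod_cast CharP.cast_eq_zero F 2)
  have : ¬ Fintype.card F % 2 = 0 := fun h0 => hne (h.mpr h0)
  omega

theorem ol_ringChar [Fintype F] (h2 : (2 : F) ≠ 0) : ringChar F ≠ 2 := by
  intro hc
  haveI : CharP F 2 := ringChar.of_eq hc
  exact h2 (by exact_mod_cast CharP.cast_eq_zero F 2)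

/-- the anisotropic binary form `x² + x y + ζ y²` represents every scalar -/
theorem ol_binary [Fintype F] (h2 : (2 : F) ≠ 0) (ζ : F) (hζ : ∀ t : F, t ^ 2 + t + ζ ≠ 0)
    (c : F) : ∃ x y : F, x ^ 2 + 1 * x * y + ζ * y ^ 2 = c := by
  have h4 : (4 : F) ≠ 0 := by
    have : (4 : F) = 2 * 2 := by norm_num
    rw [this]
    exact mul_ne_zero h2 h2
  obtain ⟨t, ht⟩ : ∃ t : F, 2 * t = 1 := ⟨2⁻¹, mul_inv_cancel₀ h2⟩
  have hδ : 4 * ζ - 1 ≠ 0 := by
    intro h
    apply hζ (-t)
    apply mul_left_cancel₀ h4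
    linear_combination h + (2 * t - 1) * ht
  obtain ⟨a, b, hab⟩ := FiniteField.exists_root_sum_quadratic (R := F)
    (f := X ^ 2 - C (4 * c)) (g := C (4 * ζ - 1) * X ^ 2)
    (degree_X_pow_sub_C (by decide) _) (degree_C_mul_X_pow 2 hδ) (ol_card_odd h2)
  simp only [eval_sub, eval_pow, eval_X, eval_C, eval_mul] at hab
  refine ⟨(a - b) * t, b, ?_⟩
  apply mul_left_cancel₀ h4
  linear_combination hab + ((a - b) ^ 2 * (2 * t + 1) + 2 * (a - b) * b) * ht

/-- a nondegenerate plane is universal -/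
theorem ol_universal [Fintype F] (hQ : IsNondegenerateQuadraticForm Q) (h2 : (2 : F) ≠ 0)
    (Pi : Submodule F (ι → F)) (hPi : ONd Q Pi) (hdim : finrank F Pi = 2) (c : F) :
    ∃ l ∈ Pi, Q l = c := by
  have hnd := Cfsg.Agent.Helper33.OType.polarNondeg_restr Q hQ Pi hPi
  have hdim' : finrank F Pi = 2 * 1 := by omega
  by_cases hts : Cfsg.Agent.Helper43.OrthEven.HasTS (Cfsg.Agent.Helper33.OType.restr Q hQ Pi) 1
  · obtain ⟨Ψ, hΨ⟩ := Cfsg.Agent.Helper43.OrthEven.exists_plus_of_hasTS (le_refl 1) hdim'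
      (Cfsg.Agent.Helper33.OType.restr Q hQ Pi) hnd hts
    refine ⟨(Ψ (Sum.elim (fun _ => 1) (fun _ => c)) : Pi), (Ψ _).2, ?_⟩
    have h := hΨ (Sum.elim (fun _ => 1) (fun _ => c))
    rw [Cfsg.Agent.Helper33.OType.restr_apply] at h
    rw [h]
    simp [Cfsg.quadFormPlus]
  · obtain ⟨ζ, hζ, Ψ, hΨ⟩ := Cfsg.Agent.Helper43.OrthEven.exists_minus_of_not_hasTS (le_refl 1)
      hdim' (Cfsg.Agent.Helper33.OType.restr Q hQ Pi) hnd hts
    obtain ⟨x, y, hxy⟩ := ol_binary h2 ζ hζ c
    refine ⟨(Ψ (Sum.elim (fun _ => 0) ![x, y]) : Pi), (Ψ _).2, ?_⟩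
    have h := hΨ (Sum.elim (fun _ => 0) ![x, y])
    rw [Cfsg.Agent.Helper33.OType.restr_apply] at h
    rw [h, ← hxy]
    simp [Cfsg.quadFormMinus]

theorem o_line [Fintype F] (hQ : IsNondegenerateQuadraticForm Q) (h2 : (2 : F) ≠ 0)
    (Pi : Submodule F (ι → F)) (hPi : ONd Q Pi) (hdim : finrank F Pi = 2) (f : ι → F)
    (hf : Q f ≠ 0) (horth : ∀ v ∈ Pi, QuadraticMap.polar Q f v = 0) (b : Prop) :
    ∃ l ∈ Pi, ONd Q (Submodule.span F {f, l}) ∧ finrank F (Submodule.span F {f, l}) = 2 ∧
      (OPl Q (Submodule.span F {f, l}) ↔ b) := by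
  classical
  have hb := hQ.polar_bilinear
  obtain ⟨γ, hγ0, hγ⟩ : ∃ γ : F, γ ≠ 0 ∧
      ((∃ x y : F, (x ≠ 0 ∨ y ≠ 0) ∧ x ^ 2 * Q f + y ^ 2 * γ = 0) ↔ b) := by
    by_cases hbb : b
    · refine ⟨-Q f, neg_ne_zero.mpr hf, ?_⟩
      simp only [hbb, iff_true]
      exact ⟨1, 1, Or.inl one_ne_zero, by ring⟩
    · obtain ⟨ε, hε⟩ := FiniteField.exists_nonsquare (F := F) (ol_ringChar h2)
      have hε0 : ε ≠ 0 := by
        rintro rfl
        exact hε ⟨0, by simp⟩
      refine ⟨-Q f * ε, mul_ne_zero (neg_ne_zero.mpr hf) hε0, ?_⟩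
      simp only [hbb, iff_false]
      rintro ⟨x, y, hxy, h⟩
      have h1 : x ^ 2 = ε * y ^ 2 := by
        have h3 : Q f * (x ^ 2 - ε * y ^ 2) = 0 := by linear_combination h
        rcases mul_eq_zero.mp h3 with h' | h'
        · exact absurd h' hf
        · linear_combination h'
      by_cases hy : y = 0
      · subst hy
        have hx : x = 0 := by
          have : x ^ 2 = 0 := by rw [h1]; ring
          exact pow_eq_zero_iff (two_ne_zero) |>.mp this
        rcases hxy with h' | h'
        · exact h' hx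
        · exact h' rfl
      · apply hε
        refine ⟨x / y, ?_⟩
        field_simp
        linear_combination -h1
  obtain ⟨l, hl, hQl⟩ := ol_universal Q hQ h2 Pi hPi hdim γ
  have hfl : QuadraticMap.polar Q f l = 0 := horth l hl
  have hlf : QuadraticMap.polar Q l f = 0 := by rw [QuadraticMap.polar_comm]; exact hfl
  have hff : QuadraticMap.polar Q f f = 2 * Q f := by
    rw [← pB_apply Q hQ, pB_self]
  have hll : QuadraticMap.polar Q l l = 2 * γ := by
    rw [← pB_apply Q hQ, pB_self, hQl]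
  have hQxy : ∀ x y : F, Q (x • f + y • l) = x ^ 2 * Q f + y ^ 2 * γ := by
    intro x y
    rw [q_add Q, hQ.smul, hQ.smul, hb.smul_left, hb.smul_right, hfl, hQl]
    ring
  have hpf : ∀ x y : F, QuadraticMap.polar Q (x • f + y • l) f = 2 * x * Q f := by
    intro x y
    rw [hb.add_left, hb.smul_left, hb.smul_left, hff, hlf]
    ring
  have hpl : ∀ x y : F, QuadraticMap.polar Q (x • f + y • l) l = 2 * y * γ := by
    intro x y
    rw [hb.add_left, hb.smul_left, hb.smul_left, hfl, hll]
    ring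
  have hp0 : ∀ v : ι → F, QuadraticMap.polar Q 0 v = 0 := by
    intro v
    have := hb.smul_left 0 0 v
    rw [zero_smul, zero_mul] at this
    exact this
  have hzero : ∀ x y : F, x • f + y • l = 0 → x = 0 ∧ y = 0 := by
    intro x y h
    have h1 := hpf x y
    have h3 := hpl x y
    rw [h, hp0] at h1 h3
    constructor
    · rcases mul_eq_zero.mp h1.symm with h' | h'
      · rcases mul_eq_zero.mp h' with h'' | h''
        · exact absurd h'' h2
        · exact h''
      · exact absurd h' hf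
    · rcases mul_eq_zero.mp h3.symm with h' | h'
      · rcases mul_eq_zero.mp h' with h'' | h''
        · exact absurd h'' h2
        · exact h''
      · exact absurd h' hγ0
  have hfS : f ∈ Submodule.span F ({f, l} : Set (ι → F)) :=
    Submodule.subset_span (Set.mem_insert _ _)
  have hlS : l ∈ Submodule.span F ({f, l} : Set (ι → F)) :=
    Submodule.subset_span (Set.mem_insert_of_mem _ (Set.mem_singleton _))
  have hdimS : finrank F (Submodule.span F ({f, l} : Set (ι → F))) = 2 := by
    have hli : LinearIndependent F ![f, l] := by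
      rw [LinearIndependent.pair_iff]
      exact hzero
    have h := finrank_span_eq_card hli
    rw [Matrix.range_cons_cons_empty] at h
    rw [h]
    simp
  refine ⟨l, hl, ?_, hdimS, ?_⟩
  · intro w hw hw0
    rw [Submodule.mem_span_pair] at hw
    obtain ⟨x, y, rfl⟩ := hw
    by_cases hx : x = 0
    · have hy : y ≠ 0 := by
        rintro rfl
        apply hw0
        rw [hx, zero_smul, zero_smul, add_zero]
      have hne : QuadraticMap.polar Q (x • f + y • l) l ≠ 0 := by
        rw [hpl]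
        exact mul_ne_zero (mul_ne_zero h2 hy) hγ0
      exact ⟨⟨l, hlS, by rwa [QuadraticMap.polar_comm]⟩, ⟨l, hlS, hne⟩⟩
    · have hne : QuadraticMap.polar Q (x • f + y • l) f ≠ 0 := by
        rw [hpf]
        exact mul_ne_zero (mul_ne_zero h2 hx) hf
      exact ⟨⟨f, hfS, by rwa [QuadraticMap.polar_comm]⟩, ⟨f, hfS, hne⟩⟩
  · rw [← hγ]
    constructor
    · rintro ⟨U, hUS, hts, hd⟩
      have hU1 : finrank F U = 1 := by omega
      have hUne : U ≠ ⊥ := by
        intro h
        rw [h, finrank_bot] at hU1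
        omega
      obtain ⟨u, hu, hu0⟩ := Submodule.exists_mem_ne_zero_of_ne_bot hUne
      have huS := hUS hu
      rw [Submodule.mem_span_pair] at huS
      obtain ⟨x, y, rfl⟩ := huS
      refine ⟨x, y, ?_, ?_⟩
      · by_contra hcon
        push Not at hcon
        apply hu0
        rw [hcon.1, hcon.2, zero_smul, zero_smul, add_zero]
      · rw [← hQxy]
        exact hts _ hu
    · rintro ⟨x, y, hxy, h⟩
      have hv0 : x • f + y • l ≠ 0 := by
        intro h0
        obtain ⟨hx, hy⟩ := hzero x y h0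
        rcases hxy with h' | h'
        · exact h' hx
        · exact h' hy
      refine ⟨Submodule.span F {x • f + y • l}, ?_, ?_, ?_⟩
      · rw [Submodule.span_singleton_le_iff_mem]
        exact Submodule.add_mem _ (Submodule.smul_mem _ _ hfS) (Submodule.smul_mem _ _ hlS)
      · intro w hw
        rw [Submodule.mem_span_singleton] at hw
        obtain ⟨c, rfl⟩ := hw
        rw [hQ.smul, hQxy, h, mul_zero]
      · rw [finrank_span_singleton hv0, hdimS]

end Cfsg.Agent.Helper33.OH5992
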