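import Mathlib
import Cfsg.Agent.Helper90.HTDefs

set_option autoImplicit false
set_option linter.unusedSectionVars false
set_option linter.unusedVariables false

namespace Cfsg.Agent.Helper33.HT5953

open Module Polynomial Cfsg.Agent.Helper90.HT

section geom

variable {F : Type*} [Field F] {V : Type*} [AddCommGroup V] [Module F V] [FiniteDimensional F V]
  (σ : F →+* F) (h : V → V → F)

/-- HSUM -/
theorem ht_sum (hh : IsHerm σ h) (A A' C D : Submodule F V) (hA : A ≤ C) (hA' : A' ≤ D)
    (hCD : C ⊓ D = ⊥) (hB : ∀ u ∈ C, ∀ v ∈ D, h u v = 0) (h1 : HTI h A) (h2 : HTI h A') :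
    HTI h (A ⊔ A') ∧ finrank F ↥(A ⊔ A') = finrank F A + finrank F A' := by
  constructor
  · intro u hu v hv
    obtain ⟨a, ha, a', ha', rfl⟩ := Submodule.mem_sup.mp hu
    obtain ⟨b, hb, b', hb', rfl⟩ := Submodule.mem_sup.mp hv
    rw [hh.add_left, hh.add_right, hh.add_right, h1 a ha b hb, hB a (hA ha) b' (hA' hb'),
      hh.eq_zero_symm (hB b (hA hb) a' (hA' ha')), h2 a' ha' b' hb']
    simp
  · have hinf : A ⊓ A' = ⊥ := by
      rw [eq_bot_iff, ← hCD]
      exact inf_le_inf hA hA'
    have := Submodule.finrank_sup_add_finrank_inf_eq A A'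
    rw [hinf, finrank_bot] at this
    omega

end geom

end Cfsg.Agent.Helper33.HT5953
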