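import Cfsg.Agent.Helper22.Fitting

set_option autoImplicit false
set_option linter.unusedSectionVars false
set_option linter.unusedVariables false

namespace Cfsg.Agent.Helper33

open Cfsg Subgroup

universe u

section Pure

variable {Γ : Type u} [Group Γ] [Finite Γ]

/-- QC. `O_{q'}(L / O_{q'}(L)) = 1`, in the ambient form used here
(preimage of a normal q'-subgroup of the image is a normal q'-subgroup of `↥L`). -/
theorem bg15_core_quot (L N : Subgroup Γ) [N.Normal] {q : ℕ}
    (hN : N = (Cfsg.pPrimeCore q ↥L).map L.subtype) :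
    Cfsg.pPrimeCore q ↥(L.map (QuotientGroup.mk' N)) = ⊥ := by
  set f : ↥L →* ↥(L.map (QuotientGroup.mk' N)) := (QuotientGroup.mk' N).subgroupMap L with hf
  have hsurj : Function.Surjective f := MonoidHom.subgroupMap_surjective _ _
  have hfval : ∀ x : ↥L, ((f x : ↥(L.map (QuotientGroup.mk' N))) : Γ ⧸ N) =
      QuotientGroup.mk' N (x : Γ) := fun x => rfl
  have hker : f.ker = Cfsg.pPrimeCore q ↥L := by
    ext x
    rw [MonoidHom.mem_ker]
    constructor
    · intro h
      have h1 : QuotientGroup.mk' N (x : Γ) = 1 := by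
        rw [← hfval, h]; rfl
      rw [QuotientGroup.mk'_apply, QuotientGroup.eq_one_iff, hN] at h1
      obtain ⟨y, hy, hyx⟩ := h1
      have hyx' : y = x := Subtype.ext hyx
      rw [← hyx']; exact hy
    · intro h
      apply Subtype.ext
      have hxN : (x : Γ) ∈ N := by rw [hN]; exact ⟨x, h, rfl⟩
      rw [hfval, QuotientGroup.mk'_apply]
      exact (QuotientGroup.eq_one_iff _).mpr hxN
  apply sSup_eq_bot.mpr
  rintro M ⟨hMn, hMc⟩
  have hcard : Nat.card ↥(M.comap f) = Nat.card ↥(Cfsg.pPrimeCore q ↥L) * Nat.card M := by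
    have h1 := Subgroup.card_mul_index (M.comap f)
    have h2 := Subgroup.card_mul_index M
    have h3 : Nat.card ↥L = Nat.card f.ker * Nat.card ↥(L.map (QuotientGroup.mk' N)) := by
      have h30 := Subgroup.card_eq_card_quotient_mul_card_subgroup f.ker
      rw [h30, mul_comm]
      congr 1
      exact Nat.card_congr (QuotientGroup.quotientKerEquivOfSurjective f hsurj).toEquiv
    rw [Subgroup.index_comap_of_surjective M hsurj] at h1
    have h4 : M.index ≠ 0 := Subgroup.index_ne_zero_of_finite
    have h5 : Nat.card ↥(M.comap f) * M.index =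
        (Nat.card ↥(Cfsg.pPrimeCore q ↥L) * Nat.card M) * M.index := by
      rw [h1, h3, hker, ← h2]; ring
    exact Nat.eq_of_mul_eq_mul_right (Nat.pos_of_ne_zero h4) h5
  have hle : M.comap f ≤ Cfsg.pPrimeCore q ↥L :=
    le_sSup ⟨hMn.comap _, by
      rw [hcard]
      exact Nat.Coprime.mul_left (Cfsg.Agent.Helper22.card_pPrimeCore_coprime q ↥L) hMc⟩
  have h6 : M = (M.comap f).map f := (Subgroup.map_comap_eq_self_of_surjective hsurj M).symm
  rw [h6, eq_bot_iff]
  calc (M.comap f).map f ≤ (Cfsg.pPrimeCore q ↥L).map f := Subgroup.map_mono hle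
    _ = f.ker.map f := by rw [hker]
    _ = ⊥ := by rw [Subgroup.map_eq_bot_iff]

end Pure

end Cfsg.Agent.Helper33
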