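/-
Helper33: the type of an orthogonal space carrying an isometric orthogonal decomposition into
even-dimensional blocks (piece X3 of the shared Ω^± library).

* `o_blocks_plus_iff` : if `D : Fin t → Submodule` is an `IsOrthogonalMDecomposition Q k` with
  `k` even, then `Q` is of plus type on `⊤` iff `D i₀` is of plus type or `t` is even.
-/
import Cfsg.Agent.Helper33.OType

set_option linter.unusedVariables false
set_option linter.unusedSectionVars false

namespace Cfsg.Agent.Helper33

open Cfsg Cfsg.Geo Matrix Module

namespace OBlocks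

variable {ι : Type} [Fintype ι] [DecidableEq ι] {F : Type*} [Field F]

/-- the partial sum `D 0 ⊔ ⋯ ⊔ D (j-1)` of a family of subspaces -/
def psum {t : ℕ} (D : Fin t → Submodule F (ι → F)) (j : ℕ) : Submodule F (ι → F) :=
  ⨆ (i : Fin t) (_ : (i : ℕ) < j), D i

theorem psum_zero {t : ℕ} (D : Fin t → Submodule F (ι → F)) : psum D 0 = ⊥ := by
  unfold psum
  rw [eq_bot_iff]
  exact iSup₂_le fun i hi => absurd hi (Nat.not_lt_zero _)

theorem psum_succ {t : ℕ} (D : Fin t → Submodule F (ι → F)) {j : ℕ} (hj : j < t) :
    psum D (j + 1) = psum D j ⊔ D ⟨j, hj⟩ := by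
  unfold psum
  apply le_antisymm
  · refine iSup₂_le fun i hi => ?_
    rcases Nat.lt_succ_iff_lt_or_eq.1 hi with h | h
    · exact le_sup_of_le_left (le_iSup₂_of_le i h le_rfl)
    · have : i = ⟨j, hj⟩ := Fin.ext h
      subst this
      exact le_sup_right
  · refine sup_le (iSup₂_le fun i hi => le_iSup₂_of_le i (Nat.lt_succ_of_lt hi) le_rfl) ?_
    exact le_iSup₂_of_le ⟨j, hj⟩ (Nat.lt_succ_self j) le_rfl

theorem psum_top {t : ℕ} (D : Fin t → Submodule F (ι → F)) : psum D t = iSup D := by
  unfold psum
  apply le_antisymm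
  · exact iSup₂_le fun i _ => le_iSup D i
  · exact iSup_le fun i => le_iSup₂_of_le i i.2 le_rfl

theorem psum_orth (Q : (ι → F) → F) (hQ : IsNondegenerateQuadraticForm Q) {t : ℕ}
    (D : Fin t → Submodule F (ι → F))
    (horth : ∀ i j, i ≠ j → AreOrthogonalFor (QuadraticMap.polar Q) (D i) (D j))
    {j : ℕ} (hj : j < t) :
    AreOrthogonalFor (QuadraticMap.polar Q) (psum D j) (D ⟨j, hj⟩) := by
  have hb := hQ.polar_bilinear
  let P : Submodule F (ι → F) :=
    { carrier := {x | ∀ v ∈ D ⟨j, hj⟩, QuadraticMap.polar Q x v = 0}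
      add_mem' := by
        intro a b ha hb' v hv
        rw [hb.add_left, ha v hv, hb' v hv, add_zero]
      zero_mem' := by
        intro v hv
        have := hb.smul_left 0 0 v
        rwa [zero_smul, zero_mul] at this
      smul_mem' := by
        intro c a ha v hv
        rw [hb.smul_left, ha v hv, mul_zero] }
  have hle : psum D j ≤ P := by
    unfold psum
    refine iSup₂_le fun i hi => ?_
    intro x hx v hv
    exact horth i ⟨j, hj⟩ (fun h => by
      have := congrArg Fin.val h
      simp only at this
      omega) x hx v hv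
  intro u hu v hv
  exact hle hu v hv

end OBlocks

section Main

variable {ι : Type} [Fintype ι] [DecidableEq ι] {F : Type*} [Field F]

open OBlocks in
/-- **Blocks**: for an isometric orthogonal decomposition into `t` blocks of even dimension `k`,
`Q` is of plus type iff the blocks are of plus type or `t` is even. -/
theorem o_blocks_plus_iff [Fintype F] (Q : (ι → F) → F) (hQ : IsNondegenerateQuadraticForm Q)
    {t k : ℕ} (hk : Even k) (D : Fin t → Submodule F (ι → F))
    (hD : IsOrthogonalMDecomposition Q k D) (i₀ : Fin t) :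
    IsPlusTypeOn Q ⊤ ↔ (IsPlusTypeOn Q (D i₀) ∨ Even t) := by
  have key : ∀ j, j ≤ t → IsNondegenerateOn (QuadraticMap.polar Q) (psum D j) ∧
      Even (finrank F (psum D j)) ∧
      (IsPlusTypeOn Q (psum D j) ↔ (IsPlusTypeOn Q (D i₀) ∨ Even j)) := by
    intro j
    induction j with
    | zero =>
      intro _
      rw [psum_zero]
      refine ⟨?_, ?_, ?_⟩
      · intro w hw hw0
        exact absurd ((Submodule.mem_bot F).1 hw) hw0
      · rw [finrank_bot]
        exact Even.zero
      · simp only [o_plus_bot Q hQ, true_iff]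
        exact Or.inr Even.zero
    | succ j ih =>
      intro hj
      have hjt : j < t := hj
      obtain ⟨hnd, hev, hplus⟩ := ih (le_of_lt hjt)
      have horth := psum_orth Q hQ D hD.decomp.orthogonal hjt
      have hndj := hD.decomp.nondegenerate ⟨j, hjt⟩
      have hevj : Even (finrank F (D ⟨j, hjt⟩)) := by
        rw [hD.decomp.decomp.finrank_eq]
        exact hk
      rw [psum_succ D hjt]
      refine ⟨OType.nondeg_sup Q hQ _ _ hnd hndj horth, ?_, ?_⟩
      · rw [OType.finrank_sup_of_orth Q _ _ hnd horth]
        exact hev.add hevj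
      · rw [o_type_mul Q hQ _ _ hnd hndj horth hev hevj, hplus,
          o_type_iso Q _ _ (hD.isometric ⟨j, hjt⟩ i₀)]
        by_cases hp : IsPlusTypeOn Q (D i₀)
        · simp only [hp, true_or]
        · simp only [hp, false_or, iff_false]
          exact Nat.even_add_one.symm
  obtain ⟨-, -, h⟩ := key t le_rfl
  rw [psum_top, hD.decomp.decomp.iSup_eq_top] at h
  exact h

end Main

end Cfsg.Agent.Helper33
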