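/-
Helper33 library: consequences of the two-families theory (Helper43.TwoFam) for `Ω` of a
non-degenerate quadratic form of plus type, all characteristics, general index type:
* `o_no_swap`        : `Ω` never maps a maximal totally singular subspace to one of the other family;
* `o_ts_codim_one`   : the stabiliser in `Ω` of a t.s. subspace of dimension `n/2 - 1` stabilises
                       a t.s. subspace of dimension `n/2` containing it;
* `o_ts_pair`, `o_ts_decomp_two` : for `n/2` odd, an element of `Ω` permuting two complementary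
                       maximal t.s. subspaces fixes both.
-/
import Cfsg.Agent.Helper43.TwoFamGeo

set_option autoImplicit false

namespace Cfsg.Agent.Helper33

open Cfsg Cfsg.Geo Matrix Module

variable {ι : Type} [Fintype ι] [DecidableEq ι] {F : Type*} [Field F]

/-- `Ω` never maps a maximal totally singular subspace `U₁` onto a subspace `U₂` meeting `U₁` in
odd codimension (i.e. of the other family). -/
theorem o_no_swap (Q : (ι → F) → F) (hQ : IsNondegenerateQuadraticForm Q)
    (U₁ U₂ : Submodule F (ι → F)) (hU₁ : IsTotallySingularQuad Q U₁)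
    (h1 : 2 * finrank F U₁ = Fintype.card ι)
    (hodd : Odd (finrank F U₁ - finrank F ↥(U₁ ⊓ U₂))) (g : GL ι F) (hg : g ∈ omegaGL Q) :
    U₁.map (Matrix.toLin' (g : Matrix ι ι F)) ≠ U₂ := by
  intro heq
  obtain ⟨x, hx, rfl⟩ := (Helper43.TwoFam.mem_omegaGL_iff Q g).1 hg
  have hS := Helper43.TwoFam.qspace_of Q hQ (m := finrank F U₁) h1.symm
  have hE : Helper43.TwoFam.MTS Q (finrank F U₁) U₁ := ⟨rfl, hU₁⟩
  have hev := Helper43.TwoFam.even_of_mem_commutator hS hE x hx
  have himg : Helper43.TwoFam.img (x : GL ι F) U₁ = U₂ := heq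
  rw [himg] at hev
  exact (Nat.not_even_iff_odd.2 hodd) hev

/-- In a plus-type space, the stabiliser in `Ω` of a totally singular subspace `W` of dimension
`n/2 - 1` stabilises a totally singular subspace of dimension `n/2` containing `W`. -/
theorem o_ts_codim_one (Q : (ι → F) → F) (hQ : IsNondegenerateQuadraticForm Q)
    (hplus : IsPlusTypeOn Q ⊤) (W : Submodule F (ι → F)) (hW : IsTotallySingularQuad Q W)
    (hdim : 2 * (finrank F W + 1) = Fintype.card ι) :
    ∃ U : Submodule F (ι → F), W ≤ U ∧ IsTotallySingularQuad Q U ∧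
      2 * finrank F U = Fintype.card ι ∧
      subspaceStabilizer W ⊓ omegaGL Q ≤ subspaceStabilizer U := by
  classical
  have hS := Helper43.TwoFam.qspace_of Q hQ (m := finrank F W + 1) hdim.symm
  obtain ⟨U₀, -, hU₀ts, hU₀dim⟩ := hplus
  have hU₀ : Helper43.TwoFam.MTS Q (finrank F W + 1) U₀ := by
    refine ⟨?_, hU₀ts⟩
    rw [finrank_top, Module.finrank_fintype_fun_eq_card] at hU₀dim
    omega
  obtain ⟨W₁, W₂, hW₁, hW₂, hWW₁, hWW₂, hne, huniq⟩ := hS.two_mts hU₀ hW rfl
  refine ⟨W₁, hWW₁, hW₁.2, by rw [hW₁.1]; exact hdim, ?_⟩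
  intro g hg
  obtain ⟨x, hx, rfl⟩ := (Helper43.TwoFam.mem_omegaGL_iff Q g).1 hg.2
  have himgW : Helper43.TwoFam.img (x : GL ι F) W = W :=
    Helper43.TwoFam.img_eq_of_mem_stab hg.1
  have hmts := Helper43.TwoFam.mts_img x hW₁
  have hle : W ≤ Helper43.TwoFam.img (x : GL ι F) W₁ := by
    rw [← himgW]
    exact Submodule.map_mono hWW₁
  rcases huniq _ hmts hle with h | h
  · exact Helper43.TwoFam.mem_stab_of_img_eq h
  · exfalso
    have hev := Helper43.TwoFam.even_of_mem_commutator hS hW₁ x hx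
    rw [h] at hev
    have hge : finrank F W ≤ finrank F ↥(W₁ ⊓ W₂) :=
      Submodule.finrank_mono (le_inf hWW₁ hWW₂)
    have hlt : finrank F ↥(W₁ ⊓ W₂) < finrank F W + 1 := by
      by_contra hcon
      have h3 : finrank F ↥(W₁ ⊓ W₂) ≤ finrank F W₁ := Submodule.finrank_mono inf_le_left
      have h4 : finrank F ↥(W₁ ⊓ W₂) = finrank F W₁ := by
        rw [hW₁.1] at h3 ⊢
        omega
      have h5 : W₁ ⊓ W₂ = W₁ := Submodule.eq_of_le_of_finrank_eq inf_le_left h4
      have h6 : W₁ ≤ W₂ := by
        rw [← h5]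
        exact inf_le_right
      exact hne (Submodule.eq_of_le_of_finrank_eq h6 (by rw [hW₁.1, hW₂.1]))
    have h7 : finrank F W + 1 - finrank F ↥(W₁ ⊓ W₂) = 1 := by omega
    rw [h7] at hev
    exact absurd hev (by decide)

/-- For `n/2` odd, an element of `Ω` that maps a maximal totally singular subspace `U₁` to itself
or to a complementary subspace `U₂` stabilises `U₁`. -/
theorem o_ts_pair (Q : (ι → F) → F) (hQ : IsNondegenerateQuadraticForm Q)
    (U₁ U₂ : Submodule F (ι → F)) (hU₁ : IsTotallySingularQuad Q U₁)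
    (h1 : 2 * finrank F U₁ = Fintype.card ι) (hdisj : U₁ ⊓ U₂ = ⊥)
    (hodd : Odd (finrank F U₁)) (g : GL ι F) (hg : g ∈ omegaGL Q)
    (hperm : U₁.map (Matrix.toLin' (g : Matrix ι ι F)) = U₁ ∨
      U₁.map (Matrix.toLin' (g : Matrix ι ι F)) = U₂) :
    g ∈ subspaceStabilizer U₁ := by
  rcases hperm with h | h
  · exact Helper43.TwoFam.mem_stab_of_img_eq h
  · exfalso
    refine o_no_swap Q hQ U₁ U₂ hU₁ h1 ?_ g hg h
    rw [hdisj, finrank_bot, Nat.sub_zero]
    exact hodd

/-- For `n/2` odd, the stabiliser in `Ω` of a pair of complementary maximal totally singular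
subspaces stabilises each of them. -/
theorem o_ts_decomp_two (Q : (ι → F) → F) (hQ : IsNondegenerateQuadraticForm Q)
    (D : Fin 2 → Submodule F (ι → F)) (hts : IsTotallySingularQuad Q (D 0))
    (h1 : 2 * finrank F (D 0) = Fintype.card ι) (hdisj : D 0 ⊓ D 1 = ⊥)
    (hodd : Odd (finrank F (D 0))) :
    decompositionStabilizer D ⊓ omegaGL Q ≤ subspaceStabilizer (D 0) := by
  intro g hg
  obtain ⟨σ, hσ⟩ := hg.1
  refine o_ts_pair Q hQ (D 0) (D 1) hts h1 hdisj hodd g hg.2 ?_
  have h0 := hσ 0
  have h01 : σ 0 = 0 ∨ σ 0 = 1 := by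
    generalize σ 0 = t
    fin_cases t <;> simp
  rcases h01 with h | h
  · left; rw [h0, h]
  · right; rw [h0, h]

end Cfsg.Agent.Helper33
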