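-- helper33 library: piece S2 of the S5874 call: over the field with three elements the isometries
-- of a quadratic form inside a tensor product subgroup `3 ⊗ n₂` (symmetric ⊗ symmetric) stabilise
-- a decomposition into three non-degenerate subspaces.  (Adapted from helper94's
-- `Helper94.tens_o_not_max`, using the frame machinery of `Helper94/Tens.lean`, `TensF3.lean`.)
import Mathlib
import Cfsg.Prelude.Def_GeometricClasses
import Cfsg.Agent.Helper94.Tens
import Cfsg.Agent.Helper94.TensF3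
import Cfsg.Agent.Helper97.OForm

set_option autoImplicit false
set_option linter.unusedSectionVars false
set_option linter.unusedVariables false

namespace Cfsg.Agent.Helper33

open Matrix Cfsg Cfsg.Geo Cfsg.Agent.Helper94
open scoped Kronecker

variable {ι : Type} [Fintype ι] [DecidableEq ι] {F : Type*} [Field F]

/-- **Piece S2 of the S5874 call.** -/
theorem o12_tensor_three_q3 [Fintype F] (hq : Fintype.card F = 3) (Q : (ι → F) → F)
    (hQ : IsNondegenerateQuadraticForm Q) {n₂ : ℕ} (e : ι ≃ Fin 3 × Fin n₂) (P : GL ι F)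
    (f₁ : (Fin 3 → F) → (Fin 3 → F) → F) (f₂ : (Fin n₂ → F) → (Fin n₂ → F) → F)
    (hf₁ : IsSymmetricForm f₁) (hf₂ : IsSymmetricForm f₂)
    (hT : IsTensorFormStructure id (QuadraticMap.polar Q) f₁ f₂ e P) (hn₂ : 0 < n₂) :
    ∃ D : Fin 3 → Submodule F (ι → F), IsNondegenerateMDecomposition (QuadraticMap.polar Q) n₂ D ∧
      isometryGroup F Q ⊓ tensorProductSubgroup 3 n₂ e P ≤ decompositionStabilizer D := by
  classical
  have hf := hQ.polar_bilinear
  have hcard : Fintype.card ι = 3 * n₂ := by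
    have h1 := Fintype.card_congr e
    simpa only [Fintype.card_prod, Fintype.card_fin] using h1
  obtain ⟨c, hc, hval⟩ := tens_val id (fun r s => rfl) (QuadraticMap.polar Q) f₁ f₂
    (formOfGram_gram id f₁ hf₁.bilinear.add_left hf₁.bilinear.smul_left hf₁.bilinear.add_right
      hf₁.bilinear.smul_right)
    (formOfGram_gram id f₂ hf₂.bilinear.add_left hf₂.bilinear.smul_left hf₂.bilinear.add_right
      hf₂.bilinear.smul_right) e P hT
  obtain ⟨B, ε, hε, hB⟩ := tf3_frame hq f₁ hf₁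
  obtain ⟨bv, hbv⟩ : ∃ bv : Fin 3 → (Fin 3 → F),
      ∀ i, bv i = (B : Matrix (Fin 3) (Fin 3) F) *ᵥ Pi.single i 1 := ⟨_, fun i => rfl⟩
  have hbb : ∀ i j, f₁ (bv i) (bv j) = if i = j then ε else 0 := by
    intro i j
    rw [hbv, hbv, hB, single_dotProduct, one_mul, Pi.single_apply]
    split_ifs <;> simp
  have hz1 : ∀ v, f₁ 0 v = 0 := by
    intro v
    have := hf₁.bilinear.smul_left 0 0 v
    rwa [zero_smul, zero_mul] at this
  have hbne : ∀ i, bv i ≠ 0 := by
    intro i h0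
    have h1 := hbb i i
    rw [if_pos rfl, h0, hz1] at h1
    exact hε h1.symm
  obtain ⟨J, hJ⟩ : ∃ J : Fin 3 → (Fin n₂ → F) →ₗ[F] (ι → F),
      ∀ i y, J i y = tPhi e P (tpv (bv i) y) :=
    ⟨fun i => tPhi e P ∘ₗ tpvR (bv i), fun i y => rfl⟩
  have hfr : TFrame (QuadraticMap.polar Q) f₂ J := by
    refine ⟨fun i y y' hyy => ?_, fun i j hij y y' => ?_,
      fun i => ⟨c * ε, mul_ne_zero hc hε, fun y y' => ?_⟩, hf₂.nondegenerate⟩
    · rw [hJ, hJ] at hyy
      have h2 : tpvR (bv i) (y - y') = 0 := by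
        rw [map_sub, tpvR_apply, tpvR_apply, tPhi_injective e P hyy, sub_self]
      rw [tpvR_apply] at h2
      exact sub_eq_zero.mp (tpv_eq_zero_right (hbne i) h2)
    · rw [hJ, hJ, hval, hbb, if_neg hij, zero_mul, mul_zero]
    · rw [hJ, hJ, hval, hbb, if_pos rfl]
      ring
  have : Nonempty (Fin n₂) := ⟨⟨0, hn₂⟩⟩
  obtain ⟨y₀, hy₀⟩ : ∃ y₀ : Fin n₂ → F, y₀ ≠ 0 := ⟨Pi.single ⟨0, hn₂⟩ 1, by
    intro h0
    have := congrFun h0 ⟨0, hn₂⟩
    simp at this⟩
  have hmono : ∀ g : GL ι F, g ∈ isometryGroup F Q → g ∈ tensorProductSubgroup 3 n₂ e P →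
      ∃ (σ : Equiv.Perm (Fin 3)) (l : Fin 3 → F) (β : (Fin n₂ → F) → (Fin n₂ → F)),
        ∀ i y, (g : Matrix ι ι F) *ᵥ J i y = J (σ i) (l i • β y) := by
    intro g hgQ hgT
    obtain ⟨a, b, hab⟩ := tens_mem_act e P g hgT
    have hpres : ∀ x x' y y', f₁ ((a : Matrix (Fin 3) (Fin 3) F) *ᵥ x)
        ((a : Matrix (Fin 3) (Fin 3) F) *ᵥ x') *
        f₂ ((b : Matrix (Fin n₂) (Fin n₂) F) *ᵥ y) ((b : Matrix (Fin n₂) (Fin n₂) F) *ᵥ y') =
        f₁ x x' * f₂ y y' := by
      intro x x' y y'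
      have h1 := Cfsg.Agent.Helper97.Gen.polar_isometry hgQ (tPhi e P (tpv x y))
        (tPhi e P (tpv x' y'))
      rw [hab, hab, tpv_kron, tpv_kron, hval, hval] at h1
      exact mul_left_cancel₀ hc h1
    obtain ⟨μ, hμ, hsim⟩ := tens_simil_left f₁ f₂
      (fun x => (a : Matrix (Fin 3) (Fin 3) F) *ᵥ x)
      (fun y => (b : Matrix (Fin n₂) (Fin n₂) F) *ᵥ y) hpres
      ⟨bv 0, bv 0, by rw [hbb, if_pos rfl]; exact hε⟩
      (by
        obtain ⟨⟨y, hy⟩, -⟩ := hf₂.nondegenerate y₀ hy₀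
        exact ⟨y, y₀, hy⟩)
    obtain ⟨σ, l, hσl⟩ := tf3_monomial hq f₁ B ε hε hB (a : Matrix (Fin 3) (Fin 3) F) μ hμ hsim
    refine ⟨σ, l, fun y => (b : Matrix (Fin n₂) (Fin n₂) F) *ᵥ y, fun i y => ?_⟩
    rw [hJ, hab, tpv_kron, hbv, hσl, ← hbv, tpv_smul_left, ← tpv_smul_right, hJ]
  have hind : iSupIndep (tBlock J) := by
    intro i
    rw [Submodule.disjoint_def]
    intro x hx hx'
    by_contra h0
    obtain ⟨⟨y, hy, hyx⟩, -⟩ := hfr.nondeg i x hx h0
    apply hyx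
    obtain ⟨L, hL⟩ : ∃ L : (ι → F) →ₗ[F] F, ∀ v, L v = QuadraticMap.polar Q y v :=
      ⟨IsLinearMap.mk' (fun v => QuadraticMap.polar Q y v)
        ⟨hf.add_right y, fun c v => hf.smul_right c y v⟩, fun v => rfl⟩
    have hle : (⨆ j, ⨆ (_ : j ≠ i), tBlock J j) ≤ LinearMap.ker L := by
      refine iSup₂_le (fun j hj => ?_)
      intro v hv
      rw [LinearMap.mem_ker, hL]
      exact hfr.orthogonal i j (Ne.symm hj) y hy v hv
    have h1 := hle hx'
    rw [LinearMap.mem_ker, hL] at h1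
    exact h1
  have htop : iSup (tBlock J) = ⊤ := by
    have hinj := hind.dfinsupp_lsum_injective
    have h1 := LinearMap.finrank_range_of_inj hinj
    rw [← Submodule.iSup_eq_range_dfinsupp_lsum] at h1
    have h2 : Module.finrank F (Π₀ i, tBlock J i) = ∑ i, Module.finrank F (tBlock J i) :=
      Module.finrank_directSum (R := F) (fun i => tBlock J i)
    apply Submodule.eq_top_of_finrank_eq
    rw [h1, h2, Module.finrank_fintype_fun_eq_card, hcard]
    simp only [hfr.finrank_block, Finset.sum_const, Finset.card_univ, Fintype.card_fin,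
      smul_eq_mul]
  refine ⟨tBlock J, ⟨⟨by norm_num, hn₂, fun i => by rw [hfr.finrank_block, Fintype.card_fin],
    hind, htop⟩, hfr.nondeg, hfr.orthogonal⟩, ?_⟩
  intro g hg
  obtain ⟨hgQ, hgT⟩ := Subgroup.mem_inf.mp hg
  obtain ⟨σ, l, β, hσ⟩ := hmono g hgQ hgT
  exact hfr.stab_of_mono g σ l β hσ

end Cfsg.Agent.Helper33
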