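import Mathlib
import Cfsg.Agent.Helper90.HTDefs

set_option autoImplicit false
set_option linter.unusedSectionVars false
set_option linter.unusedVariables false

namespace Cfsg.Agent.Helper33.HT5953

open Module Polynomial Cfsg.Agent.Helper90.HT

section field

variable {F : Type*} [Field F] [Fintype F] (q : ℕ) (hq : Fintype.card F = q ^ 2) (σ : F →+* F)
  (hσ : ∀ a, σ a = a ^ q)

include hq hσ

/-- SCAL: scalars arising as powers of elements of `SU`. -/
theorem ht_scal (n : ℕ) (hn : 1 ≤ n) (x : Matrix.SpecialLinearGroup (Fin n) F)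
    (hx : x ∈ Cfsg.SU n F q) (k : ℕ) (z : F)
    (hz : ((x ^ k : Matrix.SpecialLinearGroup (Fin n) F) : Matrix (Fin n) (Fin n) F) = z • 1) :
    z * σ z = 1 ∧ z ^ n = 1 := by
  classical
  have hh := isHerm_hermForm hq σ hσ n
  have hxk : x ^ k ∈ Cfsg.SU n F q := Subgroup.pow_mem _ hx k
  have hpres := (mem_SU_iff n (x ^ k)).mp hxk
  constructor
  · set e : Fin n → F := Pi.single ⟨0, hn⟩ 1 with he
    have h1 := hpres e e
    rw [hz, Matrix.smul_mulVec, Matrix.one_mulVec, hh.smul_left, hh.smul_right] at h1
    have h2 : Cfsg.hermForm n F q e e = 1 := by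
      unfold Cfsg.hermForm
      rw [Finset.sum_eq_single ⟨0, hn⟩]
      · simp [he]
      · intro j _ hj
        simp [he, Pi.single_eq_of_ne hj]
      · intro hcon
        exact absurd (Finset.mem_univ _) hcon
    rw [h2] at h1
    rw [← mul_assoc, mul_one] at h1
    exact h1
  · have hdet : ((x ^ k : Matrix.SpecialLinearGroup (Fin n) F) : Matrix (Fin n) (Fin n) F).det
        = 1 := (x ^ k).det_coe
    rw [hz, Matrix.det_smul, Matrix.det_one, mul_one, Fintype.card_fin] at hdet
    exact hdet

end field

end Cfsg.Agent.Helper33.HT5953
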