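/-
Helper33: piece P5 of CALL S1421 (helper23, B&G 12.10): Teichmüller averaging (pure group theory).

If `H` (of order prime to `p`) normalizes the abelian group `P` of exponent dividing `p^(a+1)` and
normalizes the subgroup generated by `x₀ = u₀ ^ p ^ a ≠ 1`, then some `u ∈ P` with
`u ^ p ^ a ∈ ⟨x₀⟩ \ {1}` generates an `H`-invariant cyclic subgroup.
-/
import Mathlib

set_option linter.unusedVariables false
set_option linter.unusedSectionVars false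

namespace Cfsg.Agent.Helper33

open Subgroup

universe u

variable {G : Type u} [Group G]

theorem bg1210_modEq_pow {p m n : ℕ} (a : ℕ) (h : m ≡ n [MOD p]) :
    m ^ p ^ a ≡ n ^ p ^ a [MOD p ^ (a + 1)] := by
  have h1 : (p : ℤ) ∣ (n : ℤ) - (m : ℤ) := Nat.modEq_iff_dvd.1 h
  have h2 := dvd_sub_pow_of_dvd_sub h1 a
  rw [Nat.modEq_iff_dvd]
  push_cast
  exact h2

theorem bg1210_pow_congr {x : G} {N m n : ℕ} (hx : x ^ N = 1) (h : m ≡ n [MOD N]) :
    x ^ m = x ^ n := by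
  rw [pow_eq_pow_iff_modEq]
  exact h.of_dvd (orderOf_dvd_of_pow_eq_one hx)

/-- **P5** (CALL S1421): Teichmüller averaging. -/
theorem bg1210_teich [Finite G] {p : ℕ} [Fact p.Prime] {P H : Subgroup G}
    (hPc : ∀ x ∈ P, ∀ y ∈ P, x * y = y * x) (hHP : H ≤ normalizer (P : Set G))
    (hH : ¬ p ∣ Nat.card H) (a : ℕ) (hexp : ∀ x ∈ P, x ^ p ^ (a + 1) = 1) (u₀ : G)
    (hu₀ : u₀ ∈ P) (hne : u₀ ^ p ^ a ≠ 1)
    (hinv : ∀ h ∈ H, h * u₀ ^ p ^ a * h⁻¹ ∈ zpowers (u₀ ^ p ^ a)) :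
    ∃ u ∈ P, u ^ p ^ a ∈ zpowers (u₀ ^ p ^ a) ∧ u ^ p ^ a ≠ 1 ∧
      ∀ h ∈ H, h * u * h⁻¹ ∈ zpowers u := by
  classical
  have hp : p.Prime := Fact.out
  obtain ⟨x₀, hx₀⟩ : ∃ x₀, x₀ = u₀ ^ p ^ a := ⟨_, rfl⟩
  rw [← hx₀] at hne hinv
  have hx₀P : x₀ ∈ P := by
    rw [hx₀]
    exact P.pow_mem hu₀ _
  have hx₀p : x₀ ^ p = 1 := by
    rw [hx₀, ← pow_mul, ← pow_succ]
    exact hexp u₀ hu₀
  have hord : orderOf x₀ = p := orderOf_eq_prime hx₀p hne
  -- the action of `H` on `⟨x₀⟩`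
  have hℓ : ∀ h : H, ∃ n : ℕ, x₀ ^ n = (h : G) * x₀ * (h : G)⁻¹ := by
    intro h
    have h1 := hinv h h.2
    rw [← mem_powers_iff_mem_zpowers] at h1
    exact (Submonoid.mem_powers_iff _ _).1 h1
  choose ℓ hℓ using hℓ
  have hℓmul : ∀ g h : H, ℓ (g * h) ≡ ℓ g * ℓ h [MOD p] := by
    intro g h
    rw [← hord, ← pow_eq_pow_iff_modEq, hℓ (g * h), pow_mul, hℓ g, conj_pow, hℓ h]
    simp [mul_assoc]
  have hℓone : ℓ 1 ≡ 1 [MOD p] := by
    rw [← hord, ← pow_eq_pow_iff_modEq, hℓ 1]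
    simp
  obtain ⟨ν, hν⟩ : ∃ ν : H → ℕ, ∀ h, ν h = ℓ h ^ p ^ a := ⟨fun h => ℓ h ^ p ^ a, fun _ => rfl⟩
  have hνmul : ∀ g h : H, ν (g * h) ≡ ν g * ν h [MOD p ^ (a + 1)] := by
    intro g h
    have := bg1210_modEq_pow a (hℓmul g h)
    rwa [mul_pow, ← hν, ← hν, ← hν] at this
  have hνℓ : ∀ h : H, ν h ≡ ℓ h [MOD p] := by
    intro h
    rw [hν, ← ZMod.natCast_eq_natCast_iff]
    push_cast
    exact ZMod.pow_card_pow _
  have hone : ∀ h : H, ℓ h * ν h⁻¹ ≡ 1 [MOD p] := by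
    intro h
    have h1 : ℓ h * ν h⁻¹ ≡ ℓ h * ℓ h⁻¹ [MOD p] := Nat.ModEq.mul_left _ (hνℓ h⁻¹)
    have h2 := hℓmul h h⁻¹
    rw [mul_inv_cancel] at h2
    exact h1.trans (h2.symm.trans hℓone)
  let _ : CommGroup P :=
    { (inferInstance : Group P) with mul_comm := fun x y => Subtype.ext (hPc x x.2 y y.2) }
  have : Fintype H := Fintype.ofFinite H
  have hconj : ∀ g ∈ H, ∀ x ∈ P, g * x * g⁻¹ ∈ P := fun g hg x hx =>
    ((mem_normalizer_iff.1 (hHP hg)) x).1 hx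
  let f : H → P := fun h =>
    ⟨(h : G) * u₀ ^ ν h⁻¹ * (h : G)⁻¹, hconj h h.2 _ (P.pow_mem hu₀ _)⟩
  obtain ⟨u, hu⟩ : ∃ u : P, u = ∏ h : H, f h := ⟨_, rfl⟩
  -- the `p^a`-th power of `u`
  have hA : (u : G) ^ p ^ a = x₀ ^ Fintype.card H := by
    have h1 : u ^ p ^ a = ∏ h : H, (f h) ^ p ^ a := by
      rw [hu, Finset.prod_pow]
    have h2 : ∀ h : H, (f h) ^ p ^ a = (⟨x₀, hx₀P⟩ : P) := by
      intro h
      apply Subtype.ext
      show ((h : G) * u₀ ^ ν h⁻¹ * (h : G)⁻¹) ^ p ^ a = x₀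
      rw [conj_pow, ← pow_mul, mul_comm, pow_mul, ← hx₀, ← conj_pow, ← hℓ h, ← pow_mul]
      have := bg1210_pow_congr hx₀p (hone h)
      rw [this, pow_one]
    have h3 : u ^ p ^ a = (⟨x₀, hx₀P⟩ : P) ^ Fintype.card H := by
      rw [h1]
      simp only [h2]
      rw [Finset.prod_const, Finset.card_univ]
    have := congrArg (fun z : P => (z : G)) h3
    exact this
  -- conjugation by `g ∈ H` raises `u` to the power `ν g`
  have hB : ∀ g : H, (g : G) * (u : G) * (g : G)⁻¹ = (u : G) ^ ν g := by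
    intro g
    let cg : P →* P :=
      { toFun := fun x => ⟨(g : G) * x * (g : G)⁻¹, hconj g g.2 x x.2⟩
        map_one' := by
          apply Subtype.ext
          show (g : G) * ((1 : P) : G) * (g : G)⁻¹ = ((1 : P) : G)
          simp
        map_mul' := fun x y => by
          apply Subtype.ext
          show (g : G) * ((x : G) * (y : G)) * (g : G)⁻¹
            = ((g : G) * x * (g : G)⁻¹) * ((g : G) * y * (g : G)⁻¹)
          group }
    have h1 : cg u = ∏ h : H, cg (f h) := by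
      rw [hu]
      exact map_prod cg f Finset.univ
    have h2 : ∀ h : H, cg (f h) = (f (g * h)) ^ ν g := by
      intro h
      apply Subtype.ext
      show (g : G) * ((h : G) * u₀ ^ ν h⁻¹ * (h : G)⁻¹) * (g : G)⁻¹
        = (((g * h : H) : G) * u₀ ^ ν (g * h)⁻¹ * ((g * h : H) : G)⁻¹) ^ ν g
      rw [conj_pow, ← pow_mul]
      have h3 : u₀ ^ (ν (g * h)⁻¹ * ν g) = u₀ ^ ν h⁻¹ := by
        apply bg1210_pow_congr (hexp u₀ hu₀)
        have h4 := hνmul (g * h)⁻¹ g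
        have e : (g * h)⁻¹ * g = h⁻¹ := by group
        rw [e] at h4
        exact h4.symm
      rw [h3]
      simp [mul_assoc]
    have h4 : cg u = u ^ ν g := by
      rw [h1]
      simp only [h2]
      rw [Finset.prod_pow, hu]
      congr 1
      exact Fintype.prod_equiv (Equiv.mulLeft g) _ _ (fun h => rfl)
    have := congrArg (fun z : P => (z : G)) h4
    exact this
  refine ⟨(u : G), u.2, ?_, ?_, ?_⟩
  · rw [hA, ← hx₀]
    exact Subgroup.pow_mem _ (Subgroup.mem_zpowers x₀) _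
  · rw [hA]
    intro h
    have := orderOf_dvd_of_pow_eq_one h
    rw [hord] at this
    apply hH
    rwa [Nat.card_eq_fintype_card]
  · intro h hh
    rw [hB ⟨h, hh⟩]
    exact Subgroup.pow_mem _ (Subgroup.mem_zpowers _) _

end Cfsg.Agent.Helper33
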