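/-
Helper33: piece P6b of CALL S1421 (helper23, B&G 12.10): peel one prime (pure group theory).

* `bg1210_sz`       : a normal Sylow `p`-subgroup `P` of `E` has a complement `H` in `E`.
* `bg1210_one_step` : the piece.
-/
import Mathlib

set_option linter.unusedVariables false
set_option linter.unusedSectionVars false

namespace Cfsg.Agent.Helper33

open Subgroup

universe u

variable {G : Type u} [Group G]

/-- if `H` normalizes `U` then every element of `U ⊔ H` is a product `u * h` -/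
theorem bg1210_mem_sup {U H : Subgroup G} (hHU : H ≤ normalizer (U : Set G)) {x : G}
    (hx : x ∈ U ⊔ H) : ∃ u ∈ U, ∃ h ∈ H, x = u * h := by
  have hconj : ∀ h ∈ H, ∀ u ∈ U, h * u * h⁻¹ ∈ U := fun h hh u hu =>
    ((Subgroup.mem_normalizer_iff.1 (hHU hh)) u).1 hu
  let S : Subgroup G :=
    { carrier := {x | ∃ u ∈ U, ∃ h ∈ H, x = u * h}
      mul_mem' := by
        rintro _ _ ⟨u, hu, h, hh, rfl⟩ ⟨u', hu', h', hh', rfl⟩
        exact ⟨u * (h * u' * h⁻¹), U.mul_mem hu (hconj h hh u' hu'), h * h', H.mul_mem hh hh',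
          by group⟩
      one_mem' := ⟨1, U.one_mem, 1, H.one_mem, by simp⟩
      inv_mem' := by
        rintro _ ⟨u, hu, h, hh, rfl⟩
        refine ⟨h⁻¹ * u⁻¹ * h⁻¹⁻¹, hconj h⁻¹ (H.inv_mem hh) u⁻¹ (U.inv_mem hu), h⁻¹,
          H.inv_mem hh, by group⟩ }
  have hle : U ⊔ H ≤ S :=
    sup_le (fun u hu => ⟨u, hu, 1, H.one_mem, by simp⟩) (fun h hh => ⟨1, U.one_mem, h, hh, by simp⟩)
  exact hle hx

/-- powers of `x * h` modulo a subgroup normalized by `h` -/
theorem bg1210_pow_mul {P : Subgroup G} {x h : G} (hx : x ∈ P)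
    (hh : ∀ (n : ℕ), ∀ z ∈ P, h ^ n * z * (h ^ n)⁻¹ ∈ P) (n : ℕ) :
    ∃ z ∈ P, (x * h) ^ n = z * h ^ n := by
  induction n with
  | zero => exact ⟨1, P.one_mem, by simp⟩
  | succ n ih =>
    obtain ⟨z, hz, he⟩ := ih
    refine ⟨z * (h ^ n * x * (h ^ n)⁻¹), P.mul_mem hz (hh n x hx), ?_⟩
    rw [pow_succ, he, pow_succ]
    group

/-- Schur–Zassenhaus for a normal Sylow `p`-subgroup `P` of `E` -/
theorem bg1210_sz [Finite G] {p : ℕ} [Fact p.Prime] {E P : Subgroup G} (hPE : P ≤ E)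
    (hEP : E ≤ normalizer (P : Set G)) (hP : IsPGroup p P)
    (hall : ∀ x ∈ E, (∃ k : ℕ, x ^ p ^ k = 1) → x ∈ P) :
    ∃ H : Subgroup G, H ≤ E ∧ P ⊓ H = ⊥ ∧ (∀ y ∈ E, ∃ x ∈ P, ∃ h ∈ H, y = x * h) ∧
      (Nat.card H).Coprime p := by
  have hp : p.Prime := Fact.out
  have hPn : (P.subgroupOf E).Normal := (Subgroup.normal_subgroupOf_iff_le_normalizer hPE).mpr hEP
  have hP' : IsPGroup p (P.subgroupOf E) :=
    hP.of_equiv (Subgroup.subgroupOfEquivOfLe hPE).symm
  obtain ⟨S, hS⟩ := hP'.exists_le_sylow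
  have hSP : (S : Subgroup E) = P.subgroupOf E := by
    apply le_antisymm _ hS
    intro s hs
    rw [Subgroup.mem_subgroupOf]
    obtain ⟨k, hk⟩ := S.2 ⟨s, hs⟩
    apply hall _ s.2
    refine ⟨k, ?_⟩
    have := congrArg (fun z : (S : Subgroup E) => ((z : E) : G)) hk
    simpa using this
  have hnd : ¬ p ∣ (P.subgroupOf E).index := by
    rw [← hSP]
    exact S.not_dvd_index
  have hcop : Nat.Coprime (Nat.card (P.subgroupOf E)) (P.subgroupOf E).index := by
    obtain ⟨n, hn⟩ := IsPGroup.iff_card.mp hP'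
    rw [hn]
    exact Nat.Coprime.pow_left n ((Nat.Prime.coprime_iff_not_dvd hp).mpr hnd)
  obtain ⟨H', hH'⟩ := Subgroup.exists_right_complement'_of_coprime hcop
  refine ⟨H'.map E.subtype, Subgroup.map_subtype_le _, ?_, ?_, ?_⟩
  · rw [eq_bot_iff]
    rintro x ⟨hxP, h', hh', rfl⟩
    have h1 : h' ∈ P.subgroupOf E ⊓ H' := ⟨Subgroup.mem_subgroupOf.2 hxP, hh'⟩
    rw [hH'.disjoint.eq_bot, Subgroup.mem_bot] at h1
    rw [Subgroup.mem_bot, h1]
    rfl
  · intro y hy
    obtain ⟨⟨x', h'⟩, hxh⟩ := hH'.2 ⟨y, hy⟩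
    refine ⟨(x' : E), Subgroup.mem_subgroupOf.1 x'.2, (h' : E), ⟨h', h'.2, rfl⟩, ?_⟩
    have := congrArg (fun z : E => (z : G)) hxh
    simpa using this.symm
  · rw [Subgroup.card_map_of_injective E.subtype_injective, ← hH'.symm.index_eq_card]
    exact ((Nat.Prime.coprime_iff_not_dvd hp).mpr hnd).symm

/-- **P6b** (CALL S1421): peel one prime. -/
theorem bg1210_one_step [Finite G] {p : ℕ} [Fact p.Prime] {E P U : Subgroup G} (hPE : P ≤ E)
    (hEP : E ≤ normalizer (P : Set G)) (hP : IsPGroup p P)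
    (hall : ∀ x ∈ E, (∃ k : ℕ, x ^ p ^ k = 1) → x ∈ P)
    (hPc : ∀ x ∈ P, ∀ y ∈ P, x * y = y * x) (hUP : U ≤ P)
    (hEU : E ≤ normalizer (U : Set G)) (hexp : ∀ x ∈ P, x ^ Monoid.exponent U = 1) :
    ∃ E' : Subgroup G, E' ≤ E ∧ Monoid.exponent E' = Monoid.exponent E ∧ E' ⊓ P ≤ U ∧
      ∀ (q : ℕ) (Q : Subgroup G), q.Prime → q ≠ p → IsPGroup q Q → Q ≤ E →
        E ≤ normalizer (Q : Set G) → Q ≤ E' := by
  have hp : p.Prime := Fact.out
  obtain ⟨H, hHE, hPH, hdec, hcop⟩ := bg1210_sz hPE hEP hP hall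
  have hHU : H ≤ normalizer (U : Set G) := hHE.trans hEU
  have hE'E : U ⊔ H ≤ E := sup_le (hUP.trans hPE) hHE
  have hconjP : ∀ h ∈ H, ∀ (n : ℕ), ∀ z ∈ P, h ^ n * z * (h ^ n)⁻¹ ∈ P := fun h hh n z hz =>
    ((Subgroup.mem_normalizer_iff.1 (hEP (hHE (H.pow_mem hh n)))) z).1 hz
  refine ⟨U ⊔ H, hE'E, ?_, ?_, ?_⟩
  · apply Nat.dvd_antisymm
    · exact Monoid.exponent_dvd_of_monoidHom (Subgroup.inclusion hE'E)
        (Subgroup.inclusion_injective hE'E)
    · apply Monoid.exponent_dvd_of_forall_pow_eq_one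
      intro y
      obtain ⟨x, hx, h, hh, hy⟩ := hdec y y.2
      obtain ⟨z, hz, he⟩ := bg1210_pow_mul hx (hconjP h hh) (orderOf h)
      rw [pow_orderOf_eq_one, mul_one] at he
      have h1 : (y : G) ^ (orderOf h * Monoid.exponent U) = 1 := by
        rw [pow_mul, hy, he]
        exact hexp z hz
      have hd1 : orderOf h ∣ Monoid.exponent (U ⊔ H : Subgroup G) := by
        have := Monoid.order_dvd_exponent (⟨h, (le_sup_right : H ≤ U ⊔ H) hh⟩ : (U ⊔ H : Subgroup G))
        rwa [Subgroup.orderOf_mk] at this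
      have hd2 : Monoid.exponent U ∣ Monoid.exponent (U ⊔ H : Subgroup G) :=
        Monoid.exponent_dvd_of_monoidHom (Subgroup.inclusion (le_sup_left : U ≤ U ⊔ H))
          (Subgroup.inclusion_injective _)
      have hcop' : Nat.Coprime (orderOf h) (Monoid.exponent U) := by
        have h3 : orderOf h ∣ Nat.card H := by
          have := orderOf_dvd_natCard (⟨h, hh⟩ : H)
          rwa [Subgroup.orderOf_mk] at this
        obtain ⟨k, hk⟩ := IsPGroup.iff_card.mp (hP.to_le hUP)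
        have h4 : Monoid.exponent U ∣ p ^ k := by
          rw [← hk]
          exact Group.exponent_dvd_nat_card
        obtain ⟨j, -, hj⟩ := (Nat.dvd_prime_pow hp).1 h4
        rw [hj]
        exact Nat.Coprime.pow_right j (Nat.Coprime.coprime_dvd_left h3 hcop)
      have hd : orderOf h * Monoid.exponent U ∣ Monoid.exponent (U ⊔ H : Subgroup G) :=
        Nat.Coprime.mul_dvd_of_dvd_of_dvd hcop' hd1 hd2
      obtain ⟨c, hc⟩ := hd
      apply Subtype.ext
      rw [Subgroup.coe_pow, hc, pow_mul, h1, one_pow]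
      rfl
  · rintro x ⟨hxE', hxP⟩
    obtain ⟨u, hu, h, hh, rfl⟩ := bg1210_mem_sup hHU hxE'
    have h1 : h ∈ P ⊓ H := by
      refine ⟨?_, hh⟩
      have : h = u⁻¹ * (u * h) := by group
      rw [this]
      exact P.mul_mem (P.inv_mem (hUP hu)) hxP
    rw [hPH, Subgroup.mem_bot] at h1
    rw [h1, mul_one]
    exact hu
  · intro q Q hq hqp hQ hQE hEQ y hy
    have : Fact q.Prime := ⟨hq⟩
    have hdisj : Q ⊓ P = ⊥ := (IsPGroup.disjoint_of_ne q p hqp Q P hQ hP).eq_bot
    obtain ⟨x, hx, h, hh, hyx⟩ := hdec y (hQE hy)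
    -- `y` commutes with `x`
    have hcomm : y * x = x * y := by
      have h1 : y * x * y⁻¹ * x⁻¹ ∈ Q ⊓ P := by
        constructor
        · have h2 : x * y⁻¹ * x⁻¹ ∈ Q :=
            ((Subgroup.mem_normalizer_iff.1 (hEQ (hPE hx))) y⁻¹).1 (Q.inv_mem hy)
          have : y * x * y⁻¹ * x⁻¹ = y * (x * y⁻¹ * x⁻¹) := by group
          rw [this]
          exact Q.mul_mem hy h2
        · have h2 : y * x * y⁻¹ ∈ P :=
            ((Subgroup.mem_normalizer_iff.1 (hEP (hQE hy))) x).1 hx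
          exact P.mul_mem h2 (P.inv_mem hx)
      rw [hdisj, Subgroup.mem_bot] at h1
      have : y * x = (y * x * y⁻¹ * x⁻¹) * (x * y) := by group
      rw [this, h1, one_mul]
    have hxh : Commute x h := by
      have hh' : h = x⁻¹ * y := by rw [hyx]; group
      show x * h = h * x
      rw [hh', mul_assoc, hcomm]
      group
    obtain ⟨z, hz, he⟩ := bg1210_pow_mul hx (hconjP h hh) (orderOf y)
    rw [← hyx, pow_orderOf_eq_one] at he
    have hhn : h ^ orderOf y = 1 := by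
      have h1 : h ^ orderOf y ∈ P ⊓ H := by
        refine ⟨?_, H.pow_mem hh _⟩
        have : h ^ orderOf y = z⁻¹ := by
          rw [eq_comm, inv_eq_iff_mul_eq_one]
          exact he.symm
        rw [this]
        exact P.inv_mem hz
      rwa [hPH, Subgroup.mem_bot] at h1
    have hxn : x ^ orderOf y = 1 := by
      have h1 := hxh.mul_pow (orderOf y)
      rw [← hyx, pow_orderOf_eq_one, hhn, mul_one] at h1
      exact h1.symm
    have hx1 : x = 1 := by
      obtain ⟨k, hk⟩ := hP ⟨x, hx⟩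
      have hk' : x ^ p ^ k = 1 := by
        have := congrArg (fun z : P => (z : G)) hk
        simpa using this
      obtain ⟨j, hj⟩ := hQ ⟨y, hy⟩
      have hj' : y ^ q ^ j = 1 := by
        have := congrArg (fun z : Q => (z : G)) hj
        simpa using this
      have h1 : orderOf x ∣ p ^ k := orderOf_dvd_of_pow_eq_one hk'
      have h2 : orderOf x ∣ q ^ j := (orderOf_dvd_of_pow_eq_one hxn).trans
        (orderOf_dvd_of_pow_eq_one hj')
      have h3 : Nat.Coprime (p ^ k) (q ^ j) :=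
        Nat.Coprime.pow k j ((Nat.coprime_primes hp hq).2 (Ne.symm hqp))
      have h4 : orderOf x = 1 := Nat.eq_one_of_dvd_coprimes h3 h1 h2
      exact orderOf_eq_one_iff.1 h4
    rw [hyx, hx1, one_mul]
    exact (le_sup_right : H ≤ U ⊔ H) hh

end Cfsg.Agent.Helper33
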