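import Cfsg.Agent.Helper35.Coprime
import Cfsg.Agent.Helper35.CoprimeSylow

set_option autoImplicit false
set_option linter.unusedSectionVars false
set_option linter.unusedVariables false

namespace Cfsg.Agent.Helper33

open Cfsg Subgroup

universe u

section Pure

variable {Γ : Type u} [Group Γ] [Finite Γ]

theorem bg15sy_card_mul_relIndex {H K : Subgroup Γ} (hHK : H ≤ K) :
    Nat.card H * H.relIndex K = Nat.card K := by
  have := Subgroup.relIndex_mul_relIndex (H := (⊥ : Subgroup Γ)) (K := H) (L := K) bot_le hHK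
  rw [Subgroup.relIndex_bot_left, Subgroup.relIndex_bot_left] at this
  exact this

/-- SY. A `k`-invariant Sylow `q`-subgroup `Q ∋ z` of `L`, and `X = N Q`
(`Helper35.exists_invariant_sylow_ge` with A := zpowers k, U := zpowers z; then count orders). -/
theorem bg15_invariant_sylow (L N X : Subgroup Γ) [L.Normal] [N.Normal] [X.Normal]
    {p q : ℕ} (hp : p.Prime) (hq : q.Prime) {k z : Γ} (hkp : k ^ p = 1)
    (hpL : ¬ p ∣ Nat.card L) (hzL : z ∈ L) (hzq : orderOf z = q) (hzk : k * z = z * k)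
    (hNX : N ≤ X) (hXL : X ≤ L) (hNq : (Nat.card N).Coprime q)
    (hXN : ∃ n : ℕ, N.relIndex X = q ^ n) (hLX : ¬ q ∣ X.relIndex L) :
    ∃ Q : Subgroup Γ, Q ≤ X ∧ IsPGroup q Q ∧ ¬ q ∣ Q.relIndex L ∧ z ∈ Q ∧
      k ∈ normalizer (Q : Set Γ) ∧ X = N ⊔ Q := by
  haveI : Fact q.Prime := ⟨hq⟩
  have hAK : zpowers k ≤ normalizer (L : Set Γ) := by
    rw [Subgroup.normalizer_eq_top]; exact le_top
  have hcop : (Nat.card (zpowers k)).Coprime (Nat.card L) := by
    rw [Nat.card_zpowers]
    rcases (Nat.dvd_prime hp).mp (orderOf_dvd_of_pow_eq_one hkp) with h1 | h1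
    · rw [h1]; exact Nat.coprime_one_left _
    · rw [h1]; exact (Nat.Prime.coprime_iff_not_dvd hp).mpr hpL
  have hsolv : Group.IsSolvable (zpowers k) :=
    Group.isSolvable_of_comm
      (fun a b => (inferInstance : IsMulCommutative (zpowers k)).is_comm.comm a b)
  have hUK : zpowers z ≤ L := Subgroup.zpowers_le.mpr hzL
  have hU : IsPGroup q (zpowers z) := by
    apply IsPGroup.of_card (n := 1)
    rw [Nat.card_zpowers, hzq, pow_one]
  have hUA : zpowers k ≤ normalizer ((zpowers z : Subgroup Γ) : Set Γ) := by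
    refine le_trans ?_ (Subgroup.centralizer_le_normalizer (s := ((zpowers z : Subgroup Γ) : Set Γ)))
    rw [Subgroup.zpowers_le, Subgroup.mem_centralizer_iff]
    intro h hh
    obtain ⟨i, rfl⟩ := Subgroup.mem_zpowers_iff.mp hh
    exact (Commute.zpow_left (show Commute z k from hzk.symm) i).eq
  obtain ⟨Q, hQsyl, hUQ, hAQ⟩ :=
    Cfsg.Agent.Helper35.exists_invariant_sylow_ge (p := q) hAK hcop (Or.inl hsolv) hUK hU hUA
  obtain ⟨hQL, hQcard⟩ := hQsyl
  have hL0 : Nat.card L ≠ 0 := Nat.card_pos.ne'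
  have hQp : IsPGroup q Q := IsPGroup.of_card hQcard
  have hrel : ¬ q ∣ Q.relIndex L := by
    intro hdvd
    have h1 := bg15sy_card_mul_relIndex hQL
    have h2 : q ^ ((Nat.card L).factorization q + 1) ∣ Nat.card L := by
      conv_rhs => rw [← h1]
      rw [hQcard, pow_succ]
      exact Nat.mul_dvd_mul_left _ hdvd
    exact Nat.pow_succ_factorization_not_dvd hL0 hq h2
  have hQX : Q ≤ X := by
    rw [← Subgroup.relIndex_eq_one]
    have h1 : X.relIndex Q ∣ Nat.card Q := Subgroup.relIndex_dvd_card X Q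
    rw [hQcard] at h1
    obtain ⟨j, hj, hjeq⟩ := (Nat.dvd_prime_pow hq).mp h1
    have h2 : X.relIndex (Q ⊔ X) ∣ X.relIndex L := by
      have := Subgroup.relIndex_mul_relIndex (H := X) (K := Q ⊔ X) (L := L) le_sup_right
        (sup_le hQL hXL)
      exact Dvd.intro _ this
    rw [Subgroup.relIndex_sup_right, hjeq] at h2
    rcases Nat.eq_zero_or_pos j with h0 | hpos
    · rw [hjeq, h0, pow_zero]
    · exact absurd (dvd_trans (dvd_pow_self q hpos.ne') h2) hLX
  refine ⟨Q, hQX, hQp, hrel, hUQ (Subgroup.mem_zpowers z), hAQ (Subgroup.mem_zpowers k), ?_⟩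
  have hle : N ⊔ Q ≤ X := sup_le hNX hQX
  refine (Subgroup.eq_of_le_of_card_ge hle ?_).symm
  obtain ⟨n, hn⟩ := hXN
  have hXcard : Nat.card X = Nat.card N * q ^ n := by
    rw [← hn]; exact (bg15sy_card_mul_relIndex hNX).symm
  have hnf : n ≤ (Nat.card L).factorization q := by
    rw [← Nat.Prime.pow_dvd_iff_le_factorization hq hL0]
    have h1 : Nat.card X ∣ Nat.card L := Subgroup.card_dvd_of_le hXL
    rw [hXcard] at h1
    exact dvd_trans (dvd_mul_left _ _) h1
  have hdvd : Nat.card N * q ^ (Nat.card L).factorization q ∣ Nat.card ↥(N ⊔ Q) := by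
    apply Nat.Coprime.mul_dvd_of_dvd_of_dvd
    · exact Nat.Coprime.pow_right _ hNq
    · exact Subgroup.card_dvd_of_le le_sup_left
    · rw [← hQcard]; exact Subgroup.card_dvd_of_le le_sup_right
  have hpos : 0 < Nat.card ↥(N ⊔ Q) := Nat.card_pos
  calc Nat.card X = Nat.card N * q ^ n := hXcard
    _ ≤ Nat.card N * q ^ (Nat.card L).factorization q :=
        Nat.mul_le_mul_left _ (Nat.pow_le_pow_right hq.pos hnf)
    _ ≤ Nat.card ↥(N ⊔ Q) := Nat.le_of_dvd hpos hdvd

end Pure

end Cfsg.Agent.Helper33
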