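import Mathlib
import Cfsg.Agent.Helper98.C2Defs

/-!
# helper33 library: piece LS of helper98's CALL S5634

Lifting a transvection / a non-monomial element with monomial block from the stabiliser of the
coordinate line `0` to an elementary transvection, inside a subgroup of `GL_{m+1}(K)` that contains
all monomial matrices of determinant one.
-/

set_option autoImplicit false

namespace Cfsg.Agent.Helper33.C2LS

open Matrix Cfsg.Agent.Helper98.C2
open scoped MatrixGroups

variable {K : Type*} [Field K]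

/-- a finset that is too small misses a point -/
theorem exists_notMem {α : Type*} [Fintype α] (s : Finset α) (h : s.card < Fintype.card α) :
    ∃ x, x ∉ s := by
  by_contra hc
  have : s = Finset.univ :=
    Finset.eq_univ_iff_forall.2 (fun x => by by_contra hx; exact hc ⟨x, hx⟩)
  rw [this, Finset.card_univ] at h
  exact lt_irrefl _ h

/-- the determinant of a matrix whose first column is supported at `(0,0)` -/
theorem det_col0 {m : ℕ} (A : Matrix (Fin (m + 1)) (Fin (m + 1)) K)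
    (h0 : ∀ i, i ≠ 0 → A i 0 = 0) :
    A.det = A 0 0 * (A.submatrix Fin.succ Fin.succ).det := by
  rw [Matrix.det_succ_column_zero, Finset.sum_eq_single 0]
  · simp [Fin.succAbove_zero]
  · intro i _ hi
    rw [h0 i hi]; simp
  · intro h; exact absurd (Finset.mem_univ _) h

/-- the diagonal matrices `diag(ε at j, ε⁻¹ at j')` lie in `M` -/
theorem diag_mem {n : ℕ} (M : Subgroup (GL (Fin n) K)) (hH : MonSLLE M) (j j' : Fin n)
    (hj : j ≠ j') (ε : K) (hε : ε ≠ 0) :
    ∃ d ∈ M, d.1 = Matrix.diagonal (fun x => if x = j then ε else if x = j' then ε⁻¹ else 1) := by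
  obtain ⟨D, hD⟩ : ∃ D : Matrix (Fin n) (Fin n) K,
      D = Matrix.diagonal (fun x => if x = j then ε else if x = j' then ε⁻¹ else 1) := ⟨_, rfl⟩
  have hdet : D.det = 1 := by
    rw [hD, Matrix.det_diagonal, Finset.prod_eq_mul j j' hj]
    · simp [hj.symm, hε]
    · intro c _ hc; simp [hc.1, hc.2]
    · intro h; exact absurd (Finset.mem_univ _) h
    · intro h; exact absurd (Finset.mem_univ _) h
  refine ⟨Matrix.GeneralLinearGroup.mkOfDetNeZero D (by rw [hdet]; exact one_ne_zero),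
    hH _ ?_ ?_, ?_⟩
  · refine ⟨1, fun i l hil => ?_⟩
    show D i l = 0
    rw [hD]
    exact Matrix.diagonal_apply_ne _ hil
  · exact hdet
  · exact hD

/-- two elements of `M` that differ only in row `i0`, off the diagonal, give a "row transvection"
`1 + e_{i0} yᵀ` in `M`. -/
theorem row_diff {n : ℕ} (M : Subgroup (GL (Fin n) K)) (i0 : Fin n) (g1 g2 : GL (Fin n) K)
    (h1 : g1 ∈ M) (h2 : g2 ∈ M) (h0 : ∀ i, i ≠ i0 → g2.1 i i0 = 0)
    (hrow : ∀ i, i ≠ i0 → ∀ j, g1.1 i j = g2.1 i j) (h00 : g1.1 i0 i0 = g2.1 i0 i0)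
    (hne : g1 ≠ g2) :
    ∃ u ∈ M, ∃ y : Fin n → K, y i0 = 0 ∧ y ≠ 0 ∧
      u.1 = 1 + Matrix.vecMulVec (Pi.single i0 1) y := by
  obtain ⟨z, hz⟩ : ∃ z : Fin n → K, z = fun j => g1.1 i0 j - g2.1 i0 j := ⟨_, rfl⟩
  have hz0 : z i0 = 0 := by rw [hz]; simp [h00]
  have hg1 : g1.1 = g2.1 + Matrix.vecMulVec (Pi.single i0 1) z := by
    ext i j
    by_cases hi : i = i0
    · subst hi; simp [Matrix.vecMulVec_apply, hz]
    · simp [Matrix.vecMulVec_apply, hi, hrow i hi j]
  have hinvmul : (g2⁻¹).1 * g2.1 = 1 := by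
    rw [← Units.val_mul]; simp
  obtain ⟨y, hy⟩ : ∃ y : Fin n → K, y = z ᵥ* (g2⁻¹).1 := ⟨_, rfl⟩
  have hyz : y ᵥ* g2.1 = z := by
    rw [hy, Matrix.vecMul_vecMul, hinvmul, Matrix.vecMul_one]
  have hcol : g2.1 *ᵥ (Pi.single i0 1) = (g2.1 i0 i0) • (Pi.single i0 (1 : K)) := by
    ext i
    by_cases hi : i = i0
    · subst hi; simp
    · simp [hi, h0 i hi]
  have hback : (g2⁻¹).1 *ᵥ (g2.1 *ᵥ (Pi.single i0 1)) = Pi.single i0 (1 : K) := by
    rw [Matrix.mulVec_mulVec, hinvmul, Matrix.one_mulVec]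
  have hc : g2.1 i0 i0 ≠ 0 := by
    intro hc0
    rw [hcol, hc0, zero_smul, Matrix.mulVec_zero] at hback
    have := congrFun hback i0
    simp at this
  have hinv : (g2⁻¹).1 *ᵥ (Pi.single i0 1) = (g2.1 i0 i0)⁻¹ • (Pi.single i0 (1 : K)) := by
    rw [hcol, Matrix.mulVec_smul] at hback
    have e2 : (g2⁻¹).1 *ᵥ (Pi.single i0 1)
        = (g2.1 i0 i0)⁻¹ • ((g2.1 i0 i0) • (g2⁻¹).1 *ᵥ (Pi.single i0 (1 : K))) := by
      rw [smul_smul, inv_mul_cancel₀ hc, one_smul]
    rw [e2, hback]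
  have hy0 : y i0 = 0 := by
    have e1 : y i0 = y ⬝ᵥ Pi.single i0 1 := by simp
    rw [e1, hy, ← Matrix.dotProduct_mulVec, hinv, dotProduct_smul]
    simp [hz0]
  have hyne : y ≠ 0 := by
    intro h
    rw [h, Matrix.zero_vecMul] at hyz
    apply hne
    apply Units.ext
    rw [hg1, ← hyz]; simp
  refine ⟨g1 * g2⁻¹, M.mul_mem h1 (M.inv_mem h2), y, hy0, hyne, ?_⟩
  have key : (1 + Matrix.vecMulVec (Pi.single i0 1) y) * g2.1 = g1.1 := by
    rw [add_mul, one_mul, Matrix.vecMulVec_mul, hyz, ← hg1]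
  have key2 : (g1 * g2⁻¹).1 * g2.1 = g1.1 := by
    rw [← Units.val_mul]; simp
  exact (Units.mul_left_inj g2).1 (key2.trans key.symm)

/-- one sparsification step: commutating a row transvection with a diagonal element -/
theorem sp_step {n : ℕ} (M : Subgroup (GL (Fin n) K)) (i0 : Fin n) (u d : GL (Fin n) K)
    (hu : u ∈ M) (hd : d ∈ M) (v δ : Fin n → K) (hv0 : v i0 = 0)
    (hu' : u.1 = 1 + Matrix.vecMulVec (Pi.single i0 1) v)
    (hd' : d.1 = Matrix.diagonal δ) (hδ0 : δ i0 = 1) (hδ : ∀ x, δ x ≠ 0) :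
    ∃ u' ∈ M, u'.1 = 1 + Matrix.vecMulVec (Pi.single i0 1) (fun x => v x * (1 - (δ x)⁻¹)) := by
  refine ⟨u * d * u⁻¹ * d⁻¹,
    M.mul_mem (M.mul_mem (M.mul_mem hu hd) (M.inv_mem hu)) (M.inv_mem hd), ?_⟩
  have key2 : (u * d * u⁻¹ * d⁻¹).1 * (d * u).1 = (u * d).1 := by
    rw [← Units.val_mul]; congr 1; group
  have hDe : Matrix.diagonal δ *ᵥ (Pi.single i0 (1 : K)) = Pi.single i0 1 := by
    rw [Matrix.diagonal_mulVec_single, hδ0, mul_one]
  have key : (1 + Matrix.vecMulVec (Pi.single i0 1) (fun x => v x * (1 - (δ x)⁻¹))) * (d * u).1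
      = (u * d).1 := by
    rw [Units.val_mul, Units.val_mul, hu', hd', mul_add, mul_one, Matrix.mul_vecMulVec, hDe,
      add_mul, add_mul, one_mul, one_mul, mul_add, Matrix.vecMulVec_mul,
      Matrix.vecMulVec_mul_vecMulVec, Matrix.vecMulVec_mul, add_assoc]
    congr 1
    rw [← Matrix.vecMulVec_add, ← Matrix.vecMulVec_add]
    congr 1
    ext x
    have hx := hδ x
    simp only [Pi.add_apply, Matrix.vecMul_diagonal, Pi.smul_apply, smul_eq_mul,
      dotProduct_single_one, hv0, zero_mul, add_zero]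
    field_simp
    ring
  exact (Units.mul_left_inj (d * u)).1 (key2.trans key.symm)

/-- a non-trivial row transvection in `M` gives an elementary transvection in `M` -/
theorem sparsify [Fintype K] (hq : 3 ≤ Fintype.card K) {n : ℕ} (hn : 4 ≤ n)
    (M : Subgroup (GL (Fin n) K)) (hH : MonSLLE M) (i0 : Fin n) (u : GL (Fin n) K) (hu : u ∈ M)
    (y : Fin n → K) (hy0 : y i0 = 0) (hy : y ≠ 0)
    (hu' : u.1 = 1 + Matrix.vecMulVec (Pi.single i0 1) y) : HasTv M := by
  classical
  obtain ⟨j, hj⟩ : ∃ j, y j ≠ 0 := by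
    by_contra h; apply hy; ext x; by_contra hx; exact h ⟨x, hx⟩
  have hji : j ≠ i0 := fun h => hj (h ▸ hy0)
  obtain ⟨j2, hj2⟩ : ∃ j2, j2 ∉ ({i0, j} : Finset (Fin n)) :=
    exists_notMem _ (lt_of_le_of_lt Finset.card_le_two (by rw [Fintype.card_fin]; omega))
  obtain ⟨j3, hj3⟩ : ∃ j3, j3 ∉ ({i0, j, j2} : Finset (Fin n)) :=
    exists_notMem _ (lt_of_le_of_lt Finset.card_le_three (by rw [Fintype.card_fin]; omega))
  obtain ⟨ε, hε⟩ : ∃ ε : K, ε ∉ ({0, 1} : Finset K) :=
    exists_notMem _ (lt_of_le_of_lt Finset.card_le_two (by omega))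
  simp only [Finset.mem_insert, Finset.mem_singleton, not_or] at hj2 hj3 hε
  obtain ⟨hε0, hε1⟩ := hε
  obtain ⟨d1, hd1, hd1'⟩ := diag_mem M hH j j2 (Ne.symm hj2.2) ε hε0
  obtain ⟨d2, hd2, hd2'⟩ := diag_mem M hH j j3 (Ne.symm hj3.2.1) ε hε0
  obtain ⟨u1, hu1, hu1'⟩ := sp_step M i0 u d1 hu hd1 y _ hy0 hu' hd1'
    (by simp [hji.symm, Ne.symm hj2.1])
    (by intro x; split_ifs <;> simp [hε0])
  obtain ⟨u2, hu2, hu2'⟩ := sp_step M i0 u1 d2 hu1 hd2 _ _ (by simp [hy0]) hu1' hd2'
    (by simp [hji.symm, Ne.symm hj3.1])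
    (by intro x; split_ifs <;> simp [hε0])
  have h1 : (1 - ε⁻¹) ≠ 0 := by
    intro h
    apply hε1
    have h2 : ε⁻¹ = 1 := by linear_combination -h
    rw [← inv_inv ε, h2, inv_one]
  refine ⟨u2, hu2, i0, j, hji.symm, y j * (1 - ε⁻¹) * (1 - ε⁻¹),
    mul_ne_zero (mul_ne_zero hj h1) h1, ?_⟩
  rw [hu2', Matrix.transvection]
  congr 1
  ext a b
  simp only [Matrix.vecMulVec_apply, Matrix.single_apply, Pi.single_apply]
  by_cases ha : a = i0
  · subst ha
    by_cases hb : b = j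
    · subst hb; simp
    · by_cases hb2 : b = j2
      · subst hb2
        have : ¬ (b = j3) := fun h => hj3.2.2 h.symm
        simp [hb, this, Ne.symm hb]
      · simp [hb, hb2, Ne.symm hb]
  · simp [ha, Ne.symm ha]

/-- PIECE LS (1) -/
theorem lift_tv_sl [Fintype K] (hq : 5 ≤ Fintype.card K) (m : ℕ) (hm : 3 ≤ m)
    (M : Subgroup (GL (Fin (m + 1)) K)) (hH : MonSLLE M)
    (k : GL (Fin (m + 1)) K) (hk : k ∈ M) (hdet : k.1.det = 1)
    (hk0 : ∀ i, i ≠ 0 → k.1 i 0 = 0)
    (a b : Fin m) (hab : a ≠ b) (c : K) (hc : c ≠ 0)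
    (hblk : k.1.submatrix Fin.succ Fin.succ = Matrix.transvection a b c) : HasTv M := by
  classical
  have h00 : k.1 0 0 = 1 := by
    have := det_col0 k.1 hk0
    rw [hdet, hblk, Matrix.det_transvection_of_ne _ _ hab, mul_one] at this
    exact this.symm
  have hent : ∀ i j : Fin m, k.1 i.succ j.succ = (Matrix.transvection a b c) i j := by
    intro i j; rw [← hblk]; rfl
  by_cases hβ : ∀ j : Fin m, k.1 0 j.succ = 0
  · refine ⟨k, hk, a.succ, b.succ, fun h => hab (Fin.succ_injective _ h), c, hc, ?_⟩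
    ext i j
    refine Fin.cases ?_ (fun i' => ?_) i <;> refine Fin.cases ?_ (fun j' => ?_) j
    · simp [h00, Matrix.transvection, Matrix.single_apply]
    · simp [hβ j', Matrix.transvection, Matrix.single_apply, Matrix.one_apply,
        (Fin.succ_ne_zero _).symm]
    · simp [hk0 _ (Fin.succ_ne_zero i'), Matrix.transvection, Matrix.single_apply,
        Matrix.one_apply, Fin.succ_ne_zero]
    · rw [hent]
      simp [Matrix.transvection, Matrix.single_apply, Matrix.one_apply, Fin.succ_inj]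
  · obtain ⟨j0, hj0⟩ := not_forall.1 hβ
    obtain ⟨m', hm'⟩ : ∃ m' : Fin m, m' ∉ ({a, b} : Finset (Fin m)) :=
      exists_notMem _ (lt_of_le_of_lt Finset.card_le_two (by rw [Fintype.card_fin]; omega))
    obtain ⟨lam, hlam⟩ : ∃ lam : K, lam ∉ ({0, 1, -1} : Finset K) :=
      exists_notMem _ (lt_of_le_of_lt Finset.card_le_three (by omega))
    simp only [Finset.mem_insert, Finset.mem_singleton, not_or] at hm' hlam
    obtain ⟨hl0, hl1, hl2⟩ := hlam
    obtain ⟨d, hd, hd'⟩ := diag_mem M hH 0 m'.succ (Fin.succ_ne_zero _).symm lam hl0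
    have c1 : ∀ i, i ≠ 0 → (d * k).1 i 0 = 0 := by
      intro i hi
      rw [Units.val_mul, hd', Matrix.diagonal_mul, hk0 i hi, mul_zero]
    have c2 : ∀ i, i ≠ 0 → ∀ j, (k * d).1 i j = (d * k).1 i j := by
      intro i hi j
      rw [Units.val_mul, Units.val_mul, hd', Matrix.mul_diagonal, Matrix.diagonal_mul]
      obtain ⟨i', rfl⟩ := Fin.exists_succ_eq.2 hi
      refine Fin.cases ?_ (fun j' => ?_) j
      · rw [hk0 _ hi]; simp
      · rw [hent]
        by_cases hij : i' = j'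
        · subst hij; exact mul_comm _ _
        · by_cases hab' : a = i' ∧ b = j'
          · obtain ⟨rfl, rfl⟩ := hab'
            simp [Fin.succ_ne_zero, Ne.symm hm'.1, Ne.symm hm'.2]
          · have : (Matrix.transvection a b c) i' j' = 0 := by
              simp [Matrix.transvection, Matrix.single_apply, Matrix.one_apply, hij, hab']
            rw [this]; simp
    have c3 : (k * d).1 0 0 = (d * k).1 0 0 := by
      rw [Units.val_mul, Units.val_mul, hd', Matrix.mul_diagonal, Matrix.diagonal_mul]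
      exact mul_comm _ _
    have c4 : k * d ≠ d * k := by
      intro h
      have h2 := congrFun (congrFun (congrArg (fun g : GL (Fin (m + 1)) K => g.1) h) 0) j0.succ
      simp only [Units.val_mul, hd', Matrix.mul_diagonal, Matrix.diagonal_mul] at h2
      have h3 : (if j0.succ = (0 : Fin (m + 1)) then lam
          else if j0.succ = m'.succ then lam⁻¹ else 1) = lam := by
        have h4 := mul_left_cancel₀ hj0 (h2.trans (mul_comm _ _))
        simpa using h4
      rw [if_neg (Fin.succ_ne_zero _)] at h3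
      split_ifs at h3
      · have : lam * lam = 1 := by
          have := congrArg (fun t => lam * t) h3
          simpa [hl0] using this.symm
        have h5 : (lam - 1) * (lam + 1) = 0 := by linear_combination this
        rcases mul_eq_zero.1 h5 with h6 | h6
        · exact hl1 (by linear_combination h6)
        · exact hl2 (by linear_combination h6)
      · exact hl1 h3.symm
    obtain ⟨u, hu, y, hy0, hyne, hu'⟩ := row_diff M 0 (k * d) (d * k) (M.mul_mem hk hd)
      (M.mul_mem hd hk) c1 c2 c3 c4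
    exact sparsify (by omega) (by omega) M hH 0 u hu y hy0 hyne hu'

/-- PIECE LS (2) -/
theorem lift_mono_sl [Fintype K] (hq : 5 ≤ Fintype.card K) (m : ℕ) (hm : 3 ≤ m)
    (M : Subgroup (GL (Fin (m + 1)) K)) (hH : MonSLLE M)
    (k : GL (Fin (m + 1)) K) (hk : k ∈ M) (hdet : k.1.det = 1)
    (hk0 : ∀ i, i ≠ 0 → k.1 i 0 = 0)
    (hblk : IsMono (k.1.submatrix Fin.succ Fin.succ)) (hkm : ¬ IsMono k.1) : HasTv M := by
  classical
  obtain ⟨σ, hσ⟩ := hblk
  obtain ⟨W, hW⟩ : ∃ W : Matrix (Fin (m + 1)) (Fin (m + 1)) K,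
      W = fun i j => if i = 0 then (if j = 0 then k.1 0 0 else 0) else k.1 i j := ⟨_, rfl⟩
  have hW0 : ∀ i, i ≠ 0 → W i 0 = 0 := fun i hi => by simp [hW, hi, hk0 i hi]
  have hWsub : W.submatrix Fin.succ Fin.succ = k.1.submatrix Fin.succ Fin.succ := by
    ext i j
    rw [Matrix.submatrix_apply, Matrix.submatrix_apply, hW]
    simp [Fin.succ_ne_zero]
  have hWdet : W.det = 1 := by
    rw [det_col0 W hW0, hWsub, ← hdet, det_col0 k.1 hk0]; simp [hW]
  have hWmono : IsMono W := by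
    refine ⟨Equiv.Perm.decomposeFin.symm (0, σ), fun i j => ?_⟩
    refine Fin.cases ?_ (fun j' => ?_) j
    · intro hij
      rw [Equiv.Perm.decomposeFin_symm_apply_zero] at hij
      exact hW0 i hij
    · intro hij
      rw [Equiv.Perm.decomposeFin_symm_apply_succ] at hij
      simp only [Equiv.swap_self, Equiv.refl_apply] at hij
      revert hij
      refine Fin.cases ?_ (fun i' => ?_) i
      · intro _; simp [hW, Fin.succ_ne_zero]
      · intro hij
        have h1 : i' ≠ σ j' := fun h => hij (by rw [h])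
        have h2 := hσ i' j' h1
        simpa [hW, Fin.succ_ne_zero] using h2
  obtain ⟨w, hw1⟩ : ∃ w : GL (Fin (m + 1)) K, w.1 = W :=
    ⟨Matrix.GeneralLinearGroup.mkOfDetNeZero W (by rw [hWdet]; exact one_ne_zero), rfl⟩
  have hwM : w ∈ M := hH w (by rw [hw1]; exact hWmono) (by rw [hw1]; exact hWdet)
  have c1 : ∀ i, i ≠ 0 → w.1 i 0 = 0 := by
    intro i hi; rw [hw1]; exact hW0 i hi
  have c2 : ∀ i, i ≠ 0 → ∀ j, k.1 i j = w.1 i j := by
    intro i hi j; rw [hw1, hW]; simp [hi]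
  have c3 : k.1 0 0 = w.1 0 0 := by
    rw [hw1, hW]; simp
  have c4 : k ≠ w := by
    intro h; apply hkm; rw [h, hw1]; exact hWmono
  obtain ⟨u, hu, y, hy0, hyne, hu'⟩ := row_diff M 0 k w hk hwM c1 c2 c3 c4
  exact sparsify (by omega) (by omega) M hH 0 u hu y hy0 hyne hu'

end Cfsg.Agent.Helper33.C2LS
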