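import Mathlib
import Cfsg.Agent.Helper43.C3ODefs
import Cfsg.Agent.Helper45.Spinor
import Cfsg.Agent.Helper45.PSO
import Cfsg.Agent.Helper43.PrimeOrdO2
import Cfsg.Agent.Helper43.PrimeOrdO3
import Cfsg.Agent.Helper14.Forms2
import Cfsg.Agent.Helper3.C3EKJ
import Cfsg.Agent.Helper83.C3ENORM
import Cfsg.Agent.Helper91.C3ECONJ
import Cfsg.Agent.Helper43.QuadFin

set_option autoImplicit false
set_option linter.unusedSectionVars false
set_option linter.unusedVariables false

namespace Cfsg.Agent.Helper33

open Matrix Module Polynomial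
open Cfsg.Agent.Helper43.C3O
open Cfsg.Agent.Helper43.CycFactors (cycJ)
open Cfsg.Agent.Helper43.PrimeOrdMat (psi)

universe u

section quad

variable {F : Type u} [Field F] [Fintype F] {ι : Type} [Fintype ι] [DecidableEq ι]

/-- PIECE EW -/
theorem c3o_ew (h2 : (2 : F) ≠ 0) (Q : QuadraticForm F (ι → F))
    (hQ : (QuadraticMap.polarBilin Q).Nondegenerate) (hcard : 3 ≤ Fintype.card ι) :
    ∃ e w : ι → F, Q e = 0 ∧ e ≠ 0 ∧ Q w ≠ 0 ∧ QuadraticMap.polar ⇑Q e w = 0 := by
  classical
  have h3 : 3 ≤ Module.finrank F (ι → F) := by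
    rw [Module.finrank_fintype_fun_eq_card]; exact hcard
  obtain ⟨e, he0, he⟩ := Cfsg.Agent.Helper43.exists_singular Q h3
  obtain ⟨f, hf⟩ : ∃ f, QuadraticMap.polar ⇑Q e f ≠ 0 := by
    by_contra hcon
    push_neg at hcon
    exact he0 (hQ.1 e hcon)
  set c := QuadraticMap.polar ⇑Q e f with hc
  have hee : QuadraticMap.polar ⇑Q e e = 0 := by rw [QuadraticMap.polar_self, he, smul_zero]
  obtain ⟨v, hv⟩ : ∃ v : ι → F, v ∉ Submodule.span F ({e, f} : Set (ι → F)) := by
    by_contra hcon
    push_neg at hcon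
    have htop : Submodule.span F ({e, f} : Set (ι → F)) = ⊤ := by
      rw [Submodule.eq_top_iff']; exact hcon
    have hle : Module.finrank F (Submodule.span F ({e, f} : Set (ι → F))) ≤ 2 := by
      have := finrank_span_finset_le_card (R := F) ({e, f} : Finset (ι → F))
      have h2' : ({e, f} : Finset (ι → F)).card ≤ 2 := Finset.card_le_two
      have hcoe : ((({e, f} : Finset (ι → F)) : Set (ι → F))) = {e, f} := by simp
      rw [hcoe] at this
      exact le_trans this h2'
    rw [htop, finrank_top] at hle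
    omega
  set b := QuadraticMap.polar ⇑Q e v / c with hb
  set a := (QuadraticMap.polar ⇑Q f v - b * QuadraticMap.polar ⇑Q f f) / c with ha
  set w := v - a • e - b • f with hw
  have hw0 : w ≠ 0 := by
    intro h0
    apply hv
    have hveq : v = a • e + b • f := by
      have h1 : v - (a • e + b • f) = 0 := by rw [← h0, hw]; abel
      exact sub_eq_zero.mp h1
    rw [hveq]
    exact Submodule.add_mem _ (Submodule.smul_mem _ _ (Submodule.subset_span (by simp)))
      (Submodule.smul_mem _ _ (Submodule.subset_span (by simp)))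
  have hew : QuadraticMap.polar ⇑Q e w = 0 := by
    rw [hw, QuadraticMap.polar_sub_right, QuadraticMap.polar_sub_right,
      QuadraticMap.polar_smul_right, QuadraticMap.polar_smul_right, hee, ← hc]
    simp only [smul_eq_mul, hb]
    field_simp
    ring
  have hfw : QuadraticMap.polar ⇑Q f w = 0 := by
    rw [hw, QuadraticMap.polar_sub_right, QuadraticMap.polar_sub_right,
      QuadraticMap.polar_smul_right, QuadraticMap.polar_smul_right,
      QuadraticMap.polar_comm _ f e, ← hc]
    simp only [smul_eq_mul, ha]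
    field_simp
    ring
  obtain ⟨u, hu⟩ : ∃ u, QuadraticMap.polar ⇑Q w u ≠ 0 := by
    by_contra hcon
    push_neg at hcon
    exact hw0 (hQ.1 w hcon)
  set u' := u - (QuadraticMap.polar ⇑Q e u / c) • f with hu'
  have heu' : QuadraticMap.polar ⇑Q e u' = 0 := by
    rw [hu', QuadraticMap.polar_sub_right, QuadraticMap.polar_smul_right, ← hc]
    simp only [smul_eq_mul]
    field_simp
    ring
  have hwu' : QuadraticMap.polar ⇑Q w u' ≠ 0 := by
    rw [hu', QuadraticMap.polar_sub_right, QuadraticMap.polar_smul_right,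
      QuadraticMap.polar_comm _ w f, hfw]
    simpa using hu
  by_cases hQw : Q w = 0
  · by_cases hQu : Q u' = 0
    · refine ⟨e, w + u', he, he0, ?_, ?_⟩
      · rw [QuadraticMap.map_add Q, hQw, hQu]; simpa using hwu'
      · rw [QuadraticMap.polar_add_right, hew, heu']; simp
    · exact ⟨e, u', he, he0, hQu, heu'⟩
  · exact ⟨e, w, he, he0, hQw, hew⟩

end quad

end Cfsg.Agent.Helper33
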