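import Mathlib
import Cfsg.Agent.Helper43.C3ODefs
import Cfsg.Agent.Helper45.Spinor
import Cfsg.Agent.Helper45.PSO
import Cfsg.Agent.Helper43.PrimeOrdO2
import Cfsg.Agent.Helper43.PrimeOrdO3
import Cfsg.Agent.Helper14.Forms2
import Cfsg.Agent.Helper3.C3EKJ
import Cfsg.Agent.Helper83.C3ENORM
import Cfsg.Agent.Helper91.C3ECONJ

set_option autoImplicit false
set_option linter.unusedSectionVars false
set_option linter.unusedVariables false

namespace Cfsg.Agent.Helper33

open Matrix Module Polynomial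
open Cfsg.Agent.Helper43.C3O
open Cfsg.Agent.Helper43.CycFactors (cycJ)
open Cfsg.Agent.Helper43.PrimeOrdMat (psi)

universe u

section quad

variable {F : Type u} [Field F] [Fintype F] {ι : Type} [Fintype ι] [DecidableEq ι]

/-- PIECE FA -/
theorem c3o_fa {p : ℕ} [Fact p.Prime] [CharP F p] (Q : QuadraticForm F (ι → F))
    (hQ : (QuadraticMap.polarBilin Q).Nondegenerate) (r : ℕ) (hr : r.Prime) (hrp : r ≠ p) (n : F)
    (J : Matrix ι ι F) (hJ : IsJ Q n J) (y : ↥(Cfsg.isometryGroup F ⇑Q)) (hy : orderOf y = r)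
    (P : F[X]) (hP : Irreducible P) (hPc : P ∣ cyclotomic r F)
    (hdec : ∀ v : ι → F, ∃ v₀ w : ι → F, v = v₀ + w ∧ (gm y).mulVec v₀ = v₀ ∧
      aeval (Matrix.toLin' (gm y)) P w = 0)
    (R : F[X]) (hR : ∀ w : ι → F, aeval (Matrix.toLin' (gm y)) P w = 0 →
      J.mulVec w = (aeval (gm y) R).mulVec w) :
    ∀ w : ι → F, aeval (Matrix.toLin' (gm y)) P w = 0 →
      (aeval (gm y⁻¹) R).mulVec w = (aeval (gm y) R).mulVec w := by
  classical
  intro w hw
  have haev : ∀ (M : Matrix ι ι F) (b : F[X]),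
      aeval (Matrix.toLin' M) b = Matrix.toLin' (aeval M b) := by
    intro M b
    exact Polynomial.aeval_algHom_apply
      (Matrix.toLinAlgEquiv' : Matrix ι ι F ≃ₐ[F] _).toAlgHom M b
  have hYY' : gm y * gm y⁻¹ = 1 := by
    have : y * y⁻¹ = 1 := mul_inv_cancel y
    have h2 := congrArg (fun g : ↥(Cfsg.isometryGroup F ⇑Q) => gm g) this
    simpa [gm] using h2
  have hY'Y : gm y⁻¹ * gm y = 1 := by
    have : y⁻¹ * y = 1 := inv_mul_cancel y
    have h2 := congrArg (fun g : ↥(Cfsg.isometryGroup F ⇑Q) => gm g) this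
    simpa [gm] using h2
  set T := Matrix.toLin' (gm y) with hT
  set T' := Matrix.toLin' (gm y⁻¹) with hT'
  have hTT' : ∀ v, T (T' v) = v := by
    intro v
    rw [hT, hT', Matrix.toLin'_apply, Matrix.toLin'_apply, Matrix.mulVec_mulVec, hYY',
      Matrix.one_mulVec]
  have hiso : ∀ u v, QuadraticMap.polar ⇑Q (T u) (T v) = QuadraticMap.polar ⇑Q u v := by
    intro u v
    rw [hT, Matrix.toLin'_apply, Matrix.toLin'_apply]
    exact Cfsg.Agent.Helper45.mv_polar Q y u v
  have hadj1 : ∀ u v, QuadraticMap.polar ⇑Q (T u) v = QuadraticMap.polar ⇑Q u (T' v) := by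
    intro u v
    conv_lhs => rw [← hTT' v]
    exact hiso u (T' v)
  have hadj : ∀ (S : F[X]) (u v : ι → F),
      QuadraticMap.polar ⇑Q (aeval T S u) v = QuadraticMap.polar ⇑Q u (aeval T' S v) := by
    intro S
    induction S using Polynomial.induction_on with
    | C a =>
      intro u v
      simp [QuadraticMap.polar_smul_left, QuadraticMap.polar_smul_right]
    | add p q hp hq =>
      intro u v
      simp only [map_add, LinearMap.add_apply, QuadraticMap.polar_add_left,
        QuadraticMap.polar_add_right, hp, hq]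
    | monomial k a ih =>
      intro u v
      have e1 : aeval T (C a * X ^ (k + 1)) u = aeval T (C a * X ^ k) (T u) := by
        simp only [map_mul, aeval_C, aeval_X, map_pow, pow_succ, Module.End.mul_apply,
          Module.algebraMap_end_apply]
      have e2 : aeval T' (C a * X ^ (k + 1)) v = T' (aeval T' (C a * X ^ k) v) := by
        simp only [map_mul, aeval_C, aeval_X, map_pow, pow_succ', Module.End.mul_apply,
          Module.algebraMap_end_apply, map_smul]
      rw [e1, e2, ih, hadj1]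
  have hr1 : y ^ r = 1 := hy ▸ pow_orderOf_eq_one y
  have hYr : gm y ^ r = 1 := by
    have := congrArg (fun g : ↥(Cfsg.isometryGroup F ⇑Q) => gm g) hr1
    simpa [gm] using this
  have hY'pow : gm y⁻¹ = gm y ^ (r - 1) := by
    have hrpos : r = (r - 1) + 1 := by have := hr.pos; omega
    calc gm y⁻¹ = gm y⁻¹ * gm y ^ r := by rw [hYr, Matrix.mul_one]
      _ = gm y⁻¹ * (gm y * gm y ^ (r - 1)) := by rw [← pow_succ', ← hrpos]
      _ = gm y ^ (r - 1) := by rw [← Matrix.mul_assoc, hY'Y, Matrix.one_mul]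
  have hT'pow : T' = T ^ (r - 1) := by
    rw [hT', hY'pow, hT]
    exact map_pow (Matrix.toLinAlgEquiv' : Matrix ι ι F ≃ₐ[F] _) (gm y) (r - 1)
  have hcomp : ∀ S : F[X], aeval T' S = aeval T (S.comp (X ^ (r - 1))) := by
    intro S
    rw [Polynomial.aeval_comp, hT'pow]
    simp
  have hWinv : ∀ (S : F[X]) (a : ι → F), aeval T P a = 0 → aeval T P (aeval T S a) = 0 := by
    intro S a ha
    have : aeval T P (aeval T S a) = aeval T S (aeval T P a) := by
      rw [← Module.End.mul_apply, ← Module.End.mul_apply, ← map_mul, ← map_mul, mul_comm]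
    rw [this, ha, map_zero]
  have hP1 : P.eval 1 ≠ 0 := by
    intro h0
    obtain ⟨c, hc⟩ := hPc
    have h1 : (cyclotomic r F).eval 1 = 0 := by rw [hc, eval_mul, h0, zero_mul]
    haveI : Fact r.Prime := ⟨hr⟩
    rw [Polynomial.eval_one_cyclotomic_prime] at h1
    have hdvd : p ∣ r := (CharP.cast_eq_zero_iff F p r).mp h1
    exact hrp ((Nat.prime_dvd_prime_iff_eq (Fact.out) hr).mp hdvd).symm
  have hperp : ∀ a v₀ : ι → F, aeval T P a = 0 → T v₀ = v₀ →
      QuadraticMap.polar ⇑Q a v₀ = 0 := by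
    intro a v₀ ha hv₀
    have hdiv : P = C (P.eval 1) + (X - C 1) * (P /ₘ (X - C 1)) := by
      have := Polynomial.modByMonic_add_div P (X - C (1 : F))
      rw [Polynomial.modByMonic_X_sub_C_eq_C_eval] at this
      exact this.symm
    have h1 : aeval T P a = P.eval 1 • a +
        (T (aeval T (P /ₘ (X - C 1)) a) - aeval T (P /ₘ (X - C 1)) a) := by
      conv_lhs => rw [hdiv]
      simp only [map_add, map_mul, map_sub, aeval_C, aeval_X, LinearMap.add_apply,
        Module.End.mul_apply, LinearMap.sub_apply, Module.algebraMap_end_apply, map_one,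
        Module.End.one_apply]
    rw [ha] at h1
    have h2 : QuadraticMap.polar ⇑Q (P.eval 1 • a) v₀ = 0 := by
      have h3 : P.eval 1 • a =
          -(T (aeval T (P /ₘ (X - C 1)) a) - aeval T (P /ₘ (X - C 1)) a) := by
        rw [eq_neg_iff_add_eq_zero]; exact h1.symm
      rw [h3, QuadraticMap.polar_neg_left, QuadraticMap.polar_sub_left]
      have h4 := hiso (aeval T (P /ₘ (X - C 1)) a) v₀
      rw [hv₀] at h4
      rw [h4]; simp
    rw [QuadraticMap.polar_smul_left, smul_eq_mul] at h2
    rcases mul_eq_zero.mp h2 with h | h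
    · exact absurd h hP1
    · exact h
  have huW : aeval T P (aeval T R w - aeval T' R w) = 0 := by
    rw [map_sub, hcomp, hWinv _ _ hw, hWinv _ _ hw, sub_zero]
  have hJw : ∀ a : ι → F, aeval T P a = 0 → J.mulVec a = aeval T R a := by
    intro a ha
    rw [hR a ha, haev, Matrix.toLin'_apply]
  have key : ∀ w' : ι → F, aeval T P w' = 0 →
      QuadraticMap.polar ⇑Q (aeval T R w - aeval T' R w) w' = 0 := by
    intro w' hw'
    rw [QuadraticMap.polar_sub_left]
    have e1 : QuadraticMap.polar ⇑Q (aeval T R w) w' =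
        QuadraticMap.polar ⇑Q w (aeval T R w') := by
      rw [← hJw w hw, ← hJw w' hw']; exact hJ.2 w w'
    have e2 : QuadraticMap.polar ⇑Q (aeval T' R w) w' =
        QuadraticMap.polar ⇑Q w (aeval T R w') := by
      rw [QuadraticMap.polar_comm, ← hadj R w' w, QuadraticMap.polar_comm]
    rw [e1, e2, sub_self]
  have hu0 : aeval T R w - aeval T' R w = 0 := by
    apply hQ.1
    intro v
    obtain ⟨v₀, w', rfl, hv₀, hw'⟩ := hdec v
    rw [QuadraticMap.polarBilin_apply_apply, QuadraticMap.polar_add_right, key w' hw',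
      hperp _ v₀ huW (by rw [hT, Matrix.toLin'_apply]; exact hv₀), add_zero]
  rw [← Matrix.toLin'_apply, ← Matrix.toLin'_apply, ← haev, ← haev]
  exact (sub_eq_zero.mp hu0).symm

end quad

end Cfsg.Agent.Helper33
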