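import Mathlib
import Cfsg.Agent.Helper43.C3ODefs
import Cfsg.Agent.Helper45.Spinor
import Cfsg.Agent.Helper45.PSO
import Cfsg.Agent.Helper43.PrimeOrdO2
import Cfsg.Agent.Helper43.PrimeOrdO3
import Cfsg.Agent.Helper14.Forms2
import Cfsg.Agent.Helper3.C3EKJ
import Cfsg.Agent.Helper83.C3ENORM
import Cfsg.Agent.Helper91.C3ECONJ

set_option autoImplicit false
set_option linter.unusedSectionVars false
set_option linter.unusedVariables false

namespace Cfsg.Agent.Helper33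

open Matrix Module Polynomial
open Cfsg.Agent.Helper43.C3O
open Cfsg.Agent.Helper43.CycFactors (cycJ)
open Cfsg.Agent.Helper43.PrimeOrdMat (psi)

universe u

section quad

variable {F : Type u} [Field F] [Fintype F] {ι : Type} [Fintype ι] [DecidableEq ι]

/-- PIECE GLUEM -/
theorem c3o_gluem (Q : QuadraticForm F (ι → F)) (n : F) (W₁ W₂ : Submodule F (ι → F))
    (hc : IsCompl W₁ W₂) (ho : ∀ u ∈ W₁, ∀ v ∈ W₂, QuadraticMap.polar ⇑Q u v = 0)
    (J₁ : W₁ →ₗ[F] W₁) (J₂ : W₂ →ₗ[F] W₂) (h₁ : ∀ w, J₁ (J₁ w) = n • w)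
    (h₂ : ∀ w, J₂ (J₂ w) = n • w)
    (hs₁ : ∀ u v : W₁, QuadraticMap.polar ⇑Q (J₁ u : ι → F) (v : ι → F) =
      QuadraticMap.polar ⇑Q (u : ι → F) (J₁ v : ι → F))
    (hs₂ : ∀ u v : W₂, QuadraticMap.polar ⇑Q (J₂ u : ι → F) (v : ι → F) =
      QuadraticMap.polar ⇑Q (u : ι → F) (J₂ v : ι → F)) :
    ∃ J' : Matrix ι ι F, IsJ Q n J' ∧ (∀ w ∈ W₁, J'.mulVec w ∈ W₁) ∧
      ∀ w ∈ W₂, J'.mulVec w ∈ W₂ := by
  classical
  set P1 := Submodule.projectionOnto W₁ W₂ hc with hP1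
  set P2 := Submodule.projectionOnto W₂ W₁ hc.symm with hP2
  set Jl : (ι → F) →ₗ[F] (ι → F) := W₁.subtype ∘ₗ J₁ ∘ₗ P1 + W₂.subtype ∘ₗ J₂ ∘ₗ P2 with hJl
  have hJl_apply : ∀ v, Jl v = (J₁ (P1 v) : ι → F) + (J₂ (P2 v) : ι → F) := fun v => rfl
  have hdec : ∀ v : ι → F, (P1 v : ι → F) + (P2 v : ι → F) = v := by
    intro v
    exact Submodule.projection_add_projection_eq_self hc v
  have hP1l : ∀ w : W₁, P1 (w : ι → F) = w :=
    fun w => Submodule.projectionOnto_apply_left hc w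
  have hP1r : ∀ w : W₂, P1 (w : ι → F) = 0 :=
    fun w => Submodule.projectionOnto_apply_right hc w
  have hP2l : ∀ w : W₂, P2 (w : ι → F) = w :=
    fun w => Submodule.projectionOnto_apply_left hc.symm w
  have hP2r : ∀ w : W₁, P2 (w : ι → F) = 0 :=
    fun w => Submodule.projectionOnto_apply_right hc.symm w
  have hP1J : ∀ v, P1 (Jl v) = J₁ (P1 v) := by
    intro v; rw [hJl_apply, map_add, hP1l, hP1r, add_zero]
  have hP2J : ∀ v, P2 (Jl v) = J₂ (P2 v) := by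
    intro v; rw [hJl_apply, map_add, hP2r, hP2l, zero_add]
  have hJJ : ∀ v, Jl (Jl v) = n • v := by
    intro v
    rw [hJl_apply (Jl v), hP1J, hP2J, h₁, h₂]
    have := hdec v
    calc ((n • P1 v : W₁) : ι → F) + ((n • P2 v : W₂) : ι → F)
        = n • ((P1 v : ι → F) + (P2 v : ι → F)) := by
          rw [smul_add]; rfl
      _ = n • v := by rw [this]
  have hpol : ∀ (a₁ b₁ : W₁) (a₂ b₂ : W₂),
      QuadraticMap.polar ⇑Q ((a₁ : ι → F) + (a₂ : ι → F)) ((b₁ : ι → F) + (b₂ : ι → F)) =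
        QuadraticMap.polar ⇑Q (a₁ : ι → F) (b₁ : ι → F) +
          QuadraticMap.polar ⇑Q (a₂ : ι → F) (b₂ : ι → F) := by
    intro a₁ b₁ a₂ b₂
    rw [QuadraticMap.polar_add_left, QuadraticMap.polar_add_right, QuadraticMap.polar_add_right,
      ho _ a₁.2 _ b₂.2, QuadraticMap.polar_comm _ (a₂ : ι → F) (b₁ : ι → F), ho _ b₁.2 _ a₂.2]
    ring
  have hself : ∀ u v, QuadraticMap.polar ⇑Q (Jl u) v = QuadraticMap.polar ⇑Q u (Jl v) := by
    intro u v
    calc QuadraticMap.polar ⇑Q (Jl u) v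
        = QuadraticMap.polar ⇑Q ((J₁ (P1 u) : ι → F) + (J₂ (P2 u) : ι → F))
            ((P1 v : ι → F) + (P2 v : ι → F)) := by rw [hdec v, hJl_apply]
      _ = QuadraticMap.polar ⇑Q ((P1 u : ι → F) + (P2 u : ι → F))
            ((J₁ (P1 v) : ι → F) + (J₂ (P2 v) : ι → F)) := by
          rw [hpol, hpol, hs₁, hs₂]
      _ = QuadraticMap.polar ⇑Q u (Jl v) := by rw [hdec u, hJl_apply]
  have hmv : ∀ w, (LinearMap.toMatrix' Jl).mulVec w = Jl w := by
    intro w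
    rw [← Matrix.toLin'_apply, Matrix.toLin'_toMatrix']
  refine ⟨LinearMap.toMatrix' Jl, ⟨?_, ?_⟩, ?_, ?_⟩
  · rw [← LinearMap.toMatrix'_comp]
    have : Jl ∘ₗ Jl = n • LinearMap.id := by
      apply LinearMap.ext
      intro v
      simp only [LinearMap.comp_apply, LinearMap.smul_apply, LinearMap.id_apply]
      exact hJJ v
    rw [this, map_smul, LinearMap.toMatrix'_id]
  · intro u v
    rw [hmv, hmv]
    exact hself u v
  · intro w hw
    rw [hmv, hJl_apply]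
    have h0 : P2 w = 0 := hP2r ⟨w, hw⟩
    rw [h0, map_zero]
    simp
  · intro w hw
    rw [hmv, hJl_apply]
    have h0 : P1 w = 0 := hP1r ⟨w, hw⟩
    rw [h0, map_zero]
    simp

end quad

end Cfsg.Agent.Helper33
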