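import Mathlib
import Cfsg.Agent.Helper43.C3ODefs
import Cfsg.Agent.Helper45.Spinor
import Cfsg.Agent.Helper45.PSO
import Cfsg.Agent.Helper43.PrimeOrdO2
import Cfsg.Agent.Helper43.PrimeOrdO3
import Cfsg.Agent.Helper14.Forms2
import Cfsg.Agent.Helper3.C3EKJ
import Cfsg.Agent.Helper83.C3ENORM
import Cfsg.Agent.Helper91.C3ECONJ

set_option autoImplicit false
set_option linter.unusedSectionVars false
set_option linter.unusedVariables false

namespace Cfsg.Agent.Helper33

open Matrix Module Polynomial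
open Cfsg.Agent.Helper43.C3O
open Cfsg.Agent.Helper43.CycFactors (cycJ)
open Cfsg.Agent.Helper43.PrimeOrdMat (psi)

universe u

section quad

variable {F : Type u} [Field F] [Fintype F] {ι : Type} [Fintype ι] [DecidableEq ι]

/-- PIECE INDM (IND is a hypothesis) -/
theorem c3o_indm (h2 : (2 : F) ≠ 0) (Q : QuadraticForm F (ι → F)) (n : F) (r : ℕ)
    (hind : ∀ S' : Subgroup ((ι → F) ≃ₗ[F] (ι → F)),
      (∀ s ∈ S', ∀ u v, QuadraticMap.polarBilin Q (s u) (s v) = QuadraticMap.polarBilin Q u v) →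
      ∀ k, Nat.card S' = r ^ k →
      ∃ J : (ι → F) →ₗ[F] (ι → F), (∀ v, J (J v) = n • v) ∧
        (∀ u v, QuadraticMap.polarBilin Q (J u) v = QuadraticMap.polarBilin Q u (J v)) ∧
        ∀ s ∈ S', ∀ v, J (s v) = s (J v))
    (S : Subgroup (GL ι F)) (hS : S ≤ Cfsg.isometryGroup F ⇑Q) (k : ℕ)
    (hSk : Nat.card S = r ^ k) :
    ∃ J' : Matrix ι ι F, IsJ Q n J' ∧
      ∀ s ∈ S, (s : Matrix ι ι F) * J' = J' * (s : Matrix ι ι F) := by
  classical
  set φ : GL ι F ≃* ((ι → F) ≃ₗ[F] (ι → F)) :=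
    Matrix.GeneralLinearGroup.toLin.trans
      (LinearMap.GeneralLinearGroup.generalLinearEquiv F (ι → F)) with hφ
  have hφa : ∀ (g : GL ι F) (v : ι → F), φ g v = (g : Matrix ι ι F).mulVec v := by
    intro g v
    rw [hφ]
    simp only [MulEquiv.trans_apply, LinearMap.GeneralLinearGroup.coeFn_generalLinearEquiv]
    rw [Matrix.GeneralLinearGroup.toLin_apply, Matrix.mulVecLin_apply]
  have hcard : Nat.card (S.map φ.toMonoidHom) = r ^ k := by
    rw [← hSk]
    exact Nat.card_congr (S.equivMapOfInjective φ.toMonoidHom φ.injective).symm.toEquiv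
  have hiso : ∀ s ∈ S.map φ.toMonoidHom, ∀ u v,
      QuadraticMap.polarBilin Q (s u) (s v) = QuadraticMap.polarBilin Q u v := by
    intro s hs u v
    obtain ⟨g, hg, rfl⟩ := Subgroup.mem_map.mp hs
    have hgi := (Cfsg.Agent.Helper45.mem_iso_iff (⇑Q) g).mp (hS hg)
    simp only [MulEquiv.coe_toMonoidHom, QuadraticMap.polarBilin_apply_apply]
    rw [hφa, hφa, QuadraticMap.polar, QuadraticMap.polar, ← Matrix.mulVec_add, hgi, hgi, hgi]
  obtain ⟨J, hJ1, hJ2, hJ3⟩ := hind (S.map φ.toMonoidHom) hiso k hcard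
  have hmv : ∀ w, (LinearMap.toMatrix' J).mulVec w = J w := by
    intro w
    rw [← Matrix.toLin'_apply, Matrix.toLin'_toMatrix']
  refine ⟨LinearMap.toMatrix' J, ⟨?_, ?_⟩, ?_⟩
  · rw [← LinearMap.toMatrix'_comp]
    have : J ∘ₗ J = n • LinearMap.id := by
      apply LinearMap.ext
      intro v
      simp only [LinearMap.comp_apply, LinearMap.smul_apply, LinearMap.id_apply]
      exact hJ1 v
    rw [this, map_smul, LinearMap.toMatrix'_id]
  · intro u v
    rw [hmv, hmv]
    have := hJ2 u v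
    simpa only [QuadraticMap.polarBilin_apply_apply] using this
  · intro s hs
    apply Matrix.toLin'.injective
    apply LinearMap.ext
    intro v
    rw [Matrix.toLin'_mul, Matrix.toLin'_mul, LinearMap.comp_apply, LinearMap.comp_apply,
      Matrix.toLin'_apply, Matrix.toLin'_apply, Matrix.toLin'_apply, Matrix.toLin'_apply,
      hmv, hmv, ← hφa, ← hφa]
    have := hJ3 (φ s) (Subgroup.mem_map.mpr ⟨s, hs, rfl⟩) v
    exact this.symm

end quad

end Cfsg.Agent.Helper33
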