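import Mathlib
import Cfsg.Agent.Helper43.C3ODefs
import Cfsg.Agent.Helper45.Spinor
import Cfsg.Agent.Helper45.PSO
import Cfsg.Agent.Helper43.PrimeOrdO2
import Cfsg.Agent.Helper43.PrimeOrdO3
import Cfsg.Agent.Helper14.Forms2
import Cfsg.Agent.Helper3.C3EKJ
import Cfsg.Agent.Helper83.C3ENORM
import Cfsg.Agent.Helper91.C3ECONJ

set_option autoImplicit false
set_option linter.unusedSectionVars false
set_option linter.unusedVariables false

namespace Cfsg.Agent.Helper33

open Matrix Module Polynomial
open Cfsg.Agent.Helper43.C3O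
open Cfsg.Agent.Helper43.CycFactors (cycJ)
open Cfsg.Agent.Helper43.PrimeOrdMat (psi)

universe u

section quad

variable {F : Type u} [Field F] [Fintype F] {ι : Type} [Fintype ι] [DecidableEq ι]

/-- PIECE RESC (with the extra hypothesis `h2`: the statement is false in characteristic 2) -/
theorem c3o_resc (h2 : (2 : F) ≠ 0) (Q : QuadraticForm F (ι → F)) (n : F) (J : Matrix ι ι F)
    (hJ : IsJ Q n J)
    (d : ℕ) (e : Fin (d + 1) → ι → F) (α β : F) (he : IsFrame Q J e α β) (x y : F) :
    IsFrame Q J (Function.update e (Fin.last d)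
        (x • e (Fin.last d) + y • J.mulVec (e (Fin.last d))))
      ((x ^ 2 + n * y ^ 2) * α + x * y * β) ((x ^ 2 + n * y ^ 2) * β + 4 * n * x * y * α) := by
  obtain ⟨hJ2, hJs⟩ := hJ
  obtain ⟨h1, h2', h3, h4⟩ := he
  have hJJ : ∀ v, J.mulVec (J.mulVec v) = n • v := by
    intro v
    rw [Matrix.mulVec_mulVec, hJ2, Matrix.smul_mulVec, Matrix.one_mulVec]
  have hQJ : ∀ v, Q (J.mulVec v) = n * Q v := by
    intro v
    have h := hJs (J.mulVec v) v
    rw [hJJ, QuadraticMap.polar_smul_left, QuadraticMap.polar_self, QuadraticMap.polar_self] at h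
    simp only [smul_eq_mul, nsmul_eq_mul, Nat.cast_ofNat] at h
    have h' : 2 * (Q (J.mulVec v) - n * Q v) = 0 := by linear_combination -h
    rcases mul_eq_zero.mp h' with h0 | h0
    · exact absurd h0 h2
    · exact sub_eq_zero.mp h0
  have hJe' : J.mulVec (x • e (Fin.last d) + y • J.mulVec (e (Fin.last d))) =
      x • J.mulVec (e (Fin.last d)) + (y * n) • e (Fin.last d) := by
    rw [Matrix.mulVec_add, Matrix.mulVec_smul, Matrix.mulVec_smul, hJJ, smul_smul]
  have hpc : QuadraticMap.polar ⇑Q (e (Fin.last d)) (J.mulVec (e (Fin.last d))) = β := by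
    rw [QuadraticMap.polar_comm]; exact h4
  have hpJJ : QuadraticMap.polar ⇑Q (J.mulVec (e (Fin.last d))) (J.mulVec (e (Fin.last d)))
      = 2 * (n * α) := by
    rw [QuadraticMap.polar_self, hQJ, h3]; simp
  have hpee : QuadraticMap.polar ⇑Q (e (Fin.last d)) (e (Fin.last d)) = 2 * α := by
    rw [QuadraticMap.polar_self, h3]; simp
  refine ⟨?_, ?_, ?_, ?_⟩
  · intro i j hij
    by_cases hi : i = Fin.last d
    · have hj : j ≠ Fin.last d := fun h => hij (by rw [hi, h])
      have a := h1 (Fin.last d) j (fun h => hj h.symm)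
      rw [hi, Function.update_self, Function.update_of_ne hj]
      constructor
      · rw [QuadraticMap.polar_add_left, QuadraticMap.polar_smul_left,
          QuadraticMap.polar_smul_left, a.1, a.2]; simp
      · rw [hJe', QuadraticMap.polar_add_left, QuadraticMap.polar_smul_left,
          QuadraticMap.polar_smul_left, a.1, a.2]; simp
    · by_cases hj : j = Fin.last d
      · have b := h1 i (Fin.last d) hi
        rw [hj, Function.update_self, Function.update_of_ne hi]
        constructor
        · rw [QuadraticMap.polar_add_right, QuadraticMap.polar_smul_right,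
            QuadraticMap.polar_smul_right, ← hJs, b.1, b.2]; simp
        · rw [QuadraticMap.polar_add_right, QuadraticMap.polar_smul_right,
            QuadraticMap.polar_smul_right, ← hJs (J.mulVec (e i)), hJJ,
            QuadraticMap.polar_smul_left, b.1, b.2]; simp
      · rw [Function.update_of_ne hi, Function.update_of_ne hj]
        exact h1 i j hij
  · intro i hi
    rw [Function.update_of_ne hi]
    exact h2' i hi
  · rw [Function.update_self, QuadraticMap.map_add Q, QuadraticMap.map_smul Q,
      QuadraticMap.map_smul Q]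
    simp only [QuadraticMap.polar_smul_left, QuadraticMap.polar_smul_right, hQJ, h3, hpc,
      smul_eq_mul]
    ring
  · rw [Function.update_self, hJe']
    simp only [QuadraticMap.polar_add_left, QuadraticMap.polar_add_right,
      QuadraticMap.polar_smul_left, QuadraticMap.polar_smul_right, h4, hpJJ, hpee, hpc,
      smul_eq_mul]
    ring

end quad

end Cfsg.Agent.Helper33
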