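import Mathlib
import Cfsg.Agent.Helper43.C3ODefs
import Cfsg.Agent.Helper45.Spinor
import Cfsg.Agent.Helper45.PSO
import Cfsg.Agent.Helper43.PrimeOrdO2
import Cfsg.Agent.Helper43.PrimeOrdO3
import Cfsg.Agent.Helper14.Forms2
import Cfsg.Agent.Helper3.C3EKJ
import Cfsg.Agent.Helper83.C3ENORM
import Cfsg.Agent.Helper91.C3ECONJ

set_option autoImplicit false
set_option linter.unusedSectionVars false
set_option linter.unusedVariables false

namespace Cfsg.Agent.Helper33

open Matrix Module Polynomial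
open Cfsg.Agent.Helper43.C3O
open Cfsg.Agent.Helper43.CycFactors (cycJ)
open Cfsg.Agent.Helper43.PrimeOrdMat (psi)

universe u

section quad

variable {F : Type u} [Field F] [Fintype F] {ι : Type} [Fintype ι] [DecidableEq ι]

/-- PIECE WITP (SIEGEL, EW, RANK1 are hypotheses) -/
theorem c3o_witp (Q : QuadraticForm F (ι → F)) (p : ℕ) [Fact p.Prime] [CharP F p] (n : F)
    (hsieg : ∃ (u : ↥(Cfsg.isometryGroup F ⇑Q)) (e φ : ι → F), u ^ p = 1 ∧ e ≠ 0 ∧ φ ≠ 0 ∧
      (gm u - 1) * (gm u - 1) = Matrix.vecMulVec e φ)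
    (hrank : ∀ (J : Matrix ι ι F) (e φ : ι → F), J * J = n • (1 : Matrix ι ι F) → e ≠ 0 →
      φ ≠ 0 → J * Matrix.vecMulVec e φ = Matrix.vecMulVec e φ * J → False) :
    ∃ x : ↥(Cfsg.isometryGroup F ⇑Q), x ^ p = 1 ∧ x ≠ 1 ∧
      ∀ (y : ↥(Cfsg.isometryGroup F ⇑Q)) (J : Matrix ι ι F), IsConj x y →
        J * J = n • (1 : Matrix ι ι F) → gm y * J ≠ J * gm y := by
  obtain ⟨u, e, φ, hup, he, hφ, huu⟩ := hsieg
  have hne : Matrix.vecMulVec e φ ≠ 0 := by
    intro h0
    obtain ⟨i, hi⟩ : ∃ i, e i ≠ 0 := by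
      by_contra hcon
      push_neg at hcon
      exact he (funext hcon)
    obtain ⟨j, hj⟩ : ∃ j, φ j ≠ 0 := by
      by_contra hcon
      push_neg at hcon
      exact hφ (funext hcon)
    have := congrFun (congrFun h0 i) j
    simp only [Matrix.vecMulVec_apply, Matrix.zero_apply] at this
    exact (mul_ne_zero hi hj) this
  refine ⟨u, hup, ?_, ?_⟩
  · intro h1
    apply hne
    rw [← huu, h1]
    simp [gm]
  · intro y J hconj hJ hcomm
    obtain ⟨c, hc⟩ := isConj_iff.mp hconj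
    have hCC' : gm c * gm c⁻¹ = 1 := by
      have : c * c⁻¹ = 1 := mul_inv_cancel c
      have h2 := congrArg (fun g : ↥(Cfsg.isometryGroup F ⇑Q) => gm g) this
      simpa [gm] using h2
    have hC'C : gm c⁻¹ * gm c = 1 := by
      have : c⁻¹ * c = 1 := inv_mul_cancel c
      have h2 := congrArg (fun g : ↥(Cfsg.isometryGroup F ⇑Q) => gm g) this
      simpa [gm] using h2
    have hy : gm y = gm c * gm u * gm c⁻¹ := by
      rw [← hc]
      simp [gm]
    have hy1 : gm y - 1 = gm c * (gm u - 1) * gm c⁻¹ := by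
      rw [hy, Matrix.mul_sub, Matrix.sub_mul, Matrix.mul_one, hCC']
    have hy2 : (gm y - 1) * (gm y - 1) =
        Matrix.vecMulVec ((gm c).mulVec e) (Matrix.vecMul φ (gm c⁻¹)) := by
      rw [hy1]
      have : gm c * (gm u - 1) * gm c⁻¹ * (gm c * (gm u - 1) * gm c⁻¹) =
          gm c * ((gm u - 1) * (gm c⁻¹ * gm c) * (gm u - 1)) * gm c⁻¹ := by
        simp only [Matrix.mul_assoc]
      rw [this, hC'C, Matrix.mul_one, huu]
      ext i j
      simp only [Matrix.mul_apply, Matrix.vecMulVec_apply, Matrix.mulVec, Matrix.vecMul,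
        dotProduct, Finset.sum_mul, Finset.mul_sum]
      refine Finset.sum_congr rfl fun a _ => Finset.sum_congr rfl fun b _ => ?_
      ring
    have hcomm2 : J * ((gm y - 1) * (gm y - 1)) = (gm y - 1) * (gm y - 1) * J := by
      have h1 : J * (gm y - 1) = (gm y - 1) * J := by
        rw [Matrix.mul_sub, Matrix.sub_mul, Matrix.mul_one, Matrix.one_mul, hcomm]
      rw [← Matrix.mul_assoc, h1, Matrix.mul_assoc, h1, Matrix.mul_assoc]
    rw [hy2] at hcomm2
    refine hrank J _ _ hJ ?_ ?_ hcomm2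
    · intro h0
      apply he
      have : (gm c⁻¹).mulVec ((gm c).mulVec e) = e := by
        rw [Matrix.mulVec_mulVec, hC'C, Matrix.one_mulVec]
      rw [← this, h0, Matrix.mulVec_zero]
    · intro h0
      apply hφ
      have : Matrix.vecMul (Matrix.vecMul φ (gm c⁻¹)) (gm c) = φ := by
        rw [Matrix.vecMul_vecMul, hC'C, Matrix.vecMul_one]
      rw [← this, h0, Matrix.zero_vecMul]

end quad

end Cfsg.Agent.Helper33
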