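import Mathlib
import Cfsg.Prelude.Def_GeometricClasses
import Cfsg.Prelude.Def_ClassicalGeometry
import Cfsg.Agent.Helper94.SpGen

/-!
# Helper33: PIECE ONB of CALL S5976 (helper35): `J`-orthonormal families by induction.
-/

set_option autoImplicit false

namespace Cfsg.Agent.Helper33

open Matrix Module

open Cfsg.Agent.Helper94 in
/-- PIECE ONB (ONB1 is the hypothesis `h1`) -/
theorem c3u_onb {F : Type*} [Field F] (d : ℕ) (n : F)
    (J : Matrix (Fin d ⊕ Fin d) (Fin d ⊕ Fin d) F)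
    (hJ2 : J * J = n • (1 : Matrix (Fin d ⊕ Fin d) (Fin d ⊕ Fin d) F))
    (hJs : ∀ u v, Cfsg.sympForm d F (J *ᵥ u) v = - Cfsg.sympForm d F u (J *ᵥ v))
    (h1 : ∀ W : Submodule F (Fin d ⊕ Fin d → F), (∀ w ∈ W, J *ᵥ w ∈ W) →
      (∀ w ∈ W, (∀ w' ∈ W, Cfsg.sympForm d F w w' = 0) → w = 0) → W ≠ ⊥ →
      ∃ e ∈ W, Cfsg.sympForm d F e (J *ᵥ e) = 1)
    (W : Submodule F (Fin d ⊕ Fin d → F)) (hJW : ∀ w ∈ W, J *ᵥ w ∈ W)
    (hWnd : ∀ w ∈ W, (∀ w' ∈ W, Cfsg.sympForm d F w w' = 0) → w = 0) (m : ℕ)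
    (hm : Module.finrank F W = 2 * m) :
    ∃ e : Fin m → (Fin d ⊕ Fin d → F), (∀ i, e i ∈ W) ∧
      (∀ i j, Cfsg.sympForm d F (e i) (J *ᵥ e j) = if i = j then 1 else 0) ∧
      (∀ i j, Cfsg.sympForm d F (e i) (e j) = 0) := by
  classical
  have hJJ : ∀ v : Fin d ⊕ Fin d → F, J *ᵥ (J *ᵥ v) = n • v := by
    intro v
    rw [Matrix.mulVec_mulVec, hJ2, Matrix.smul_mulVec, Matrix.one_mulVec]
  induction m generalizing W with
  | zero =>
    exact ⟨fun i => i.elim0, fun i => i.elim0, fun i j => i.elim0, fun i j => i.elim0⟩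
  | succ m ih =>
    have hWne : W ≠ ⊥ := by
      rintro rfl
      rw [finrank_bot] at hm
      omega
    obtain ⟨e₀, he₀W, he₀⟩ := h1 W hJW hWnd hWne
    have hJe₀W : J *ᵥ e₀ ∈ W := hJW e₀ he₀W
    have hJe₀e₀ : Cfsg.sympForm d F (J *ᵥ e₀) e₀ = -1 := by rw [hJs, he₀]
    have hJe₀Je₀ : Cfsg.sympForm d F (J *ᵥ e₀) (J *ᵥ e₀) = 0 := sf_self _
    have he₀e₀ : Cfsg.sympForm d F e₀ e₀ = 0 := sf_self _
    obtain ⟨φ, hφ⟩ : ∃ φ : ↥W →ₗ[F] F × F, ∀ w : ↥W,
        φ w = (Cfsg.sympForm d F (w : Fin d ⊕ Fin d → F) e₀,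
          Cfsg.sympForm d F (w : Fin d ⊕ Fin d → F) (J *ᵥ e₀)) :=
      ⟨(((Cfsg.Agent.Helper13.sympB d F).flip e₀).comp W.subtype).prod
        (((Cfsg.Agent.Helper13.sympB d F).flip (J *ᵥ e₀)).comp W.subtype), fun w => rfl⟩
    have hsurj : Function.Surjective φ := by
      rintro ⟨a, b⟩
      refine ⟨⟨b • e₀ - a • J *ᵥ e₀, W.sub_mem (W.smul_mem _ he₀W) (W.smul_mem _ hJe₀W)⟩, ?_⟩
      rw [hφ]
      simp only [sf_sub_left, sf_smul_left, he₀e₀, hJe₀e₀, he₀, hJe₀Je₀]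
      apply Prod.ext
      · show b * 0 - a * -1 = a
        ring
      · show b * 1 - a * 0 = b
        ring
    obtain ⟨W', hW'⟩ : ∃ W' : Submodule F (Fin d ⊕ Fin d → F),
        W' = (LinearMap.ker φ).map W.subtype := ⟨_, rfl⟩
    have hW'mem : ∀ x, x ∈ W' ↔ x ∈ W ∧ Cfsg.sympForm d F x e₀ = 0 ∧
        Cfsg.sympForm d F x (J *ᵥ e₀) = 0 := by
      intro x
      rw [hW']
      constructor
      · rintro ⟨w, hw, rfl⟩
        have h3 : φ w = 0 := LinearMap.mem_ker.mp hw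
        rw [hφ] at h3
        exact ⟨w.2, (Prod.mk_eq_zero.mp h3).1, (Prod.mk_eq_zero.mp h3).2⟩
      · rintro ⟨hxW, h1', h2'⟩
        refine ⟨⟨x, hxW⟩, ?_, rfl⟩
        show (⟨x, hxW⟩ : ↥W) ∈ LinearMap.ker φ
        rw [LinearMap.mem_ker, hφ]
        exact Prod.mk_eq_zero.mpr ⟨h1', h2'⟩
    have hfr : Module.finrank F W' = 2 * m := by
      have h3 := LinearMap.finrank_range_add_finrank_ker φ
      rw [LinearMap.range_eq_top.mpr hsurj, finrank_top, Module.finrank_prod,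
        Module.finrank_self, hm] at h3
      have h4 : Module.finrank F W' = Module.finrank F (LinearMap.ker φ) := by
        rw [hW']
        exact Submodule.finrank_map_subtype_eq W (LinearMap.ker φ)
      omega
    have hJW' : ∀ w ∈ W', J *ᵥ w ∈ W' := by
      intro w hw
      rw [hW'mem] at hw ⊢
      obtain ⟨hwW, hw1, hw2⟩ := hw
      refine ⟨hJW w hwW, ?_, ?_⟩
      · rw [hJs, hw2, neg_zero]
      · rw [hJs, hJJ, sf_smul_right, hw1, mul_zero, neg_zero]
    have hW'nd : ∀ w ∈ W', (∀ w' ∈ W', Cfsg.sympForm d F w w' = 0) → w = 0 := by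
      intro w hw hperp
      have hw' := (hW'mem w).mp hw
      apply hWnd w hw'.1
      intro w'' hw''
      have hdec : w'' - Cfsg.sympForm d F w'' (J *ᵥ e₀) • e₀
          + Cfsg.sympForm d F w'' e₀ • J *ᵥ e₀ ∈ W' := by
        rw [hW'mem]
        refine ⟨W.add_mem (W.sub_mem hw'' (W.smul_mem _ he₀W)) (W.smul_mem _ hJe₀W), ?_, ?_⟩
        · simp only [sf_add_left, sf_sub_left, sf_smul_left, he₀e₀, hJe₀e₀]
          ring
        · simp only [sf_add_left, sf_sub_left, sf_smul_left, he₀, hJe₀Je₀]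
          ring
      have h5 := hperp _ hdec
      rw [sf_add_right, sf_sub_right, sf_smul_right, sf_smul_right, hw'.2.1, hw'.2.2] at h5
      linear_combination h5
    obtain ⟨e', he'W, he'J, he'0⟩ := ih W' hJW' hW'nd hfr
    have hA : ∀ j, Cfsg.sympForm d F (e' j) e₀ = 0 := fun j => ((hW'mem _).mp (he'W j)).2.1
    have hB : ∀ j, Cfsg.sympForm d F (e' j) (J *ᵥ e₀) = 0 :=
      fun j => ((hW'mem _).mp (he'W j)).2.2
    refine ⟨Fin.cons e₀ e', ?_, ?_, ?_⟩
    · intro i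
      refine Fin.cases ?_ (fun i => ?_) i
      · rw [Fin.cons_zero]; exact he₀W
      · rw [Fin.cons_succ]; exact ((hW'mem _).mp (he'W i)).1
    · intro i j
      refine Fin.cases ?_ (fun i => ?_) i <;> refine Fin.cases ?_ (fun j => ?_) j
      · simp only [Fin.cons_zero]
        rw [he₀]
        simp
      · simp only [Fin.cons_zero, Fin.cons_succ]
        have h7 := hJs e₀ (e' j)
        rw [sf_swap (J *ᵥ e₀) (e' j)] at h7
        rw [if_neg (Fin.succ_ne_zero j).symm]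
        linear_combination hB j + h7
      · simp only [Fin.cons_zero, Fin.cons_succ]
        rw [if_neg (Fin.succ_ne_zero i)]
        exact hB i
      · simp only [Fin.cons_succ]
        rw [he'J i j]
        simp only [Fin.succ_inj]
    · intro i j
      refine Fin.cases ?_ (fun i => ?_) i <;> refine Fin.cases ?_ (fun j => ?_) j
      · simp only [Fin.cons_zero]
        exact he₀e₀
      · simp only [Fin.cons_zero, Fin.cons_succ]
        rw [sf_swap, hA j, neg_zero]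
      · simp only [Fin.cons_zero, Fin.cons_succ]
        exact hA i
      · simp only [Fin.cons_succ]
        exact he'0 i j

end Cfsg.Agent.Helper33
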