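import Mathlib
import Cfsg.Prelude.Def_GeometricClasses
import Cfsg.Prelude.Def_ClassicalGeometry
import Cfsg.Agent.Helper94.SpGen

/-!
# Helper33: PIECE SKEW of CALL S5976 (helper35): the generator `J` of an adjoint-closed,
not self-adjoint quadratic field subalgebra is skew-adjoint.
-/

set_option autoImplicit false

namespace Cfsg.Agent.Helper33

open Matrix Module

/-- PIECE SKEW -/
theorem c3u_skew {F : Type*} [Field F] (h2 : (2 : F) ≠ 0) (d : ℕ)
    (K : Subalgebra F (Matrix (Fin d ⊕ Fin d) (Fin d ⊕ Fin d) F))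
    (hKf : Cfsg.Geo.IsAdjointClosedFor (Cfsg.sympForm d F) K)
    (hKns : ¬ Cfsg.Geo.IsSelfAdjointFor (Cfsg.sympForm d F) K)
    (n : F) (hn : ¬ IsSquare n) (J : Matrix (Fin d ⊕ Fin d) (Fin d ⊕ Fin d) F) (hJK : J ∈ K)
    (hJ2 : J * J = n • (1 : Matrix (Fin d ⊕ Fin d) (Fin d ⊕ Fin d) F))
    (hJsp : ∀ y, y ∈ K ↔ ∃ a b : F, y = a • (1 : Matrix (Fin d ⊕ Fin d) (Fin d ⊕ Fin d) F) + b • J) :
    ∀ u v, Cfsg.sympForm d F (J *ᵥ u) v = - Cfsg.sympForm d F u (J *ᵥ v) := by
  classical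
  have hn0 : n ≠ 0 := by
    rintro rfl
    exact hn ⟨0, by simp⟩
  -- an index
  obtain ⟨i⟩ : Nonempty (Fin d ⊕ Fin d) := by
    by_contra hempty
    rw [not_nonempty_iff] at hempty
    apply hKns
    intro k hk u v
    rw [Subsingleton.elim (k *ᵥ u) u, Subsingleton.elim (k *ᵥ v) v]
  have hsepR : ∀ y : Fin d ⊕ Fin d → F, (∀ u, Cfsg.sympForm d F u y = 0) → y = 0 := by
    intro y hy
    apply Cfsg.Agent.Helper13.sympForm_sep y
    intro u
    rw [Cfsg.Agent.Helper94.sf_swap, hy u, neg_zero]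
  have hscal : ∀ c : F, (∀ v : Fin d ⊕ Fin d → F, c • v = 0) → c = 0 := by
    intro c hc
    have := congrFun (hc (Pi.single i 1)) i
    simpa using this
  have hJJ : ∀ v : Fin d ⊕ Fin d → F, J *ᵥ (J *ᵥ v) = n • v := by
    intro v
    rw [Matrix.mulVec_mulVec, hJ2, Matrix.smul_mulVec, Matrix.one_mulVec]
  obtain ⟨J', hJ'K, hJ'⟩ := hKf J hJK
  obtain ⟨a, b, rfl⟩ := (hJsp J').mp hJ'K
  have hadj : ∀ u v, Cfsg.sympForm d F (J *ᵥ u) v
      = a * Cfsg.sympForm d F u v + b * Cfsg.sympForm d F u (J *ᵥ v) := by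
    intro u v
    rw [hJ' u v, Matrix.add_mulVec, Matrix.smul_mulVec, Matrix.smul_mulVec, Matrix.one_mulVec,
      Cfsg.Agent.Helper94.sf_add_right, Cfsg.Agent.Helper94.sf_smul_right,
      Cfsg.Agent.Helper94.sf_smul_right]
  have hkey : ∀ v : Fin d ⊕ Fin d → F,
      (a ^ 2 + n * b ^ 2 - n) • v + (2 * a * b) • J *ᵥ v = 0 := by
    intro v
    apply hsepR
    intro u
    have h1 : Cfsg.sympForm d F (J *ᵥ (J *ᵥ u)) v = n * Cfsg.sympForm d F u v := by
      rw [hJJ, Cfsg.Agent.Helper94.sf_smul_left]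
    rw [hadj (J *ᵥ u) v, hadj u v, hadj u (J *ᵥ v), hJJ, Cfsg.Agent.Helper94.sf_smul_right] at h1
    rw [Cfsg.Agent.Helper94.sf_add_right, Cfsg.Agent.Helper94.sf_smul_right,
      Cfsg.Agent.Helper94.sf_smul_right]
    linear_combination h1
  have hab : a * b = 0 := by
    by_contra hab
    have h2ab : 2 * a * b ≠ 0 := by
      rw [mul_assoc]
      exact mul_ne_zero h2 hab
    obtain ⟨c, hc⟩ : ∃ c : F, c = -(a ^ 2 + n * b ^ 2 - n) / (2 * a * b) := ⟨_, rfl⟩
    have hJc : ∀ v : Fin d ⊕ Fin d → F, J *ᵥ v = c • v := by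
      intro v
      have h1 := hkey v
      have h3 : (2 * a * b) • J *ᵥ v = (2 * a * b) • (c • v) := by
        rw [smul_smul, hc, mul_div_cancel₀ _ h2ab, neg_smul]
        exact eq_neg_of_add_eq_zero_right h1
      exact smul_right_injective _ h2ab h3
    apply hn
    refine ⟨c, ?_⟩
    have h4 : ∀ v : Fin d ⊕ Fin d → F, (n - c * c) • v = 0 := by
      intro v
      rw [sub_smul, ← hJJ v, hJc v, hJc (c • v), smul_smul, sub_self]
    exact sub_eq_zero.mp (hscal _ h4)
  have hsum : a ^ 2 + n * b ^ 2 - n = 0 := by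
    apply hscal
    intro v
    have h1 := hkey v
    rw [mul_assoc, hab, mul_zero, zero_smul, add_zero] at h1
    exact h1
  rcases mul_eq_zero.mp hab with ha | hb
  · subst ha
    have hb2 : (b - 1) * (b + 1) = 0 := by
      have h1 : n * ((b - 1) * (b + 1)) = 0 := by linear_combination hsum
      rcases mul_eq_zero.mp h1 with h | h
      · exact absurd h hn0
      · exact h
    rcases mul_eq_zero.mp hb2 with hb1 | hb1
    · have hb' : b = 1 := by linear_combination hb1
      subst hb'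
      exfalso
      apply hKns
      intro k hk u v
      obtain ⟨a', b', rfl⟩ := (hJsp k).mp hk
      rw [Matrix.add_mulVec, Matrix.smul_mulVec, Matrix.smul_mulVec, Matrix.one_mulVec,
        Matrix.add_mulVec, Matrix.smul_mulVec, Matrix.smul_mulVec, Matrix.one_mulVec,
        Cfsg.Agent.Helper94.sf_add_right, Cfsg.Agent.Helper94.sf_smul_right,
        Cfsg.Agent.Helper94.sf_smul_right, Cfsg.Agent.Helper94.sf_add_left,
        Cfsg.Agent.Helper94.sf_smul_left, Cfsg.Agent.Helper94.sf_smul_left, hadj u v]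
      ring
    · have hb' : b = -1 := by linear_combination hb1
      subst hb'
      intro u v
      rw [hadj u v]
      ring
  · subst hb
    exfalso
    apply hn
    refine ⟨a, ?_⟩
    linear_combination -hsum

end Cfsg.Agent.Helper33
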