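import Mathlib
import Cfsg.Agent.Helper9.OrdTools

/-!
# CALL S4429 (helper8), PIECE E2C1 — helper33

A Sylow 5-subgroup `Q` of order 5 with `|C(Q)| = 10`: the centraliser is cyclic of order 10, its
unique involution is centralised by `N(Q)`.
-/

set_option autoImplicit false
open Cfsg

universe u

namespace Cfsg.Agent.Helper33

-- PIECE E2C1: the involution of `C(Q)` is centralised by `N(Q)`
theorem o7920_five_invol {G : Type u} [Group G] [Finite G] (Q : Sylow 5 G)
    (hQ : Nat.card (Q : Subgroup G) = 5)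
    (hC : Nat.card (Subgroup.centralizer ((Q : Subgroup G) : Set G)) = 10) :
    ∃ c : G, orderOf c = 2 ∧ c ∈ Subgroup.centralizer ((Q : Subgroup G) : Set G) ∧
      Subgroup.normalizer ((Q : Subgroup G) : Set G) ≤ Subgroup.centralizer ({c} : Set G) := by
  have : Fact (Nat.Prime 5) := ⟨by norm_num⟩
  have : Fact (Nat.Prime 2) := ⟨Nat.prime_two⟩
  obtain ⟨y', hy'⟩ := exists_prime_orderOf_dvd_card' (G := ↥(Q : Subgroup G)) 5
    (by rw [hQ])
  obtain ⟨c', hc'⟩ := exists_prime_orderOf_dvd_card'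
    (G := ↥(Subgroup.centralizer ((Q : Subgroup G) : Set G))) 2 (by rw [hC]; norm_num)
  obtain ⟨y, hyQ⟩ := y'
  obtain ⟨c, hcC⟩ := c'
  have hyo : orderOf y = 5 := by
    rw [← hy']
    exact (Subgroup.orderOf_mk y hyQ).symm
  have hco : orderOf c = 2 := by
    rw [← hc']
    exact (Subgroup.orderOf_mk c hcC).symm
  have hyC : y ∈ Subgroup.centralizer ((Q : Subgroup G) : Set G) :=
    Helper9.OrdTools.le_centralizer_of_prime Q hQ hyQ
  have hcomm : Commute y c := (Subgroup.mem_centralizer_iff.mp hcC) y hyQ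
  have hzo : orderOf (y * c) = 10 := by
    rw [hcomm.orderOf_mul_eq_mul_orderOf_of_coprime (by rw [hyo, hco]; norm_num), hyo, hco]
  have hzC : y * c ∈ Subgroup.centralizer ((Q : Subgroup G) : Set G) :=
    Subgroup.mul_mem _ hyC hcC
  have hCz : Subgroup.zpowers (y * c) = Subgroup.centralizer ((Q : Subgroup G) : Set G) := by
    refine Subgroup.eq_of_le_of_card_ge ((Subgroup.zpowers_le).mpr hzC) ?_
    rw [Nat.card_zpowers, hzo, hC]
  have hc2 : c ^ 2 = 1 := by
    rw [← hco]
    exact pow_orderOf_eq_one c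
  have hz5 : (y * c) ^ 5 = c := by
    rw [hcomm.mul_pow, ← hyo, pow_orderOf_eq_one, one_mul, hyo]
    calc c ^ 5 = (c ^ 2) ^ 2 * c := by group
      _ = c := by rw [hc2, one_pow, one_mul]
  have huniq : ∀ d ∈ Subgroup.centralizer ((Q : Subgroup G) : Set G), d ^ 2 = 1 →
      d = 1 ∨ d = c := by
    intro d hd hd2
    rw [← hCz] at hd
    obtain ⟨k, rfl⟩ := Subgroup.mem_zpowers_iff.mp hd
    have h1 : (y * c) ^ (k * 2) = 1 := by
      rw [zpow_mul]
      exact_mod_cast hd2
    have h2 : ((orderOf (y * c) : ℕ) : ℤ) ∣ k * 2 := orderOf_dvd_iff_zpow_eq_one.mpr h1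
    rw [hzo] at h2
    have h3 : (5 : ℤ) ∣ k := by omega
    obtain ⟨j, rfl⟩ := h3
    have h4 : (y * c) ^ ((5 : ℤ) * j) = c ^ j := by
      rw [zpow_mul]
      have h5 : (y * c) ^ (5 : ℤ) = c := by exact_mod_cast hz5
      rw [h5]
    rw [h4]
    rcases Int.even_or_odd' j with ⟨i, hi | hi⟩
    · left
      rw [hi, zpow_mul]
      have h6 : c ^ (2 : ℤ) = 1 := by exact_mod_cast hc2
      rw [h6, one_zpow]
    · right
      rw [hi, zpow_add, zpow_mul, zpow_one]
      have h6 : c ^ (2 : ℤ) = 1 := by exact_mod_cast hc2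
      rw [h6, one_zpow, one_mul]
  refine ⟨c, hco, hcC, ?_⟩
  intro n hn
  rw [Subgroup.mem_centralizer_iff]
  intro h hh
  rw [Set.mem_singleton_iff] at hh
  subst hh
  have hconjC : n * h * n⁻¹ ∈ Subgroup.centralizer ((Q : Subgroup G) : Set G) := by
    rw [Subgroup.mem_centralizer_iff]
    intro x hx
    have hn' : n⁻¹ ∈ Subgroup.normalizer ((Q : Subgroup G) : Set G) := Subgroup.inv_mem _ hn
    have h1 : n⁻¹ * x * n ∈ (Q : Subgroup G) := by
      have h0 := (Subgroup.mem_normalizer_iff.mp hn') x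
      rw [inv_inv] at h0
      exact h0.mp hx
    have h2 := (Subgroup.mem_centralizer_iff.mp hcC) _ h1
    calc x * (n * h * n⁻¹) = n * ((n⁻¹ * x * n) * h) * n⁻¹ := by group
      _ = n * (h * (n⁻¹ * x * n)) * n⁻¹ := by rw [h2]
      _ = n * h * n⁻¹ * x := by group
  have hsq : (n * h * n⁻¹) ^ 2 = 1 := by
    rw [conj_pow, hc2, mul_one, mul_inv_cancel]
  rcases huniq _ hconjC hsq with h1 | h1
  · exfalso
    have h7 : h = 1 := by
      calc h = n⁻¹ * (n * h * n⁻¹) * n := by group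
        _ = 1 := by rw [h1]; group
    rw [h7, orderOf_one] at hco
    omega
  · calc h * n = (n * h * n⁻¹) * n := by rw [h1]
      _ = n * h := by group

end Cfsg.Agent.Helper33
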