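import Mathlib
import Cfsg.Prelude.Def_LieTypeDatum

set_option autoImplicit false

/-!
Helper library (helper33), CALL S2715 piece G2: a class that splits into two.
`K` of index 4 in `H`, normalised by `H`, and `C_H(x) ≤ K ∪ Kc` with `c ∈ C_H(x) \ K`:
then the `H`-class of `x` splits into exactly two `K`-classes.
-/

namespace Cfsg.Agent.Helper33.FldP

open Cfsg

section Grp

variable {X : Type*} [Group X]

/-- PIECE G2 -/
theorem splitCount_two_of_four (H K : Subgroup X) (hKH : K ≤ H)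
    (hN : ∀ h ∈ H, ∀ k ∈ K, h * k * h⁻¹ ∈ K) (hidx : K.relIndex H = 4) (x c : X)
    (hcH : c ∈ H) (hcx : c * x = x * c) (hcK : c ∉ K)
    (hC : ∀ c' ∈ H, c' * x = x * c' → c' ∈ K ∨ c' * c⁻¹ ∈ K) :
    splitClassCount H K x = 2 := by
  classical
  have hcc : c * c ∈ K := by
    have hcomm : c * c * x = x * (c * c) := by
      rw [mul_assoc, hcx, ← mul_assoc, hcx, mul_assoc]
    rcases hC (c * c) (H.mul_mem hcH hcH) hcomm with h | h
    · exact h
    · rw [mul_inv_cancel_right] at h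
      exact absurd h hcK
  have hNorm : (K.subgroupOf H).Normal := by
    constructor
    intro k hk h
    rw [Subgroup.mem_subgroupOf] at hk ⊢
    exact hN h h.2 k hk
  have hQ : Nat.card (↥H ⧸ K.subgroupOf H) = 4 := by
    rw [← Subgroup.index_eq_card]
    exact hidx
  have hmk1 : ∀ h : ↥H, (QuotientGroup.mk h : ↥H ⧸ K.subgroupOf H) = 1 ↔ (h : X) ∈ K := by
    intro h
    rw [QuotientGroup.eq_one_iff, Subgroup.mem_subgroupOf]
  have hcb1 : (QuotientGroup.mk ⟨c, hcH⟩ : ↥H ⧸ K.subgroupOf H) ≠ 1 :=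
    fun h => hcK ((hmk1 _).mp h)
  have hcb2 : (QuotientGroup.mk ⟨c, hcH⟩ : ↥H ⧸ K.subgroupOf H) * QuotientGroup.mk ⟨c, hcH⟩
      = 1 := by
    show (QuotientGroup.mk (⟨c, hcH⟩ * ⟨c, hcH⟩ : ↥H) : ↥H ⧸ K.subgroupOf H) = 1
    rw [hmk1]
    exact hcc
  have hmkc : ∀ h : ↥H, (QuotientGroup.mk h : ↥H ⧸ K.subgroupOf H)
      = QuotientGroup.mk ⟨c, hcH⟩ ↔ (h : X) * c⁻¹ ∈ K := by
    intro h
    rw [← mul_inv_eq_one]
    show (QuotientGroup.mk (h * ⟨c, hcH⟩⁻¹ : ↥H) : ↥H ⧸ K.subgroupOf H) = 1 ↔ _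
    rw [hmk1]
    rfl
  let Z : Subgroup (↥H ⧸ K.subgroupOf H) :=
    { carrier := {q | q = 1 ∨ q = QuotientGroup.mk ⟨c, hcH⟩}
      mul_mem' := by
        rintro a b (rfl | rfl) (rfl | rfl)
        · left; rw [mul_one]
        · right; rw [one_mul]
        · right; rw [mul_one]
        · left; exact hcb2
      one_mem' := Or.inl rfl
      inv_mem' := by
        rintro a (rfl | rfl)
        · left; rw [inv_one]
        · right; exact inv_eq_of_mul_eq_one_right hcb2 }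
  have hZmem : ∀ q, q ∈ Z ↔ q = 1 ∨ q = QuotientGroup.mk ⟨c, hcH⟩ := fun q => Iff.rfl
  have hZcard : Nat.card Z = 2 := by
    rw [Nat.card_eq_two_iff]
    refine ⟨⟨1, Or.inl rfl⟩, ⟨QuotientGroup.mk ⟨c, hcH⟩, Or.inr rfl⟩, ?_, ?_⟩
    · intro h
      exact hcb1 (congrArg Subtype.val h).symm
    · ext ⟨q, hq⟩
      simp only [Set.mem_insert_iff, Set.mem_singleton_iff, Set.mem_univ, iff_true]
      rcases hq with rfl | rfl
      · left; rfl
      · right; rfl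
  have hZidx : Z.index = 2 := by
    have h1 := Subgroup.card_mul_index Z
    rw [hZcard, hQ] at h1
    omega
  have hZX : ∀ h : ↥H, (QuotientGroup.mk h : ↥H ⧸ K.subgroupOf H) ∈ Z ↔
      ((h : X) ∈ K ∨ (h : X) * c⁻¹ ∈ K) := by
    intro h
    rw [hZmem, hmk1, hmkc]
  have hex : ∃ h₀ ∈ H, h₀ ∉ K ∧ h₀ * c⁻¹ ∉ K := by
    by_contra hcon
    push Not at hcon
    have hZtop : Z = ⊤ := by
      rw [eq_top_iff]
      intro q _
      obtain ⟨h, rfl⟩ := QuotientGroup.mk_surjective q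
      rw [hZX]
      by_cases hk : (h : X) ∈ K
      · exact Or.inl hk
      · exact Or.inr (hcon h h.2 hk)
    rw [hZtop, Subgroup.index_top] at hZidx
    omega
  obtain ⟨h₀, hh₀, hh₀K, hh₀c⟩ := hex
  have hcx' : c⁻¹ * x * c = x := by
    rw [mul_assoc, ← hcx, inv_mul_cancel_left]
  have hr : Equivalence (fun y z : {y : X // IsConjUnder H x y} => IsConjUnder K y.1 z.1) := by
    refine ⟨?_, ?_, ?_⟩
    · intro y
      exact ⟨1, K.one_mem, by rw [one_mul, inv_one, mul_one]⟩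
    · rintro y z ⟨k, hk, hz⟩
      exact ⟨k⁻¹, K.inv_mem hk, by rw [hz]; group⟩
    · rintro y z w ⟨k, hk, hz⟩ ⟨k', hk', hw⟩
      exact ⟨k' * k, K.mul_mem hk' hk, by rw [hw, hz]; group⟩
  unfold splitClassCount
  rw [Nat.card_eq_two_iff]
  refine ⟨Quot.mk _ ⟨x, 1, H.one_mem, by rw [one_mul, inv_one, mul_one]⟩,
    Quot.mk _ ⟨h₀ * x * h₀⁻¹, h₀, hh₀, rfl⟩, ?_, ?_⟩
  · intro hab
    have h1 := (Equivalence.eqvGen_iff hr).mp (Quot.eqvGen_exact hab)
    obtain ⟨k, hk, hkx⟩ := h1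
    have hkx' : h₀ * x * h₀⁻¹ = k * x * k⁻¹ := hkx
    have hcomm : (k⁻¹ * h₀) * x = x * (k⁻¹ * h₀) := by
      calc k⁻¹ * h₀ * x = k⁻¹ * (h₀ * x * h₀⁻¹) * h₀ := by group
        _ = k⁻¹ * (k * x * k⁻¹) * h₀ := by rw [hkx']
        _ = x * (k⁻¹ * h₀) := by group
    rcases hC (k⁻¹ * h₀) (H.mul_mem (H.inv_mem (hKH hk)) hh₀) hcomm with h2 | h2
    · apply hh₀K
      have h3 := K.mul_mem hk h2
      rwa [mul_inv_cancel_left] at h3
    · apply hh₀c
      have h3 := K.mul_mem hk h2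
      rwa [mul_assoc, mul_inv_cancel_left] at h3
  · rw [Set.eq_univ_iff_forall]
    intro a
    induction a using Quot.ind with
    | _ y =>
      obtain ⟨y, h, hh, rfl⟩ := y
      rw [Set.mem_insert_iff, Set.mem_singleton_iff]
      by_cases hL : h ∈ K ∨ h * c⁻¹ ∈ K
      · left
        symm
        apply Quot.sound
        show IsConjUnder K x (h * x * h⁻¹)
        rcases hL with hk | hk
        · exact ⟨h, hk, rfl⟩
        · refine ⟨h * c⁻¹, hk, ?_⟩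
          calc h * x * h⁻¹ = h * (c⁻¹ * x * c) * h⁻¹ := by rw [hcx']
            _ = h * c⁻¹ * x * (h * c⁻¹)⁻¹ := by group
      · right
        symm
        apply Quot.sound
        show IsConjUnder K (h₀ * x * h₀⁻¹) (h * x * h⁻¹)
        have hnZ : (QuotientGroup.mk ⟨h, hh⟩ : ↥H ⧸ K.subgroupOf H) ∉ Z :=
          fun hz => hL ((hZX _).mp hz)
        have hnZ0 : (QuotientGroup.mk ⟨h₀, hh₀⟩ : ↥H ⧸ K.subgroupOf H) ∉ Z := by
          intro hz
          rcases (hZX _).mp hz with h1 | h1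
          · exact hh₀K h1
          · exact hh₀c h1
        have hprod : (QuotientGroup.mk ⟨h₀, hh₀⟩ : ↥H ⧸ K.subgroupOf H)⁻¹
            * QuotientGroup.mk ⟨h, hh⟩ ∈ Z := by
          rw [Subgroup.mul_mem_iff_of_index_two hZidx, inv_mem_iff]
          exact ⟨fun h1 => absurd h1 hnZ0, fun h1 => absurd h1 hnZ⟩
        have hprod' : (QuotientGroup.mk (⟨h₀, hh₀⟩⁻¹ * ⟨h, hh⟩ : ↥H) :
            ↥H ⧸ K.subgroupOf H) ∈ Z := hprod
        rw [hZX] at hprod'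
        have hcoe : ((⟨h₀, hh₀⟩⁻¹ * ⟨h, hh⟩ : ↥H) : X) = h₀⁻¹ * h := rfl
        rw [hcoe] at hprod'
        rcases hprod' with hk | hk
        · exact ⟨h₀ * (h₀⁻¹ * h) * h₀⁻¹, hN h₀ hh₀ _ hk, by group⟩
        · refine ⟨h₀ * (h₀⁻¹ * h * c⁻¹) * h₀⁻¹, hN h₀ hh₀ _ hk, ?_⟩
          calc h * x * h⁻¹ = h * (c⁻¹ * x * c) * h⁻¹ := by rw [hcx']
            _ = h₀ * (h₀⁻¹ * h * c⁻¹) * h₀⁻¹ * (h₀ * x * h₀⁻¹)
                * (h₀ * (h₀⁻¹ * h * c⁻¹) * h₀⁻¹)⁻¹ := by group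

end Grp

end Cfsg.Agent.Helper33.FldP
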