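import Cfsg.Agent.Helper45.FldA

set_option autoImplicit false
set_option linter.unusedSectionVars false
set_option linter.unusedSimpArgs false
set_option linter.unusedVariables false
set_option linter.style.haveILetI false

/-!
Helper library (helper33), CALL S2715 piece IL: the inner automorphisms of `PΩ⁺_{2m}(F)` are
inner-diagonal.
-/

universe u v

namespace Cfsg.Agent.Helper33.FldP

open Matrix Cfsg
open Cfsg.Agent.Helper45.OO (semiAut semiMap glMap)
open Cfsg.Agent.Helper44.POm
open Cfsg.Agent.Helper45.Fld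

section Plus

variable {F : Type u} [Field F] [Fintype F] {m : ℕ}

/-- PIECE IL -/
theorem inn_le_inndiag_plus (hm : 3 ≤ m) :
    Inn (POmega F (quadFormPlus m F)) ≤ inndiagPOmegaPlus m F := by
  intro α hα
  have hQ := Helper45.plusQF_nondeg' (F := F) m
  have hcard : Fintype.card (Fin m ⊕ Fin m) ≠ 4 := by
    rw [Fintype.card_sum, Fintype.card_fin]
    omega
  have hR : Helper45.reflGroup (Helper43.plusQF m F) = ⊤ :=
    Helper44.reflGroup_eq_top_of _ hQ (Or.inr hcard)
  obtain ⟨x, rfl⟩ := hα
  obtain ⟨s₀, rfl⟩ := QuotientGroup.mk_surjective x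
  have key : ∀ s : ↥(Omega F ⇑(Helper43.plusQF m F)),
      (MulAut.conj (QuotientGroup.mk s : POmega F ⇑(Helper43.plusQF m F)))
        ∈ Subgroup.closure {β : MulAut (POmega F (quadFormPlus m F)) |
          IsInnerDiagonalAutPOmegaPlus m β} := by
    intro s
    have h1 := Helper45.ind_conj (Helper43.plusQF m F) s
    have hd : Helper45.dick (Helper43.plusQF m F)
        (s : ↥(isometryGroup F ⇑(Helper43.plusQF m F))) = 0 :=
      Helper45.dick_eq_zero_of_mem_omega _ hQ hR _ s.2
    have hP : PreservesSingularClasses (quadFormPlus m F)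
        (((s : ↥(isometryGroup F ⇑(Helper43.plusQF m F))) : GL (Fin m ⊕ Fin m) F) :
          Matrix (Fin m ⊕ Fin m) (Fin m ⊕ Fin m) F) :=
      (isCls_psc hR _ _ (isCls_iso (s : ↥(isometryGroup F ⇑(Helper43.plusQF m F))))).mpr hd
    apply Subgroup.subset_closure
    exact ⟨((s : ↥(isometryGroup F ⇑(Helper43.plusQF m F))) : GL (Fin m ⊕ Fin m) F),
      Helper45.iso_le_sim _ (s : ↥(isometryGroup F ⇑(Helper43.plusQF m F))).2, hP, h1⟩
  exact key s₀

end Plus

end Cfsg.Agent.Helper33.FldP
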