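import Cfsg.Agent.Helper45.FldA

set_option autoImplicit false
set_option linter.unusedSectionVars false
set_option linter.unusedSimpArgs false
set_option linter.unusedVariables false
set_option linter.style.haveILetI false

/-!
Helper library (helper33), CALL S2715 piece N3: in characteristic two every inner-diagonal
automorphism of `PΩ⁺_{2m}(F)` is inner (port of `Helper44.POm.inndiag_le_inn_char2`).
-/

universe u v

namespace Cfsg.Agent.Helper33.FldP

open Matrix Cfsg
open Cfsg.Agent.Helper45.OO (semiAut semiMap glMap)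
open Cfsg.Agent.Helper44.POm
open Cfsg.Agent.Helper45.Fld

section Plus

variable {F : Type u} [Field F] [Fintype F] {m : ℕ}

/-- in characteristic two a similarity of the hyperbolic form is a scalar multiple of an
isometry -/
theorem plus_sim_char2_decomp (h2 : ringChar F = 2) (g : GL (Fin m ⊕ Fin m) F)
    (hg : g ∈ Geo.quadSimilarityGroup (F := F) (quadFormPlus m F)) :
    ∃ (s : F) (g' : ↥(isometryGroup F ⇑(Helper43.plusQF m F))), s ≠ 0 ∧
      (g : Matrix (Fin m ⊕ Fin m) (Fin m ⊕ Fin m) F)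
        = s • ((g' : GL (Fin m ⊕ Fin m) F) : Matrix (Fin m ⊕ Fin m) (Fin m ⊕ Fin m) F) := by
  obtain ⟨c, hc⟩ := hg
  obtain ⟨s, hs⟩ := FiniteField.isSquare_of_char_two h2 (c : F)
  have hs0 : s ≠ 0 := by
    rintro rfl
    rw [mul_zero] at hs
    exact c.ne_zero hs
  have hmem : scGL s⁻¹ (inv_ne_zero hs0) * g ∈ isometryGroup F ⇑(Helper43.plusQF m F) := by
    rw [Helper45.mem_iso_iff]
    intro v
    rw [scGL_mul_coe, Matrix.smul_mulVec, QuadraticMap.map_smul]
    have h3 : Helper43.plusQF m F ((g : Matrix (Fin m ⊕ Fin m) (Fin m ⊕ Fin m) F) *ᵥ v)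
        = (c : F) * Helper43.plusQF m F v := hc v
    rw [h3, hs, smul_eq_mul]
    field_simp
  refine ⟨s, ⟨_, hmem⟩, hs0, ?_⟩
  show (g : Matrix (Fin m ⊕ Fin m) (Fin m ⊕ Fin m) F)
    = s • ((scGL s⁻¹ (inv_ne_zero hs0) * g : GL (Fin m ⊕ Fin m) F) :
        Matrix (Fin m ⊕ Fin m) (Fin m ⊕ Fin m) F)
  rw [scGL_mul_coe, smul_smul, mul_inv_cancel₀ hs0, one_smul]

/-- PIECE N3 -/
theorem inndiag_plus_le_inn_char2 (hm : 3 ≤ m) (h2 : ringChar F = 2)
    (δ : MulAut (POmega F (quadFormPlus m F))) (hδ : δ ∈ inndiagPOmegaPlus m F) :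
    δ ∈ Inn (POmega F (quadFormPlus m F)) := by
  have hQ := Helper45.plusQF_nondeg' (F := F) m
  have hcard : Fintype.card (Fin m ⊕ Fin m) ≠ 4 := by
    rw [Fintype.card_sum, Fintype.card_fin]
    omega
  have hR : Helper45.reflGroup (Helper43.plusQF m F) = ⊤ :=
    Helper44.reflGroup_eq_top_of _ hQ (Or.inr hcard)
  obtain ⟨d, hd, hP, hind⟩ := inndiag_plus_rep hR δ hδ
  obtain ⟨s, g', hs, eg⟩ := plus_sim_char2_decomp h2 d hd
  rw [eg, pres_smul _ s hs] at hP
  have d1 : Helper45.dick (Helper43.plusQF m F) g' = 0 :=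
    (isCls_psc hR _ _ (isCls_iso g')).mp hP
  haveI : CharP F 2 := ringChar.of_eq h2
  have hg'Ω : g' ∈ Omega F ⇑(Helper43.plusQF m F) :=
    (Helper45.mem_omega_iff_dick _ hQ (Or.inr hcard) g').mpr d1
  apply Helper45.mem_inn_of_ind_omega (Helper43.plusQF m F) g' hg'Ω δ
  have e0 := (Helper45.OO.semi_ind_iff _ d (RingEquiv.refl F) (semi_of_mem _ d hd) δ).mp hind
  have hdeq : d = scGL s hs * (g' : GL (Fin m ⊕ Fin m) F) :=
    Units.ext (by rw [scGL_mul_coe]; exact eg)
  have hg'S : IsSemisimilarityPair (quadFormPlus m F) (g' : GL (Fin m ⊕ Fin m) F)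
      (RingEquiv.refl F) := semi_of_mem _ _ (Helper45.iso_le_sim _ g'.2)
  apply (Helper45.OO.semi_ind_iff _ _ (RingEquiv.refl F) hg'S δ).mpr
  rw [e0]
  subst hdeq
  exact semiAut_scGL_mul (Helper43.plusQF m F) s hs g' (RingEquiv.refl F) hg'S _

end Plus

end Cfsg.Agent.Helper33.FldP
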