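/-
Helper library of seat helper33: a normal four-subgroup of a Sylow 2-subgroup of a group of
characteristic 2 type centralizes every subgroup of odd order that it normalizes.
-/
import Mathlib
import Cfsg.Prelude.Def_CaseTheorems
import Cfsg.Agent.Helper33.SylowRel
import Cfsg.Agent.Helper33.Basic
import Cfsg.Agent.Helper33.Centric
import Cfsg.Agent.Helper33.PComplement
import Cfsg.Agent.Helper33.SectionTransfer
import Cfsg.Agent.Helper48.Cores
import Cfsg.Agent.Helper22.Generation

set_option autoImplicit false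

namespace Cfsg.Agent.Helper33

open Subgroup

section FourGroup

variable {G : Type*} [Group G]

/-- In a finite cyclic group there is at most one involution. -/
theorem eq_one_or_eq_of_sq_of_isCyclic {C : Type*} [Group C] [Finite C] [IsCyclic C] {x y : C}
    (hx : x ^ 2 = 1) (hy : y ^ 2 = 1) (hy1 : y ≠ 1) : x = 1 ∨ x = y := by
  classical
  haveI := Fintype.ofFinite C
  by_contra hcon
  push_neg at hcon
  have h := IsCyclic.card_pow_eq_one_le (α := C) (n := 2) (by norm_num)
  have hsub : ({1, y, x} : Finset C) ⊆ Finset.univ.filter (fun a : C => a ^ 2 = 1) := by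
    intro a ha
    simp only [Finset.mem_insert, Finset.mem_singleton] at ha
    rw [Finset.mem_filter]
    refine ⟨Finset.mem_univ _, ?_⟩
    rcases ha with rfl | rfl | rfl
    · exact one_pow 2
    · exact hy
    · exact hx
  have hcard : ({1, y, x} : Finset C).card = 3 := by
    rw [Finset.card_insert_of_notMem, Finset.card_insert_of_notMem, Finset.card_singleton]
    · simp only [Finset.mem_singleton]
      exact fun h => hcon.2 h.symm
    · simp only [Finset.mem_insert, Finset.mem_singleton, not_or]
      exact ⟨fun h => hy1 h.symm, fun h => hcon.1 h.symm⟩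
  have := Finset.card_le_card hsub
  omega

/-- Powers of an involution. -/
theorem zpow_eq_one_or_self {u : G} (hu : u * u = 1) (k : ℤ) : u ^ k = 1 ∨ u ^ k = u := by
  have hinv : u⁻¹ = u := inv_eq_of_mul_eq_one_left hu
  induction k using Int.induction_on with
  | zero => left; simp
  | succ i ih =>
    rw [zpow_add_one]
    rcases ih with h | h
    · right; rw [h, one_mul]
    · left; rw [h, hu]
  | pred i ih =>
    rw [zpow_sub_one, hinv]
    rcases ih with h | h
    · right; rw [h, one_mul]
    · left; rw [h, hu]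

/-- A nontrivial subgroup of a `p`-group `P` normalized by `P` contains a nontrivial element
central in `P`. -/
theorem exists_central_of_normal_pgroup [Finite G] {p : ℕ} [Fact p.Prime] {P U : Subgroup G}
    (hP : IsPGroup p P) (hUP : U ≤ P) (hUn : P ≤ normalizer (U : Set G)) (hU : U ≠ ⊥) :
    ∃ z ∈ U, z ≠ 1 ∧ ∀ x ∈ P, x * z = z * x := by
  letI act : MulAction ↥P ↥U :=
    { smul := fun x w => ⟨(x : G) * w * (x : G)⁻¹,
        (Subgroup.mem_normalizer_iff.mp (hUn x.2) w).mp w.2⟩
      one_smul := fun w => Subtype.ext (by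
        show ((1 : ↥P) : G) * w * ((1 : ↥P) : G)⁻¹ = w
        simp)
      mul_smul := fun x y w => Subtype.ext (by
        show ((x * y : ↥P) : G) * w * ((x * y : ↥P) : G)⁻¹
          = (x : G) * ((y : G) * w * (y : G)⁻¹) * (x : G)⁻¹
        simp [mul_assoc]) }
  have hsmul : ∀ (x : ↥P) (w : ↥U), ((x • w : ↥U) : G) = (x : G) * w * (x : G)⁻¹ := fun _ _ => rfl
  have hUp : IsPGroup p U := hP.to_le hUP
  have hdvd : p ∣ Nat.card ↥U := by
    obtain ⟨k, hk⟩ := IsPGroup.exists_card_eq hUp
    rcases Nat.eq_zero_or_pos k with rfl | hkpos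
    · exfalso
      apply hU
      rw [pow_zero] at hk
      exact (Subgroup.card_eq_one).mp hk
    · rw [hk]
      exact dvd_pow_self p hkpos.ne'
  have hfix : (1 : ↥U) ∈ MulAction.fixedPoints ↥P ↥U := by
    intro x
    apply Subtype.ext
    rw [hsmul]
    simp
  obtain ⟨b, hb, hb1⟩ := hP.exists_fixed_point_of_prime_dvd_card_of_fixed_point (↥U) hdvd hfix
  refine ⟨b, b.2, ?_, ?_⟩
  · intro h
    exact hb1 (Subtype.ext h.symm)
  · intro x hx
    have := congrArg Subtype.val (hb ⟨x, hx⟩)
    rw [hsmul] at this
    calc x * b = x * b * x⁻¹ * x := by group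
      _ = b * x := by rw [this]

/-- In a finite group `N` of characteristic 2 with a central involution `u`: an element acting
trivially on `O_2(N)` modulo `⟨u⟩` lies in `O_2(N)`. -/
theorem mem_pCore_two_of_commutator_mem {N : Type*} [Group N] [Finite N] (u : N)
    (hu2 : u * u = 1) (huc : ∀ n : N, n * u = u * n)
    (hchar : centralizer (Cfsg.pCore 2 N : Set N) ≤ Cfsg.pCore 2 N)
    (x : N) (hx : ∀ r ∈ Cfsg.pCore 2 N, x * r * x⁻¹ * r⁻¹ ∈ zpowers u) :
    x ∈ Cfsg.pCore 2 N := by
  have hcZ : ∀ c ∈ zpowers u, (∀ n : N, n * c = c * n) ∧ c * c = 1 := by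
    intro c hc
    obtain ⟨k, hk⟩ := Subgroup.mem_zpowers_iff.mp hc
    subst hk
    rcases zpow_eq_one_or_self hu2 k with h | h
    · rw [h]; simp
    · rw [h]; exact ⟨huc, hu2⟩
  haveI hZn : (zpowers u).Normal := ⟨fun a ha n => by
    have : n * a * n⁻¹ = a := by
      rw [(hcZ a ha).1 n]; group
    rw [this]; exact ha⟩
  haveI hRn : (Cfsg.pCore 2 N).Normal := pCore_normal 2
  have hR2 : IsPGroup 2 (Cfsg.pCore 2 N) := Helper48.isPGroup_pCore 2 N
  let π := QuotientGroup.mk' (zpowers u)
  haveI : ((Cfsg.pCore 2 N).map π).Normal :=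
    Subgroup.Normal.map hRn π (QuotientGroup.mk'_surjective _)
  let X : Subgroup N :=
    (centralizer (((Cfsg.pCore 2 N).map π : Subgroup (N ⧸ zpowers u)) : Set (N ⧸ zpowers u))).comap π
  have hXn : X.Normal := inferInstance
  have hXmem : ∀ y : N, y ∈ X ↔ ∀ r ∈ Cfsg.pCore 2 N, y⁻¹ * r⁻¹ * y * r ∈ zpowers u := by
    intro y
    show π y ∈ centralizer _ ↔ _
    rw [Subgroup.mem_centralizer_iff]
    constructor
    · intro h r hr
      have h1 := h (π r) (Subgroup.mem_map_of_mem π hr)
      have h2 : π (r * y) = π (y * r) := by rw [map_mul, map_mul]; exact h1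
      have h3 := (QuotientGroup.eq (s := zpowers u)).mp h2
      have h4 : (r * y)⁻¹ * (y * r) = y⁻¹ * r⁻¹ * y * r := by group
      rw [h4] at h3
      exact h3
    · rintro h _ ⟨r, hr, rfl⟩
      have h3 := h r hr
      have h4 : (r * y)⁻¹ * (y * r) = y⁻¹ * r⁻¹ * y * r := by group
      rw [← h4] at h3
      have h2 : π (r * y) = π (y * r) := (QuotientGroup.eq (s := zpowers u)).mpr h3
      rw [map_mul, map_mul] at h2
      exact h2
  have hX2 : IsPGroup 2 X := by
    rintro ⟨y, hy⟩
    have hy2 : y * y ∈ Cfsg.pCore 2 N := by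
      apply hchar
      rw [Subgroup.mem_centralizer_iff]
      intro r hr
      have hc := (hXmem y).mp hy r hr
      obtain ⟨hcc, hc2⟩ := hcZ _ hc
      set c := y⁻¹ * r⁻¹ * y * r with hcdef
      have h1 : r⁻¹ * y * r = y * c := by rw [hcdef]; group
      have h2 : r⁻¹ * (y * y) * r = y * y := by
        calc r⁻¹ * (y * y) * r = (r⁻¹ * y * r) * (r⁻¹ * y * r) := by group
          _ = (y * c) * (y * c) := by rw [h1]
          _ = y * (c * y) * c := by group
          _ = y * (y * c) * c := by rw [hcc y]
          _ = y * y * (c * c) := by group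
          _ = y * y := by rw [hc2, mul_one]
      calc r * (y * y) = r * (r⁻¹ * (y * y) * r) := by rw [h2]
        _ = y * y * r := by group
    obtain ⟨k, hk⟩ := hR2 ⟨y * y, hy2⟩
    refine ⟨k + 1, Subtype.ext ?_⟩
    have hk' : (y * y) ^ 2 ^ k = 1 := congrArg Subtype.val hk
    show y ^ 2 ^ (k + 1) = 1
    rw [pow_succ, mul_comm, pow_mul, pow_two]
    exact hk'
  have hxX : x ∈ X := by
    rw [hXmem]
    intro r hr
    have hr1 : x⁻¹ * r⁻¹ * x ∈ Cfsg.pCore 2 N := by
      have := hRn.conj_mem r⁻¹ (inv_mem hr) x⁻¹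
      rw [inv_inv] at this
      exact this
    have h1 := hx _ hr1
    have h2 : x⁻¹ * r⁻¹ * x * r = (x * (x⁻¹ * r⁻¹ * x) * x⁻¹ * (x⁻¹ * r⁻¹ * x)⁻¹)⁻¹ := by group
    rw [h2]
    exact inv_mem h1
  exact Helper48.le_pCore hXn hX2 hxX


/-- Key step: for an involution `u` of the normal four-subgroup `U` of the Sylow 2-subgroup `P`,
`U` lies in `O_2(C_G(u))` (phrased in `N_G(⟨u⟩)`). -/
theorem four_group_le_pCore [Finite G] (h2 : Cfsg.IsCharacteristicTwoType G)
    (P : Sylow 2 G) (U : Subgroup G) (hUP : U ≤ (P : Subgroup G))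
    (hUn : (P : Subgroup G) ≤ normalizer (U : Set G))
    (hsq : ∀ w ∈ U, w * w = 1) (hcomm : ∀ a ∈ U, ∀ b ∈ U, a * b = b * a)
    (hfour : ∀ u ∈ U, ∀ z ∈ U, u ≠ 1 → z ≠ 1 → z ≠ u → ∀ w ∈ U, w = 1 ∨ w = u ∨ w = z ∨ w = u * z)
    (hcard : Nat.card U = 4)
    (hUZ : ¬ IsCyclic ↥((P : Subgroup G) ⊓ centralizer ((P : Subgroup G) : Set G)) →
      U ≤ centralizer ((P : Subgroup G) : Set G))
    (u : G) (hu : u ∈ U) (hu1 : u ≠ 1) :
    ∀ w ∈ U, ∃ hw : w ∈ normalizer ((zpowers u : Subgroup G) : Set G),
      (⟨w, hw⟩ : ↥(normalizer ((zpowers u : Subgroup G) : Set G))) ∈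
        Cfsg.pCore 2 ↥(normalizer ((zpowers u : Subgroup G) : Set G)) := by
  classical
  have hu2 : u * u = 1 := hsq u hu
  have huinv : u⁻¹ = u := inv_eq_of_mul_eq_one_left hu2
  set N : Subgroup G := normalizer ((zpowers u : Subgroup G) : Set G) with hNdef
  have hZmem : ∀ x ∈ zpowers u, x = 1 ∨ x = u := by
    intro x hx
    obtain ⟨k, hk⟩ := Subgroup.mem_zpowers_iff.mp hx
    subst hk
    exact zpow_eq_one_or_self hu2 k
  -- elements of `N` commute with `u`
  have hNc : ∀ n ∈ N, n * u = u * n := by
    intro n hn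
    have h1 : n * u * n⁻¹ ∈ zpowers u :=
      (Subgroup.mem_normalizer_iff.mp hn u).mp (Subgroup.mem_zpowers u)
    rcases hZmem _ h1 with h | h
    · exfalso
      apply hu1
      have : u = n⁻¹ * (n * u * n⁻¹) * n := by group
      rw [this, h]; group
    · calc n * u = n * u * n⁻¹ * n := by group
        _ = u * n := by rw [h]
  have hcN : ∀ n : G, n * u = u * n → n ∈ N := by
    intro n hn
    apply Subgroup.centralizer_le_normalizer
    rw [Subgroup.mem_centralizer_iff]
    intro h hh
    rcases hZmem h hh with rfl | rfl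
    · simp
    · exact hn.symm
  have huN : u ∈ N := hcN u rfl
  have hUN : U ≤ N := fun w hw => hcN w (hcomm w hw u hu)
  have hpg : IsPGroup 2 (zpowers u) :=
    isPGroup_zpowers_of_pow_eq_one (p := 2) (k := 1) (by rw [pow_one, pow_two]; exact hu2)
  have hne : (zpowers u : Subgroup G) ≠ ⊥ := by
    intro h
    apply hu1
    have : u ∈ (⊥ : Subgroup G) := h ▸ Subgroup.mem_zpowers u
    exact Subgroup.mem_bot.mp this
  have hchar : centralizer ((Cfsg.pCore 2 ↥N : Subgroup ↥N) : Set ↥N) ≤ Cfsg.pCore 2 ↥N :=
    h2.2 (zpowers u) hpg hne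
  set R : Subgroup ↥N := Cfsg.pCore 2 ↥N with hRdef
  let u' : ↥N := ⟨u, huN⟩
  have hu'2 : u' * u' = 1 := Subtype.ext hu2
  have hu'c : ∀ n : ↥N, n * u' = u' * n := fun n => Subtype.ext (hNc n n.2)
  have hZ'mem : ∀ x : ↥N, x ∈ zpowers u' ↔ ((x : G) = 1 ∨ (x : G) = u) := by
    intro x
    constructor
    · intro hx
      obtain ⟨k, hk⟩ := Subgroup.mem_zpowers_iff.mp hx
      subst hk
      rcases zpow_eq_one_or_self hu'2 k with h | h
      · left; rw [h]; rfl
      · right; rw [h]
    · rintro (h | h)
      · have : x = 1 := Subtype.ext h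
        rw [this]; exact one_mem _
      · have : x = u' := Subtype.ext h
        rw [this]; exact Subgroup.mem_zpowers u'
  -- `u ∈ R`
  have hu'R : u' ∈ R := by
    have hn : (zpowers u').Normal := ⟨fun a ha n => by
      have hc : ∀ n : ↥N, n * a = a * n := by
        obtain ⟨k, hk⟩ := Subgroup.mem_zpowers_iff.mp ha
        subst hk
        intro n
        exact ((Commute.zpow_right (show Commute n u' from hu'c n) k)).eq
      have : n * a * n⁻¹ = a := by rw [hc n]; group
      rw [this]; exact ha⟩
    have hp : IsPGroup 2 (zpowers u') :=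
      isPGroup_zpowers_of_pow_eq_one (p := 2) (k := 1) (by rw [pow_one, pow_two]; exact hu'2)
    exact Helper48.le_pCore hn hp (Subgroup.mem_zpowers u')
  -- criterion for membership in `R`
  have hcrit : ∀ z ∈ U, ∀ hz : z ∈ N,
      (∀ r : ↥N, r ∈ R → z * (r : G) * z⁻¹ * (r : G)⁻¹ = 1 ∨ z * (r : G) * z⁻¹ * (r : G)⁻¹ = u) →
      (⟨z, hz⟩ : ↥N) ∈ R := by
    intro z _ hz h
    apply mem_pCore_two_of_commutator_mem u' hu'2 hu'c hchar
    intro r hr
    rw [hZ'mem]
    exact h r hr
  -- the Sylow 2-subgroup `T` of `N` containing `C_P(u)`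
  set P₀ : Subgroup G := (P : Subgroup G) ⊓ N with hP₀def
  have hP₀pg : IsPGroup 2 (P₀.subgroupOf N) := (P.2.to_le inf_le_left).comap_subtype
  obtain ⟨T', hT'⟩ := hP₀pg.exists_le_sylow
  have hRT' : R ≤ (T' : Subgroup ↥N) := pCore_le_sylow T'
  have hP₀T : ∀ x : G, x ∈ P → ∀ hx : x ∈ N, (⟨x, hx⟩ : ↥N) ∈ (T' : Subgroup ↥N) := by
    intro x hxP hxN
    apply hT'
    rw [Subgroup.mem_subgroupOf]
    exact Subgroup.mem_inf.mpr ⟨hxP, hxN⟩
  -- the claim for a suitable `z`
  have hclaimZ : ∃ z ∈ U, z ≠ 1 ∧ z ≠ u ∧ ∃ hz : z ∈ N, (⟨z, hz⟩ : ↥N) ∈ R := by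
    by_cases hcen : ∀ x ∈ (P : Subgroup G), x * u = u * x
    · -- `u` central in `P`
      have hPN : (P : Subgroup G) ≤ N := fun x hx => hcN x (hcen x hx)
      have hTP : ∀ t : ↥N, t ∈ (T' : Subgroup ↥N) → (t : G) ∈ P := by
        intro t ht
        have hle : (P : Subgroup G) ≤ (T' : Subgroup ↥N).map N.subtype := by
          intro x hx
          exact ⟨⟨x, hPN hx⟩, hP₀T x hx (hPN hx), rfl⟩
        have heq := P.is_maximal' (T'.2.map N.subtype) hle
        have : (t : G) ∈ (T' : Subgroup ↥N).map N.subtype := ⟨t, ht, rfl⟩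
        rw [heq] at this
        exact this
      -- pick `z`
      have hex : ∃ z ∈ U, z ≠ 1 ∧ z ≠ u := by
        by_contra hcon
        push_neg at hcon
        have hle : U ≤ zpowers u := by
          intro w hw
          by_cases hw1 : w = 1
          · rw [hw1]; exact one_mem _
          · rw [hcon w hw hw1]; exact Subgroup.mem_zpowers u
        have h1 := Subgroup.card_le_of_le hle
        have h2' : orderOf u = 2 := orderOf_eq_prime (by rw [pow_two]; exact hu2) hu1
        rw [Nat.card_zpowers, h2', hcard] at h1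
        omega
      obtain ⟨z, hzU, hz1, hzu⟩ := hex
      refine ⟨z, hzU, hz1, hzu, hUN hzU, ?_⟩
      apply hcrit z hzU
      intro r hr
      have hrP : (r : G) ∈ P := hTP r (hRT' hr)
      set t : G := (r : G) with ht
      have hconjU : t * z * t⁻¹ ∈ U := (Subgroup.mem_normalizer_iff.mp (hUn hrP) z).mp hzU
      have hc1 : t * z * t⁻¹ ≠ 1 := by
        intro h
        apply hz1
        have : z = t⁻¹ * (t * z * t⁻¹) * t := by group
        rw [this, h]; group
      have hcu : t * z * t⁻¹ ≠ u := by
        intro h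
        apply hzu
        have h3 : z = t⁻¹ * (t * z * t⁻¹) * t := by group
        rw [h3, h]
        have h4 := hcen t hrP
        calc t⁻¹ * u * t = t⁻¹ * (u * t) := by group
          _ = t⁻¹ * (t * u) := by rw [h4]
          _ = u := by group
      have hzinv : z⁻¹ = z := inv_eq_of_mul_eq_one_left (hsq z hzU)
      have hkey : z * t * z⁻¹ * t⁻¹ = z * (t * z * t⁻¹)⁻¹ := by group
      rw [hkey]
      rcases hfour u hu z hzU hu1 hz1 hzu _ hconjU with h | h | h | h
      · exact absurd h hc1
      · exact absurd h hcu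
      · left; rw [h]; group
      · right; rw [h]
        calc z * (u * z)⁻¹ = u⁻¹ := by group
          _ = u := huinv
    · -- `u` not central in `P`
      have hcyc : IsCyclic ↥((P : Subgroup G) ⊓ centralizer ((P : Subgroup G) : Set G)) := by
        by_contra h
        apply hcen
        intro x hx
        exact (Subgroup.mem_centralizer_iff.mp (hUZ h hu)) x hx
      have hUne : U ≠ ⊥ := by
        intro h
        apply hu1
        have : u ∈ (⊥ : Subgroup G) := h ▸ hu
        exact Subgroup.mem_bot.mp this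
      obtain ⟨z, hzU, hz1, hzc⟩ := exists_central_of_normal_pgroup P.2 hUP hUn hUne
      have hzu : z ≠ u := by
        rintro rfl
        exact hcen hzc
      have hzinv : z⁻¹ = z := inv_eq_of_mul_eq_one_left (hsq z hzU)
      have hzN : z ∈ N := hUN hzU
      refine ⟨z, hzU, hz1, hzu, hzN, ?_⟩
      apply hcrit z hzU
      by_cases hsub : ∀ t : ↥N, t ∈ (T' : Subgroup ↥N) → (t : G) ∈ P
      · intro r hr
        left
        have hrP : (r : G) ∈ P := hsub r (hRT' hr)
        have := hzc _ hrP
        calc z * (r : G) * z⁻¹ * (r : G)⁻¹ = (z * (r : G)) * z⁻¹ * (r : G)⁻¹ := by group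
          _ = ((r : G) * z) * z⁻¹ * (r : G)⁻¹ := by rw [this]
          _ = 1 := by group
      · push_neg at hsub
        obtain ⟨a₀, ha₀T, ha₀P⟩ := hsub
        set T : Subgroup G := (T' : Subgroup ↥N).map N.subtype with hTdef
        have hTpg : IsPGroup 2 T := T'.2.map N.subtype
        have hTN : T ≤ N := by
          rintro _ ⟨t, _, rfl⟩
          exact t.2
        have hP₀T' : P₀ ≤ T := by
          intro x hx
          obtain ⟨hxP, hxN⟩ := Subgroup.mem_inf.mp hx
          exact ⟨⟨x, hxN⟩, hP₀T x hxP hxN, rfl⟩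
        have hRT : ∀ r : ↥N, r ∈ R → (r : G) ∈ T := fun r hr => ⟨r, hRT' hr, rfl⟩
        have hP₀mem : ∀ b ∈ (P : Subgroup G), (b ∈ P₀ ↔ b * u = u * b) := by
          intro b hb
          constructor
          · intro h; exact hNc b (Subgroup.mem_inf.mp h).2
          · intro h; exact Subgroup.mem_inf.mpr ⟨hb, hcN b h⟩
        -- conjugates of `u` under `P`
        have hconj : ∀ y ∈ (P : Subgroup G), y * u * y⁻¹ = u ∨ y * u * y⁻¹ = u * z := by
          intro y hy
          have hyU : y * u * y⁻¹ ∈ U := (Subgroup.mem_normalizer_iff.mp (hUn hy) u).mp hu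
          have h1 : y * u * y⁻¹ ≠ 1 := by
            intro h
            apply hu1
            have : u = y⁻¹ * (y * u * y⁻¹) * y := by group
            rw [this, h]; group
          have hz' : y * u * y⁻¹ ≠ z := by
            intro h
            apply hzu
            have h3 : u = y⁻¹ * (y * u * y⁻¹) * y := by group
            rw [h3, h]
            have h4 := hzc y hy
            calc z = y⁻¹ * (y * z) := by group
              _ = y⁻¹ * (z * y) := by rw [h4]
              _ = y⁻¹ * z * y := by group
          rcases hfour u hu z hzU hu1 hz1 hzu _ hyU with h | h | h | h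
          · exact absurd h h1
          · left; exact h
          · exact absurd h hz'
          · right; exact h
        have huz : u * z ≠ u := by
          intro h
          apply hz1
          calc z = u⁻¹ * (u * z) := by group
            _ = u⁻¹ * u := by rw [h]
            _ = 1 := by group
        have hcomm_iff : ∀ y : G, (y * u = u * y ↔ y * u * y⁻¹ = u) := by
          intro y
          constructor
          · intro h; rw [h]; group
          · intro h
            calc y * u = y * u * y⁻¹ * y := by group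
              _ = u * y := by rw [h]
        -- `P₀` has index 2 in `P`
        push_neg at hcen
        obtain ⟨x₀, hx₀P, hx₀⟩ := hcen
        have hx₀c : x₀ * u * x₀⁻¹ = u * z := by
          rcases hconj x₀ hx₀P with h | h
          · exact absurd ((hcomm_iff x₀).mpr h) hx₀
          · exact h
        have hidxP : P₀.relIndex (P : Subgroup G) = 2 := by
          rw [Subgroup.relIndex_eq_two_iff]
          refine ⟨x₀, hx₀P, ?_⟩
          intro b hb
          have hbx : b * x₀ ∈ (P : Subgroup G) := mul_mem hb hx₀P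
          rw [hP₀mem _ hbx, hP₀mem b hb, hcomm_iff, hcomm_iff]
          have hbz : b * z * b⁻¹ = z := by
            have := hzc b hb
            rw [this]; group
          have hexp : (b * x₀) * u * (b * x₀)⁻¹ = (b * u * b⁻¹) * z := by
            calc (b * x₀) * u * (b * x₀)⁻¹ = b * (x₀ * u * x₀⁻¹) * b⁻¹ := by group
              _ = b * (u * z) * b⁻¹ := by rw [hx₀c]
              _ = (b * u * b⁻¹) * (b * z * b⁻¹) := by group
              _ = (b * u * b⁻¹) * z := by rw [hbz]
          rw [hexp]
          rcases hconj b hb with h | h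
          · rw [h]
            exact Or.inr ⟨rfl, huz⟩
          · rw [h]
            refine Or.inl ⟨?_, huz⟩
            calc u * z * z = u * (z * z) := by group
              _ = u := by rw [hsq z hzU, mul_one]
        have hcardP : Nat.card P₀ * 2 = Nat.card (P : Subgroup G) := by
          have := card_mul_relIndex_of_le (inf_le_left : P₀ ≤ (P : Subgroup G))
          rw [hidxP] at this
          exact this
        -- `T` has the order of `P`
        have ha₀T' : (a₀ : G) ∈ T := ⟨a₀, ha₀T, rfl⟩
        have hlt : P₀ < T := by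
          refine lt_of_le_of_ne hP₀T' ?_
          intro h
          apply ha₀P
          have : (a₀ : G) ∈ P₀ := h ▸ ha₀T'
          exact (Subgroup.mem_inf.mp this).1
        have hcardlt : Nat.card P₀ < Nat.card T := card_lt_card_of_lt hlt
        obtain ⟨g, hg⟩ := exists_cj_le_sylow P hTpg
        have hcardle : Nat.card T ≤ Nat.card (P : Subgroup G) := by
          rw [← card_cj g T]
          exact Subgroup.card_le_of_le hg
        have hcardT : Nat.card T = Nat.card P₀ * 2 := by
          obtain ⟨a, ha⟩ := IsPGroup.exists_card_eq hTpg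
          obtain ⟨b, hb⟩ := IsPGroup.exists_card_eq (P.2.to_le (inf_le_left : P₀ ≤ (P : Subgroup G)))
          rw [hb, ha] at hcardlt
          have hba : b < a := (Nat.pow_lt_pow_iff_right (by norm_num : 1 < 2)).mp hcardlt
          have h3 : 2 ^ (b + 1) ≤ 2 ^ a := Nat.pow_le_pow_right (by norm_num) hba
          rw [pow_succ] at h3
          rw [← hcardP, hb, ha] at hcardle
          rw [ha, hb]
          omega
        have hcjeq : T.map (MulAut.conj g).toMonoidHom = (P : Subgroup G) := by
          apply Subgroup.eq_of_le_of_card_ge hg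
          rw [card_cj, hcardT, hcardP]
        have hidxT : P₀.relIndex T = 2 := by
          have := card_mul_relIndex_of_le hP₀T'
          rw [hcardT] at this
          have hpos : 0 < Nat.card P₀ := Nat.card_pos
          exact Nat.eq_of_mul_eq_mul_left hpos this
        obtain ⟨a, haT, hxor⟩ := Subgroup.relIndex_eq_two_iff.mp hidxT
        have haP₀ : a ∉ P₀ := by
          have := hxor 1 (one_mem _)
          rw [one_mul] at this
          rcases this with ⟨h1, h2'⟩ | ⟨h1, h2'⟩
          · exact absurd (one_mem _) h2'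
          · exact h2'
        have haa : a * a ∈ P₀ := by
          rcases hxor a haT with ⟨h1, h2'⟩ | ⟨h1, h2'⟩
          · exact h1
          · exact absurd h1 haP₀
        have hnorm : ∀ q ∈ P₀, a * q * a⁻¹ ∈ P₀ := by
          intro q hq
          have hbT : a * q * a⁻¹ * a⁻¹ ∈ T :=
            mul_mem (mul_mem (mul_mem haT (hP₀T' hq)) (inv_mem haT)) (inv_mem haT)
          rcases hxor _ hbT with ⟨h1, h2'⟩ | ⟨h1, h2'⟩
          · have : a * q * a⁻¹ * a⁻¹ * a = a * q * a⁻¹ := by group
            rw [this] at h1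
            exact h1
          · exfalso
            apply haP₀
            have h3 : a = (a * q * a⁻¹ * a⁻¹) * (a * a) * q⁻¹ := by group
            rw [h3]
            exact mul_mem (mul_mem h1 haa) (inv_mem hq)
        have hzP₀ : z ∈ P₀ := Subgroup.mem_inf.mpr ⟨hUP hzU, hzN⟩
        have hzq : ∀ q ∈ P₀, q * z = z * q := fun q hq => hzc q (Subgroup.mem_inf.mp hq).1
        set za : G := a⁻¹ * z * a with hzadef
        set w : G := z * za with hwdef
        have hzaq : ∀ q ∈ P₀, q * za = za * q := by
          intro q hq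
          have h1 := hzq _ (hnorm q hq)
          calc q * za = a⁻¹ * ((a * q * a⁻¹) * z) * a := by rw [hzadef]; group
            _ = a⁻¹ * (z * (a * q * a⁻¹)) * a := by rw [h1]
            _ = za * q := by rw [hzadef]; group
        have hzza : z * za = za * z := (hzaq z hzP₀)
        have hwq : ∀ q ∈ P₀, q * w = w * q := by
          intro q hq
          calc q * w = (q * z) * za := by rw [hwdef]; group
            _ = (z * q) * za := by rw [hzq q hq]
            _ = z * (q * za) := by group
            _ = z * (za * q) := by rw [hzaq q hq]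
            _ = w * q := by rw [hwdef]; group
        have hwa : a * w = w * a := by
          have h1 := hzq _ haa
          have h2' : a⁻¹ * za * a = z := by
            calc a⁻¹ * za * a = (a * a)⁻¹ * (z * (a * a)) := by rw [hzadef]; group
              _ = (a * a)⁻¹ * ((a * a) * z) := by rw [h1]
              _ = z := by group
          have h3 : a⁻¹ * w * a = w := by
            calc a⁻¹ * w * a = (a⁻¹ * z * a) * (a⁻¹ * za * a) := by rw [hwdef]; group
              _ = za * z := by rw [h2']
              _ = w := by rw [hwdef, hzza]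
          calc a * w = a * (a⁻¹ * w * a) := by rw [h3]
            _ = w * a := by group
        have hwT : ∀ t ∈ T, t * w = w * t := by
          intro t ht
          rcases hxor t ht with ⟨h1, h2'⟩ | ⟨h1, h2'⟩
          · have h3 := hwq _ h1
            have h4 : a⁻¹ * w = w * a⁻¹ := by
              calc a⁻¹ * w = a⁻¹ * (w * a) * a⁻¹ := by group
                _ = a⁻¹ * (a * w) * a⁻¹ := by rw [hwa]
                _ = w * a⁻¹ := by group
            calc t * w = (t * a) * (a⁻¹ * w) := by group
              _ = (t * a) * (w * a⁻¹) := by rw [h4]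
              _ = ((t * a) * w) * a⁻¹ := by group
              _ = (w * (t * a)) * a⁻¹ := by rw [h3]
              _ = w * t := by group
          · exact hwq t h1
        have hw2 : w * w = 1 := by
          have hza2 : za * za = 1 := by
            calc za * za = a⁻¹ * (z * z) * a := by rw [hzadef]; group
              _ = 1 := by rw [hsq z hzU]; group
          calc w * w = z * (za * z) * za := by rw [hwdef]; group
            _ = z * (z * za) * za := by rw [hzza]
            _ = (z * z) * (za * za) := by group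
            _ = 1 := by rw [hsq z hzU, hza2, mul_one]
        have hwTmem : w ∈ T :=
          mul_mem (hP₀T' hzP₀) (mul_mem (mul_mem (inv_mem haT) (hP₀T' hzP₀)) haT)
        have huP₀ : u ∈ P₀ := Subgroup.mem_inf.mpr ⟨hUP hu, huN⟩
        have huT : ∀ t ∈ T, t * u = u * t := fun t ht => hNc t (hTN ht)
        -- transfer to `Z(P)`
        have hZP : ∀ x ∈ T, (∀ t ∈ T, t * x = x * t) →
            g * x * g⁻¹ ∈ (P : Subgroup G) ⊓ centralizer ((P : Subgroup G) : Set G) := by
          intro x hx hxc
          refine Subgroup.mem_inf.mpr ⟨?_, ?_⟩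
          · rw [← hcjeq]; exact cj_mem_cj hx
          · rw [Subgroup.mem_centralizer_iff]
            intro y hy
            have hy' : g⁻¹ * y * g ∈ T := by
              have : y ∈ T.map (MulAut.conj g).toMonoidHom := by rw [hcjeq]; exact hy
              exact mem_cj.mp this
            have := hxc _ hy'
            calc y * (g * x * g⁻¹) = g * ((g⁻¹ * y * g) * x) * g⁻¹ := by group
              _ = g * (x * (g⁻¹ * y * g)) * g⁻¹ := by rw [this]
              _ = g * x * g⁻¹ * y := by group
        let xw : ↥((P : Subgroup G) ⊓ centralizer ((P : Subgroup G) : Set G)) :=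
          ⟨g * w * g⁻¹, hZP w hwTmem hwT⟩
        let yu : ↥((P : Subgroup G) ⊓ centralizer ((P : Subgroup G) : Set G)) :=
          ⟨g * u * g⁻¹, hZP u (hP₀T' huP₀) huT⟩
        have hxw2 : xw ^ 2 = 1 := by
          apply Subtype.ext
          show (g * w * g⁻¹) ^ 2 = 1
          rw [pow_two]
          calc g * w * g⁻¹ * (g * w * g⁻¹) = g * (w * w) * g⁻¹ := by group
            _ = 1 := by rw [hw2]; group
        have hyu2 : yu ^ 2 = 1 := by
          apply Subtype.ext
          show (g * u * g⁻¹) ^ 2 = 1
          rw [pow_two]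
          calc g * u * g⁻¹ * (g * u * g⁻¹) = g * (u * u) * g⁻¹ := by group
            _ = 1 := by rw [hu2]; group
        have hyu1 : yu ≠ 1 := by
          intro h
          apply hu1
          have h' : g * u * g⁻¹ = 1 := congrArg Subtype.val h
          calc u = g⁻¹ * (g * u * g⁻¹) * g := by group
            _ = 1 := by rw [h']; group
        have hw1u : w = 1 ∨ w = u := by
          haveI := hcyc
          rcases eq_one_or_eq_of_sq_of_isCyclic hxw2 hyu2 hyu1 with h | h
          · left
            have h' : g * w * g⁻¹ = 1 := congrArg Subtype.val h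
            calc w = g⁻¹ * (g * w * g⁻¹) * g := by group
              _ = 1 := by rw [h']; group
          · right
            have h' : g * w * g⁻¹ = g * u * g⁻¹ := congrArg Subtype.val h
            calc w = g⁻¹ * (g * w * g⁻¹) * g := by group
              _ = g⁻¹ * (g * u * g⁻¹) * g := by rw [h']
              _ = u := by group
        -- conclusion
        intro r hr
        have hrT : (r : G) ∈ T := hRT r hr
        set t : G := (r : G) with ht
        rcases hxor t hrT with ⟨h1, h2'⟩ | ⟨h1, h2'⟩
        · -- `t ∉ P₀`, `t * a ∈ P₀`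
          have h3 := hzq _ h1
          have h4 := hwq _ h1
          have h5 : z * t * z⁻¹ * t⁻¹ = w := by
            calc z * t * z⁻¹ * t⁻¹ = (z * (t * a)) * (a⁻¹ * z * a) * (t * a)⁻¹ := by
                  rw [hzinv]; group
              _ = ((t * a) * z) * za * (t * a)⁻¹ := by rw [h3]
              _ = ((t * a) * w) * (t * a)⁻¹ := by rw [hwdef]; group
              _ = (w * (t * a)) * (t * a)⁻¹ := by rw [h4]
              _ = w := by group
          rw [h5]
          exact hw1u
        · left
          have h3 := hzq _ h1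
          calc z * t * z⁻¹ * t⁻¹ = (z * t) * z⁻¹ * t⁻¹ := by group
            _ = (t * z) * z⁻¹ * t⁻¹ := by rw [h3]
            _ = 1 := by group
  obtain ⟨z, hzU, hz1, hzu, hzN, hzR⟩ := hclaimZ
  intro w hw
  refine ⟨hUN hw, ?_⟩
  rcases hfour u hu z hzU hu1 hz1 hzu w hw with h | h | h | h
  · subst h
    exact one_mem R
  · subst h
    exact hu'R
  · subst h
    exact hzR
  · subst h
    exact mul_mem hu'R hzR

/-- **Thompson's four-group lemma** (characteristic 2 type form): a four-subgroup `U` normal in
a Sylow 2-subgroup `P` (central if `Z(P)` is not cyclic) centralizes every subgroup of odd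
order that it normalizes. -/
theorem four_group_le_centralizer [Finite G] (h2 : Cfsg.IsCharacteristicTwoType G)
    (P : Sylow 2 G) (U : Subgroup G) (hUP : U ≤ (P : Subgroup G))
    (hUn : (P : Subgroup G) ≤ normalizer (U : Set G)) (hU4 : IsKleinFour ↥U)
    (hUZ : ¬ IsCyclic ↥((P : Subgroup G) ⊓ centralizer ((P : Subgroup G) : Set G)) →
      U ≤ centralizer ((P : Subgroup G) : Set G))
    (K : Subgroup G) (hK : Odd (Nat.card K)) (hUK : U ≤ normalizer (K : Set G)) :
    U ≤ centralizer (K : Set G) := by
  classical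
  have hsq : ∀ w ∈ U, w * w = 1 := fun w hw => by
    have := IsKleinFour.mul_self (⟨w, hw⟩ : ↥U)
    exact congrArg Subtype.val this
  have hcomm : ∀ a ∈ U, ∀ b ∈ U, a * b = b * a := fun a ha b hb => by
    haveI : IsMulCommutative ↥U := IsKleinFour.isMulCommutative
    have := mul_comm' (⟨a, ha⟩ : ↥U) ⟨b, hb⟩
    exact congrArg Subtype.val this
  have hfour : ∀ u ∈ U, ∀ z ∈ U, u ≠ 1 → z ≠ 1 → z ≠ u →
      ∀ w ∈ U, w = 1 ∨ w = u ∨ w = z ∨ w = u * z := by
    intro u hu z hz hu1 hz1 hzu w hw
    by_contra hcon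
    push_neg at hcon
    have := IsKleinFour.eq_mul_of_ne_all (G := ↥U) (x := ⟨u, hu⟩) (y := ⟨z, hz⟩) (z := ⟨w, hw⟩)
      (fun h => hu1 (congrArg Subtype.val h)) (fun h => hz1 (congrArg Subtype.val h))
      (fun h => hzu (congrArg Subtype.val h).symm) (fun h => hcon.1 (congrArg Subtype.val h))
      (fun h => hcon.2.1 (congrArg Subtype.val h)) (fun h => hcon.2.2.1 (congrArg Subtype.val h))
    exact hcon.2.2.2 (congrArg Subtype.val this)
  have hcard : Nat.card U = 4 := hU4.card_four
  have hKodd : ¬ 2 ∣ Nat.card K := fun h => (Nat.not_even_iff_odd.mpr hK) (even_iff_two_dvd.mpr h)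
  -- the key claim
  have key : ∀ u ∈ U, u ≠ 1 → ∀ d ∈ K, d * u = u * d → ∀ w ∈ U, w * d = d * w := by
    intro u hu hu1 d hdK hdu w hw
    have hcore := four_group_le_pCore h2 P U hUP hUn hsq hcomm hfour hcard hUZ u hu hu1
    set N : Subgroup G := normalizer ((zpowers u : Subgroup G) : Set G) with hNdef
    have hdN : d ∈ N := by
      apply Subgroup.centralizer_le_normalizer
      rw [Subgroup.mem_centralizer_iff]
      intro h hh
      obtain ⟨k, hk⟩ := Subgroup.mem_zpowers_iff.mp hh
      subst hk
      exact (Commute.zpow_left (show Commute u d from hdu.symm) k).eq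
    obtain ⟨hwN, hwR⟩ := hcore w hw
    haveI hRn : (Cfsg.pCore 2 ↥N).Normal := pCore_normal 2
    let d' : ↥N := ⟨d, hdN⟩
    let w' : ↥N := ⟨w, hwN⟩
    have hcR : d' * w' * d'⁻¹ * w'⁻¹ ∈ Cfsg.pCore 2 ↥N :=
      mul_mem (hRn.conj_mem w' hwR d') (inv_mem hwR)
    obtain ⟨k, hk⟩ := (Helper48.isPGroup_pCore 2 ↥N) ⟨_, hcR⟩
    have hk' : (d * w * d⁻¹ * w⁻¹) ^ 2 ^ k = 1 := by
      have := congrArg Subtype.val (congrArg Subtype.val hk)
      exact this
    have hcK : d * w * d⁻¹ * w⁻¹ ∈ K := by
      have h1 : w * d⁻¹ * w⁻¹ ∈ K :=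
        (Subgroup.mem_normalizer_iff.mp (hUK hw) d⁻¹).mp (inv_mem hdK)
      have : d * w * d⁻¹ * w⁻¹ = d * (w * d⁻¹ * w⁻¹) := by group
      rw [this]
      exact mul_mem hdK h1
    have hord : (orderOf (d * w * d⁻¹ * w⁻¹)).Coprime 2 := by
      have h1 : orderOf (d * w * d⁻¹ * w⁻¹) ∣ Nat.card K := by
        have := orderOf_dvd_natCard (⟨_, hcK⟩ : ↥K)
        rwa [Subgroup.orderOf_mk] at this
      rw [Nat.coprime_comm, Nat.Prime.coprime_iff_not_dvd Nat.prime_two]
      exact fun h => hKodd (h.trans h1)
    have h1 := eq_one_of_pow_of_coprime hk' hord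
    calc w * d = (d * w * d⁻¹ * w⁻¹)⁻¹ * (d * w) := by group
      _ = d * w := by rw [h1]; group
  have hUel : Cfsg.IsElementaryAbelian 2 U := by
    refine ⟨⟨⟨fun a b => Subtype.ext (hcomm a a.2 b b.2)⟩⟩, ?_⟩
    intro a ha
    rw [pow_two]
    exact hsq a ha
  have hKU : K ≤ centralizer (U : Set G) := by
    apply Helper22.le_of_hyperplane_centralizers_le 2 U K hUel hKodd hUK
    intro B hBU hB d hd
    obtain ⟨hdK, hdB⟩ := Subgroup.mem_inf.mp hd
    have hBne : B ≠ ⊥ := by
      rintro rfl
      rw [Subgroup.relIndex_bot_left, hcard] at hB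
      omega
    obtain ⟨u, hu1⟩ := (Subgroup.ne_bot_iff_exists_ne_one).mp hBne
    rw [Subgroup.mem_centralizer_iff]
    intro w hw
    have hdu : d * (u : G) = (u : G) * d :=
      ((Subgroup.mem_centralizer_iff.mp hdB) (u : G) u.2).symm
    exact key (u : G) (hBU u.2) (fun h => hu1 (Subtype.ext h)) d hdK hdu w hw
  intro w hw
  rw [Subgroup.mem_centralizer_iff]
  intro k hk
  exact ((Subgroup.mem_centralizer_iff.mp (hKU hk)) w hw).symm

end FourGroup

end Cfsg.Agent.Helper33
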