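-- helper33 library: piece E of the S5835 call: over the field with three elements, an orthogonal
-- decomposition into three non-degenerate 3-spaces refines canonically to an orthogonal frame of
-- nine lines, and the stabiliser of the decomposition in the isometry group stabilises the frame.
import Cfsg.Agent.Helper97.OStd
import Cfsg.Agent.Helper61.Orth3
import Cfsg.Agent.Helper61.SymSim

set_option autoImplicit false
set_option linter.unusedSectionVars false
open Cfsg Cfsg.Geo Matrix

namespace Cfsg.Agent.Helper33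

open Cfsg.Agent.Helper97

variable {F : Type*} [Field F] {κ : Type} [Fintype κ] [DecidableEq κ]

/-! ### Bilinear expansions -/

theorem bil_sum_left {f : (κ → F) → (κ → F) → F} (hf : IsBilinearForm f) {ι : Type*}
    (s : Finset ι) (c : ι → F) (x : ι → (κ → F)) (v : κ → F) :
    f (∑ i ∈ s, c i • x i) v = ∑ i ∈ s, c i * f (x i) v := by
  classical
  induction s using Finset.induction_on with
  | empty =>
    have h := hf.smul_left 0 0 v
    simpa using h
  | insert a s ha ih => rw [Finset.sum_insert ha, Finset.sum_insert ha, hf.add_left, hf.smul_left, ih]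

theorem bil_sum_right {f : (κ → F) → (κ → F) → F} (hf : IsBilinearForm f) {ι : Type*}
    (s : Finset ι) (c : ι → F) (x : ι → (κ → F)) (v : κ → F) :
    f v (∑ i ∈ s, c i • x i) = ∑ i ∈ s, c i * f v (x i) := by
  classical
  induction s using Finset.induction_on with
  | empty =>
    have h := hf.smul_right 0 v 0
    simpa using h
  | insert a s ha ih =>
    rw [Finset.sum_insert ha, Finset.sum_insert ha, hf.add_right, hf.smul_right, ih]

/-- Pairing with a member of an orthogonal family picks out one coefficient. -/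
theorem bil_sum_orth {f : (κ → F) → (κ → F) → F} (hf : IsBilinearForm f) {ι : Type*}
    [Fintype ι] [DecidableEq ι] (u : ι → (κ → F)) (μ : F)
    (hu : ∀ k l, f (u k) (u l) = if k = l then μ else 0) (c : ι → F) (l : ι) :
    f (∑ k, c k • u k) (u l) = c l * μ := by
  rw [bil_sum_left hf, Finset.sum_eq_single l]
  · rw [hu, if_pos rfl]
  · intro k _ hk
    rw [hu, if_neg hk, mul_zero]
  · intro h
    exact absurd (Finset.mem_univ l) h

/-- The value of the form on a combination of an orthogonal family. -/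
theorem bil_sum_self {f : (κ → F) → (κ → F) → F} (hf : IsBilinearForm f) {ι : Type*}
    [Fintype ι] [DecidableEq ι] (u : ι → (κ → F)) (μ : F)
    (hu : ∀ k l, f (u k) (u l) = if k = l then μ else 0) (c d : ι → F) :
    f (∑ k, c k • u k) (∑ k, d k • u k) = μ * ∑ k, c k * d k := by
  rw [bil_sum_right hf, Finset.mul_sum]
  apply Finset.sum_congr rfl
  intro l _
  rw [bil_sum_orth hf u μ hu]
  ring

/-- An orthogonal family with non-zero norms is linearly independent. -/
theorem orth_linearIndependent {f : (κ → F) → (κ → F) → F} (hf : IsBilinearForm f) {ι : Type*}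
    [Fintype ι] [DecidableEq ι] (u : ι → (κ → F)) (μ : F) (hμ : μ ≠ 0)
    (hu : ∀ k l, f (u k) (u l) = if k = l then μ else 0) : LinearIndependent F u := by
  rw [Fintype.linearIndependent_iff]
  intro c hc l
  have h1 := bil_sum_orth hf u μ hu c l
  rw [hc] at h1
  have h2 : f 0 (u l) = 0 := by
    have h := hf.smul_left 0 0 (u l)
    simpa using h
  rw [h2] at h1
  rcases mul_eq_zero.mp h1.symm with h3 | h3
  · exact h3
  · exact absurd h3 hμ

/-! ### An orthogonal frame of a non-degenerate 3-space -/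

/-- A non-degenerate 3-space for the polar form of a quadratic form over a finite field of odd
characteristic has an orthogonal basis of vectors of equal non-zero norm. -/
theorem exists_block_frame [Fintype F] (Q : (κ → F) → F) (hQ : Gen.IsOQ Q)
    (W : Submodule F (κ → F)) (hW3 : Module.finrank F W = 3)
    (hnd : IsNondegenerateOn (QuadraticMap.polar Q) W) :
    ∃ (w : Fin 3 → (κ → F)) (μ : F), μ ≠ 0 ∧ (∀ a, w a ∈ W) ∧
      (∀ a b, QuadraticMap.polar Q (w a) (w b) = if a = b then μ else 0) := by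
  classical
  have hf := hQ.bil
  obtain ⟨v⟩ : Nonempty (Module.Basis (Fin 3) F W) := ⟨Module.finBasisOfFinrankEq F W hW3⟩
  obtain ⟨B, hBdef⟩ : ∃ B : Matrix (Fin 3) (Fin 3) F,
      B = Matrix.of fun a b => QuadraticMap.polar Q (v a : κ → F) (v b : κ → F) := ⟨_, rfl⟩
  have hBapp : ∀ a b, B a b = QuadraticMap.polar Q (v a : κ → F) (v b : κ → F) := by
    intro a b
    rw [hBdef]
    rfl
  have hB : Bᵀ = B := by
    ext a b
    rw [Matrix.transpose_apply, hBapp, hBapp, hQ.symm]
  have hdet : B.det ≠ 0 := by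
    intro h0
    obtain ⟨c, hc0, hc⟩ := Matrix.exists_mulVec_eq_zero_iff.mpr h0
    obtain ⟨y, hy⟩ : ∃ y : W, y = ∑ b, c b • v b := ⟨_, rfl⟩
    have hy0 : (y : κ → F) ≠ 0 := by
      intro h
      have h1 : y = 0 := Subtype.ext h
      rw [hy] at h1
      have h2 := Fintype.linearIndependent_iff.mp v.linearIndependent c h1
      exact hc0 (funext h2)
    have hyval : (y : κ → F) = ∑ b, c b • (v b : κ → F) := by
      rw [hy]
      simp
    obtain ⟨⟨x, hxW, hx⟩, -⟩ := hnd y y.2 hy0
    apply hx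
    obtain ⟨d, hxrepr⟩ : ∃ d : Fin 3 → F, x = ∑ a, d a • (v a : κ → F) := by
      refine ⟨fun a => v.repr ⟨x, hxW⟩ a, ?_⟩
      have h1 := v.sum_repr ⟨x, hxW⟩
      have h2 := congrArg (fun z : W => (z : κ → F)) h1
      simp only [Submodule.coe_sum, Submodule.coe_smul] at h2
      exact h2.symm
    rw [hxrepr, bil_sum_left hf]
    apply Finset.sum_eq_zero
    intro a _
    rw [hyval, bil_sum_right hf]
    have h3 := congrFun hc a
    rw [Matrix.mulVec, dotProduct, Pi.zero_apply] at h3
    have h4 : ∑ b, c b * QuadraticMap.polar Q (v a : κ → F) (v b : κ → F) = 0 := by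
      rw [← h3]
      apply Finset.sum_congr rfl
      intro b _
      rw [hBapp]
      ring
    rw [h4, mul_zero]
  obtain ⟨A, μ, -, hμ, hA⟩ := Cfsg.Agent.Helper61.sym_similar_one hQ.two_ne (by decide : Odd 3)
    B hB hdet
  refine ⟨fun a => ∑ b, A b a • (v b : κ → F), μ, hμ, ?_, ?_⟩
  · intro a
    exact Submodule.sum_mem _ (fun b _ => Submodule.smul_mem _ _ (v b).2)
  · intro a c
    have h1 := congrFun (congrFun hA a) c
    rw [Matrix.smul_apply, Matrix.one_apply, smul_eq_mul, mul_ite, mul_one, mul_zero] at h1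
    rw [← h1, bil_sum_left hf, Matrix.mul_apply]
    simp only [Matrix.mul_apply, Matrix.transpose_apply, Finset.sum_mul]
    rw [Finset.sum_comm]
    apply Finset.sum_congr rfl
    intro b _
    rw [bil_sum_right hf, Finset.mul_sum]
    apply Finset.sum_congr rfl
    intro d _
    rw [hBapp]
    ring

/-- Coordinates in an orthogonal frame of a 3-space. -/
theorem block_coords {f : (κ → F) → (κ → F) → F} (hf : IsBilinearForm f)
    (W : Submodule F (κ → F)) (hW3 : Module.finrank F W = 3) (w : Fin 3 → (κ → F)) (μ : F)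
    (hμ : μ ≠ 0) (hw : ∀ a, w a ∈ W) (hww : ∀ a b, f (w a) (w b) = if a = b then μ else 0)
    (x : κ → F) (hx : x ∈ W) : ∃ c : Fin 3 → F, x = ∑ a, c a • w a := by
  classical
  obtain ⟨w', hw'⟩ : ∃ w' : Fin 3 → W, ∀ a, (w' a : κ → F) = w a :=
    ⟨fun a => ⟨w a, hw a⟩, fun a => rfl⟩
  have hli : LinearIndependent F w' := by
    have h1 := orth_linearIndependent hf w μ hμ hww
    rw [Fintype.linearIndependent_iff] at h1 ⊢
    intro c hc
    apply h1 c
    have h2 := congrArg (fun z : W => (z : κ → F)) hc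
    simp only [Submodule.coe_sum, Submodule.coe_smul, hw', ZeroMemClass.coe_zero] at h2
    exact h2
  have hspan : Submodule.span F (Set.range w') = ⊤ :=
    hli.span_eq_top_of_card_eq_finrank' (by rw [Fintype.card_fin, hW3])
  have hmem : (⟨x, hx⟩ : W) ∈ Submodule.span F (Set.range w') := by
    rw [hspan]
    exact Submodule.mem_top
  obtain ⟨c, hc⟩ := (Submodule.mem_span_range_iff_exists_fun F).mp hmem
  refine ⟨c, ?_⟩
  have h2 := congrArg (fun z : W => (z : κ → F)) hc
  simp only [Submodule.coe_sum, Submodule.coe_smul, hw'] at h2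
  exact h2.symm

/-- Over the field with three elements, the vectors of a non-degenerate 3-space whose value under
the quadratic form is the common value of an orthogonal frame are the frame vectors up to sign. -/
theorem block_value [Fintype F] (hF : Fintype.card F = 3) (Q : (κ → F) → F) (hQ : Gen.IsOQ Q)
    (W : Submodule F (κ → F)) (hW3 : Module.finrank F W = 3) (w : Fin 3 → (κ → F)) (ε : F)
    (hε : ε ≠ 0) (hw : ∀ a, w a ∈ W)
    (hww : ∀ a b, QuadraticMap.polar Q (w a) (w b) = if a = b then 2 * ε else 0)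
    (x : κ → F) (hx : x ∈ W) (hQx : Q x = ε) : ∃ a, x = w a ∨ x = - w a := by
  classical
  have h2 := hQ.two_ne
  have h3 := Cfsg.Agent.Helper61.orth3_three_eq_zero hF
  have hμ : 2 * ε ≠ 0 := mul_ne_zero h2 hε
  obtain ⟨c, hc⟩ := block_coords hQ.bil W hW3 w (2 * ε) hμ hw hww x hx
  have h1 := bil_sum_self hQ.bil w (2 * ε) hww c c
  rw [← hc, hQ.self, hQx, Fin.sum_univ_three] at h1
  have hsum : c 0 * c 0 + c 1 * c 1 + c 2 * c 2 = 1 := by
    have h4 : (2 * ε) * (c 0 * c 0 + c 1 * c 1 + c 2 * c 2) = (2 * ε) * 1 := by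
      rw [mul_one]
      exact h1.symm
    exact mul_left_cancel₀ hμ h4
  have hpm : ∀ t : F, t ≠ 0 → ∀ y : κ → F, x = t • y → x = y ∨ x = - y := by
    intro t ht y hy
    rcases Cfsg.Agent.Helper61.orth3_cases hF t with h | h | h
    · exact absurd h ht
    · left
      rw [hy, h, one_smul]
    · right
      rw [hy, h, neg_smul, one_smul]
  rw [Fin.sum_univ_three] at hc
  rcases Cfsg.Agent.Helper61.orth3_col h3 _ _ _ (Cfsg.Agent.Helper61.orth3_cases hF _)
    (Cfsg.Agent.Helper61.orth3_cases hF _) (Cfsg.Agent.Helper61.orth3_cases hF _) hsum with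
    ⟨ha, hb, hc'⟩ | ⟨ha, hb, hc'⟩ | ⟨ha, hb, hc'⟩
  · rw [hb, hc', zero_smul, zero_smul, add_zero, add_zero] at hc
    exact ⟨0, hpm _ ha _ hc⟩
  · rw [ha, hc', zero_smul, zero_smul, add_zero, zero_add] at hc
    exact ⟨1, hpm _ hb _ hc⟩
  · rw [ha, hb, zero_smul, zero_smul, zero_add, zero_add] at hc
    exact ⟨2, hpm _ hc' _ hc⟩

/-- Over the field with three elements, orthogonal frames of isometric non-degenerate 3-spaces
have the same norm. -/
theorem block_mu_eq [Fintype F] (hF : Fintype.card F = 3) (Q : (κ → F) → F) (hQ : Gen.IsOQ Q)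
    (W W' : Submodule F (κ → F)) (hW'3 : Module.finrank F W' = 3)
    (hiso : AreIsometricFor Q W W') (w w' : Fin 3 → (κ → F)) (μ μ' : F) (hμ : μ ≠ 0)
    (hμ' : μ' ≠ 0) (hw : ∀ a, w a ∈ W) (hw' : ∀ a, w' a ∈ W')
    (hww : ∀ a b, QuadraticMap.polar Q (w a) (w b) = if a = b then μ else 0)
    (hww' : ∀ a b, QuadraticMap.polar Q (w' a) (w' b) = if a = b then μ' else 0) : μ = μ' := by
  classical
  obtain ⟨e, he⟩ := hiso
  have hpol : ∀ x y : W, QuadraticMap.polar Q ((e x : W') : κ → F) ((e y : W') : κ → F)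
      = QuadraticMap.polar Q (x : κ → F) (y : κ → F) := by
    intro x y
    have h1 : ((e x : W') : κ → F) + ((e y : W') : κ → F) = ((e (x + y) : W') : κ → F) := by
      rw [map_add]
      rfl
    simp only [QuadraticMap.polar]
    rw [he x, he y, h1, he]
    rfl
  have hco : ∀ a, ∃ c : Fin 3 → F, ((e ⟨w a, hw a⟩ : W') : κ → F) = ∑ b, c b • w' b :=
    fun a => block_coords hQ.bil W' hW'3 w' μ' hμ' hw' hww' _ (e ⟨w a, hw a⟩).2
  choose G hG using hco
  have hgram : ∀ a c, (if a = c then μ else 0) = μ' * ∑ b, G a b * G c b := by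
    intro a c
    rw [← hww a c, ← hpol ⟨w a, hw a⟩ ⟨w c, hw c⟩, hG a, hG c, bil_sum_self hQ.bil w' μ' hww']
  obtain ⟨g, hg⟩ : ∃ g : Matrix (Fin 3) (Fin 3) F, ∀ b a, g b a = G a b :=
    ⟨Matrix.of fun b a => G a b, fun b a => rfl⟩
  have hgg : gᵀ * g = (μ / μ') • (1 : Matrix (Fin 3) (Fin 3) F) := by
    ext a c
    rw [Matrix.mul_apply, Matrix.smul_apply, Matrix.one_apply, smul_eq_mul]
    simp only [Matrix.transpose_apply, hg]
    have h := hgram a c
    by_cases hac : a = c
    · rw [if_pos hac] at h ⊢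
      rw [mul_one, h]
      field_simp
    · rw [if_neg hac] at h ⊢
      rw [mul_zero]
      exact (mul_eq_zero.mp h.symm).resolve_left hμ'
  have h1 := (Cfsg.Agent.Helper61.orth3_monomial hF g (μ / μ') (div_ne_zero hμ hμ') hgg).1
  exact (div_eq_one_iff_eq hμ').mp h1

/-- The canonical frame of an orthogonal decomposition into three non-degenerate 3-spaces over the
field with three elements. -/
theorem exists_frame [Fintype F] (hF : Fintype.card F = 3) (Q : (κ → F) → F) (hQ : Gen.IsOQ Q)
    (D : Fin 3 → Submodule F (κ → F)) (hD : IsOrthogonalMDecomposition Q 3 D) :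
    ∃ (w : Fin 3 → Fin 3 → (κ → F)) (ε : F), ε ≠ 0 ∧ (∀ i a, w i a ∈ D i) ∧
      (∀ i a b, QuadraticMap.polar Q (w i a) (w i b) = if a = b then 2 * ε else 0) := by
  classical
  have hfr := fun i => exists_block_frame Q hQ (D i) (hD.decomp.decomp.finrank_eq i)
    (hD.decomp.nondegenerate i)
  choose w μ hμ hw hww using hfr
  have hμeq : ∀ i, μ i = μ 0 := fun i =>
    block_mu_eq hF Q hQ (D i) (D 0) (hD.decomp.decomp.finrank_eq 0) (hD.isometric i 0) (w i) (w 0)
      (μ i) (μ 0) (hμ i) (hμ 0) (hw i) (hw 0) (hww i) (hww 0)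
  refine ⟨w, μ 0 / 2, div_ne_zero (hμ 0) hQ.two_ne, hw, ?_⟩
  intro i a b
  rw [hww i a b, hμeq i, mul_div_cancel₀ _ hQ.two_ne]

/-- **Piece E of the S5835 call.** -/
theorem frame_refine {F : Type*} [Field F] [Fintype F] (hF : Fintype.card F = 3)
    {κ : Type} [Fintype κ] [DecidableEq κ] (Q : (κ → F) → F)
    (hQ : Cfsg.Agent.Helper97.Gen.IsOQ Q) (D : Fin 3 → Submodule F (κ → F))
    (hD : IsOrthogonalMDecomposition Q 3 D) :
    ∃ D' : Fin 9 → Submodule F (κ → F), IsOrthogonalMDecomposition Q 1 D' ∧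
      decompositionStabilizer D ⊓ isometryGroup F Q ≤ decompositionStabilizer D' := by
  classical
  have hf := hQ.bil
  have h2 := hQ.two_ne
  obtain ⟨w, ε, hε, hw, hww⟩ := exists_frame hF Q hQ D hD
  have hμ : 2 * ε ≠ 0 := mul_ne_zero h2 hε
  have hQw : ∀ i a, Q (w i a) = ε := by
    intro i a
    have h1 := hww i a a
    rw [if_pos rfl, hQ.self] at h1
    exact mul_left_cancel₀ h2 h1
  obtain ⟨e9, -⟩ : ∃ e9 : Fin 3 × Fin 3 ≃ Fin 9, True := ⟨finProdFinEquiv, trivial⟩
  obtain ⟨u, hu⟩ : ∃ u : Fin 9 → (κ → F), ∀ i a, u (e9 (i, a)) = w i a :=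
    ⟨fun k => w (e9.symm k).1 (e9.symm k).2, fun i a => by simp⟩
  have huu : ∀ k l, QuadraticMap.polar Q (u k) (u l) = if k = l then 2 * ε else 0 := by
    intro k l
    obtain ⟨⟨i, a⟩, rfl⟩ := e9.surjective k
    obtain ⟨⟨j, b⟩, rfl⟩ := e9.surjective l
    rw [hu, hu]
    by_cases hij : i = j
    · subst hij
      rw [hww]
      by_cases hab : a = b
      · subst hab
        rw [if_pos rfl, if_pos rfl]
      · rw [if_neg hab, if_neg]
        intro h
        exact hab (congrArg Prod.snd (e9.injective h))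
    · rw [if_neg]
      · exact hD.decomp.orthogonal i j hij _ (hw i a) _ (hw j b)
      · intro h
        exact hij (congrArg Prod.fst (e9.injective h))
  have hli : LinearIndependent F u := orth_linearIndependent hf u (2 * ε) hμ huu
  have hu0 : ∀ k, u k ≠ 0 := fun k => hli.ne_zero k
  have hκ : Fintype.card κ = 9 := by
    have : Fact (Fintype.card κ = Fintype.card κ) := ⟨rfl⟩
    have h := Gen.isMDecomposition_card (n := Fintype.card κ) D hD.decomp.decomp
    omega
  have hspan : Submodule.span F (Set.range u) = ⊤ :=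
    hli.span_eq_top_of_card_eq_finrank'
      (by rw [Fintype.card_fin, Module.finrank_fintype_fun_eq_card, hκ])
  have hQu : ∀ k, Q (u k) = ε := by
    intro k
    obtain ⟨⟨i, a⟩, rfl⟩ := e9.surjective k
    rw [hu]
    exact hQw i a
  refine ⟨fun k => Submodule.span F {u k}, ⟨⟨⟨by norm_num, by norm_num,
    fun k => finrank_span_singleton (hu0 k), hli.iSupIndep_span_singleton, ?_⟩, ?_, ?_⟩, ?_⟩, ?_⟩
  · rw [← Submodule.span_range_eq_iSup]
    exact hspan
  · intro k x hx hx0
    obtain ⟨c, rfl⟩ := Submodule.mem_span_singleton.mp hx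
    have hc : c ≠ 0 := by
      rintro rfl
      exact hx0 (zero_smul _ _)
    refine ⟨⟨u k, Submodule.mem_span_singleton_self _, ?_⟩,
      ⟨u k, Submodule.mem_span_singleton_self _, ?_⟩⟩
    · rw [hf.smul_right, huu, if_pos rfl]
      exact mul_ne_zero hc hμ
    · rw [hf.smul_left, huu, if_pos rfl]
      exact mul_ne_zero hc hμ
  · intro k l hkl x hx y hy
    obtain ⟨c, rfl⟩ := Submodule.mem_span_singleton.mp hx
    obtain ⟨d, rfl⟩ := Submodule.mem_span_singleton.mp hy
    rw [hf.smul_left, hf.smul_right, huu, if_neg hkl, mul_zero, mul_zero]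
  · intro k l
    refine ⟨(LinearEquiv.toSpanNonzeroSingleton F (κ → F) (u k) (hu0 k)).symm.trans
      (LinearEquiv.toSpanNonzeroSingleton F (κ → F) (u l) (hu0 l)), ?_⟩
    intro x
    obtain ⟨c, hc⟩ : ∃ c : F,
        (LinearEquiv.toSpanNonzeroSingleton F (κ → F) (u k) (hu0 k)) c = x :=
      ⟨_, LinearEquiv.apply_symm_apply _ x⟩
    rw [← hc, LinearEquiv.trans_apply, LinearEquiv.symm_apply_apply,
      LinearEquiv.toSpanNonzeroSingleton_apply, LinearEquiv.toSpanNonzeroSingleton_apply]
    show Q (c • u l) = Q (c • u k)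
    rw [hQ.smul, hQ.smul, hQu, hQu]
  · intro g hg
    obtain ⟨⟨σ, hσ⟩, hgQ⟩ := Subgroup.mem_inf.mp hg
    have hgQ' := (Gen.mem_isometryGroup_iff Q g).mp hgQ
    have himg : ∀ k, ∃ l, (g : Matrix κ κ F) *ᵥ u k = u l ∨
        (g : Matrix κ κ F) *ᵥ u k = - u l := by
      intro k
      obtain ⟨⟨i, a⟩, rfl⟩ := e9.surjective k
      have h1 : (g : Matrix κ κ F) *ᵥ u (e9 (i, a)) ∈ D (σ i) := by
        rw [← hσ i, hu]
        exact ⟨w i a, hw i a, by rw [Matrix.toLin'_apply]⟩
      have h2' : Q ((g : Matrix κ κ F) *ᵥ u (e9 (i, a))) = ε := by rw [hgQ', hQu]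
      obtain ⟨b, hb⟩ := block_value hF Q hQ (D (σ i)) (hD.decomp.decomp.finrank_eq _) (w (σ i)) ε
        hε (hw (σ i)) (hww (σ i)) _ h1 h2'
      refine ⟨e9 (σ i, b), ?_⟩
      rw [hu (σ i) b]
      exact hb
    choose τ hτ using himg
    have hτinj : Function.Injective τ := by
      intro k k' hkk
      by_contra hne
      have h1 := hτ k
      have h2' := hτ k'
      rw [hkk] at h1
      have h3 : ∃ s : F, s ≠ 0 ∧
          (g : Matrix κ κ F) *ᵥ u k = s • ((g : Matrix κ κ F) *ᵥ u k') := by
        rcases h1 with h1 | h1 <;> rcases h2' with h2' | h2'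
        · exact ⟨1, one_ne_zero, by rw [one_smul, h1, h2']⟩
        · exact ⟨-1, neg_ne_zero.mpr one_ne_zero, by rw [h1, h2', neg_smul, one_smul, neg_neg]⟩
        · exact ⟨-1, neg_ne_zero.mpr one_ne_zero, by rw [h1, h2', neg_smul, one_smul]⟩
        · exact ⟨1, one_ne_zero, by rw [one_smul, h1, h2']⟩
      obtain ⟨s, hs, h4⟩ := h3
      rw [← Matrix.mulVec_smul] at h4
      have h5 : u k = s • u k' := Gen.mulVec_injective g h4
      have h6 := huu k k'
      rw [if_neg hne, h5, hf.smul_left, huu, if_pos rfl] at h6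
      exact mul_ne_zero hs hμ h6
    refine ⟨Equiv.ofBijective τ (Finite.injective_iff_bijective.mp hτinj), fun k => ?_⟩
    rw [Equiv.ofBijective_apply, Submodule.map_span, Set.image_singleton, Matrix.toLin'_apply]
    rcases hτ k with h | h
    · rw [h]
    · rw [h, ← neg_one_smul F (u (τ k))]
      exact Submodule.span_singleton_smul_eq (IsUnit.neg isUnit_one) _

end Cfsg.Agent.Helper33
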