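-- helper33 library: consequences of Hall–Higman's Theorem B (linear form, helper32) for
-- quadratically acting elements.  Add-only once landed.
import Cfsg.Agent.Helper32.HHMain

set_option autoImplicit false

namespace Cfsg.Agent.Helper33.HHQ

open Module TensorProduct

universe u v

section Quad

variable {F : Type u} [Field F] {V : Type v} [AddCommGroup V] [Module F V]

/-- Base change of invertible endomorphisms to the algebraic closure. -/
noncomputable def bcU (F : Type u) [Field F] (V : Type v) [AddCommGroup V] [Module F V] :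
    (Module.End F V)ˣ →* (Module.End (AlgebraicClosure F) (AlgebraicClosure F ⊗[F] V))ˣ :=
  Units.map (Module.End.baseChangeHom F (AlgebraicClosure F) V).toMonoidHom

theorem bcU_val (g : (Module.End F V)ˣ) :
    ((bcU F V g : (Module.End (AlgebraicClosure F) (AlgebraicClosure F ⊗[F] V))ˣ) :
      Module.End (AlgebraicClosure F) (AlgebraicClosure F ⊗[F] V)) =
      Module.End.baseChangeHom F (AlgebraicClosure F) V (g : Module.End F V) := rfl

theorem bcU_injective : Function.Injective (bcU F V) := by
  intro g h hgh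
  have h1 := congrArg (fun w : (Module.End (AlgebraicClosure F) (AlgebraicClosure F ⊗[F] V))ˣ =>
    (w : Module.End (AlgebraicClosure F) (AlgebraicClosure F ⊗[F] V))) hgh
  simp only [bcU_val] at h1
  exact Units.ext (LinearMap.baseChangeHom_injective (R := F) (S := AlgebraicClosure F)
    (M := V) (N := V) h1)

/-- An endomorphism `x` with `(x - 1) ^ 2 = 0` in characteristic `p` satisfies `x ^ p = 1`. -/
theorem pow_char_eq_one_of_quad {p : ℕ} [hp : Fact p.Prime] [CharP F p] (x : Module.End F V)
    (hx : (x - 1) ^ 2 = 0) : x ^ p = 1 := by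
  have h1 : ((Polynomial.X : Polynomial F) - 1) ^ p = Polynomial.X ^ p - 1 := by
    rw [sub_pow_char, one_pow]
  have h2 := congrArg (Polynomial.aeval x) h1
  simp only [map_pow, map_sub, Polynomial.aeval_X, map_one] at h2
  have h3 : (x - 1) ^ p = 0 := by
    have : p = 2 + (p - 2) := by have := hp.out.two_le; omega
    rw [this, pow_add, hx, zero_mul]
  rw [h3] at h2
  exact (sub_eq_zero.mp h2.symm)

variable [FiniteDimensional F V]

/-- **Quadratic elements and `p'`-groups.**  In characteristic `p` (odd), an invertible map `x`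
with `(x - 1) ^ 2 = 0` centralizes every finite `q`-group (`q ≠ p`) of invertible maps which it
normalizes, unless `p = 3`, `q = 2` and the `q`-group is not abelian. -/
theorem quad_centralizes {p q : ℕ} [hpF : Fact p.Prime] [hqF : Fact q.Prime] [CharP F p]
    (hp2 : p ≠ 2) (hpq : p ≠ q) (Q : Subgroup (Module.End F V)ˣ) [Finite Q] (hQ : IsPGroup q Q)
    (x : (Module.End F V)ˣ) (hx : ((x : Module.End F V) - 1) ^ 2 = 0)
    (hnorm : ∀ g ∈ Q, x * g * x⁻¹ ∈ Q)
    (hex : ¬ (p = 3 ∧ q = 2 ∧ ∃ a ∈ Q, ∃ b ∈ Q, a * b ≠ b * a)) :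
    ∀ g ∈ Q, x * g * x⁻¹ = g := by
  classical
  have hp : p.Prime := hpF.out
  have hq : q.Prime := hqF.out
  by_contra hcon
  push Not at hcon
  obtain ⟨g, hgQ, hg⟩ := hcon
  have hxp : x ^ p = 1 := by
    apply Units.ext
    rw [Units.val_pow_eq_pow_val, Units.val_one]
    exact pow_char_eq_one_of_quad (x : Module.End F V) hx
  haveI : Finite ↥(Q.map (bcU F V)) := Finite.of_surjective
    (fun a : ↥Q => (⟨bcU F V a, Subgroup.mem_map_of_mem (bcU F V) a.2⟩ : ↥(Q.map (bcU F V)))) (by
      rintro ⟨_, a, ha, rfl⟩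
      exact ⟨⟨a, ha⟩, rfl⟩)
  have hs' : (((bcU F V x : (Module.End (AlgebraicClosure F) (AlgebraicClosure F ⊗[F] V))ˣ) :
      Module.End (AlgebraicClosure F) (AlgebraicClosure F ⊗[F] V)) - 1) ^ 2 = 0 := by
    rw [bcU_val]
    have e1 := congrArg (Module.End.baseChangeHom F (AlgebraicClosure F) V) hx
    rw [map_pow, map_sub, map_one, map_zero] at e1
    exact e1
  have hres := Cfsg.Agent.Helper32.HH.hh_linear (K := AlgebraicClosure F) hpq (Q.map (bcU F V))
    (hQ.map (bcU F V)) (bcU F V x) 1 le_rfl
    (by rw [pow_one, ← map_pow, hxp, map_one])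
    (by
      rintro _ ⟨a, ha, rfl⟩
      rw [← map_inv, ← map_mul, ← map_mul]
      exact Subgroup.mem_map_of_mem (bcU F V) (hnorm a ha))
    (by
      refine ⟨bcU F V g, Subgroup.mem_map_of_mem (bcU F V) hgQ, ?_⟩
      rw [Nat.sub_self, pow_zero, pow_one, ← map_inv, ← map_mul, ← map_mul]
      intro h
      exact hg (bcU_injective h))
    2 hs'
  rcases hres with h | ⟨n₀, m, h1, h2, h3, h4, h5, h6⟩
  · rw [pow_one] at h
    have := hp.two_le
    omega
  · have hn₀ : n₀ = 1 := le_antisymm h2 h1
    subst hn₀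
    rw [Nat.sub_self, pow_zero, one_mul, pow_one] at h6
    rw [pow_one] at h4
    have hp3 : p = 3 := by have := hp.two_le; omega
    subst hp3
    have hq2 : q = 2 := by
      have h7 : q ∣ 2 := by
        have : q ∣ q ^ m := dvd_pow_self q (by omega)
        rw [← h4] at this
        exact this
      exact (Nat.prime_dvd_prime_iff_eq hq Nat.prime_two).mp h7
    apply hex
    refine ⟨rfl, hq2, ?_⟩
    obtain ⟨a', ha', b', hb', hab'⟩ := h5
    obtain ⟨a, haQ, rfl⟩ := ha'
    obtain ⟨b, hbQ, rfl⟩ := hb'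
    refine ⟨a, haQ, b, hbQ, ?_⟩
    intro h
    apply hab'
    rw [← map_mul, ← map_mul, h]

end Quad

end Cfsg.Agent.Helper33.HHQ
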