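import Mathlib
import Cfsg.Agent.Helper90.HTDefs

set_option autoImplicit false
set_option linter.unusedSectionVars false
set_option linter.unusedVariables false

namespace Cfsg.Agent.Helper33.HT5953

open Module Polynomial Cfsg.Agent.Helper90.HT

/-- ARC (pure arithmetic) -/
theorem arith_c_u (b n m s e u : ℕ) (hb0 : 0 < b) (hbm : b ≤ m) (hu : u = min (n / b) s)
    (hdim : n = b * u + e) (hme : 2 * m ≤ e) : s + 2 * (m / b) ≤ n / b := by
  have hmb : b * (m / b) ≤ m := Nat.mul_div_le m b
  rcases le_total (n / b) s with hle | hle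
  · rw [min_eq_left hle] at hu
    have h1 : b * (n / b) + n % b = n := Nat.div_add_mod n b
    have h2 : n % b < b := Nat.mod_lt n hb0
    subst hu
    omega
  · rw [min_eq_right hle] at hu
    subst hu
    rw [Nat.le_div_iff_mul_le hb0]
    have : (u + 2 * (m / b)) * b = b * u + 2 * (b * (m / b)) := by ring
    omega

end Cfsg.Agent.Helper33.HT5953
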