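import Mathlib
import Cfsg.Agent.Helper90.HTDefs

set_option autoImplicit false
set_option linter.unusedSectionVars false
set_option linter.unusedVariables false

namespace Cfsg.Agent.Helper33.HT5953

open Module Polynomial Cfsg.Agent.Helper90.HT

/-- B1A (pure arithmetic) -/
theorem b1_arith_u (r i b c n m e u b₀ : ℕ) (hr2 : 2 < r) (hb0 : 0 < b) (hbr : b ∣ r - 1)
    (hcb : i % 4 = 2 → c = b) (hcb' : i % 4 ≠ 2 → c = 2 * b) (hdim : n = e + b * u)
    (ho : i % 4 ≠ 2 → u = 2 * b₀) (he : u ≤ 2 * b₀ + (r - 1) / b) (hb : 2 * b₀ ≤ u)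
    (hmn : 2 * m ≤ n) (h1 : 2 * (m % b) ≤ n % c)
    (h2 : i % 4 ≠ 2 ∨ (r - 1) / b + 2 * (m / b) ≤ n / b) :
    ∃ t m₀ : ℕ, t ≤ b₀ ∧ 2 * m₀ ≤ e ∧ m = b * t + m₀ := by
  have hm : b * (m / b) + m % b = m := Nat.div_add_mod m b
  by_cases hi : i % 4 = 2
  · have hc : c = b := hcb hi
    subst hc
    have h2' : (r - 1) / c + 2 * (m / c) ≤ n / c := by
      rcases h2 with h | h
      · exact absurd hi h
      · exact h
    have hn : c * (n / c) + n % c = n := Nat.div_add_mod n c
    by_cases hle : m / c ≤ b₀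
    · refine ⟨m / c, m % c, hle, ?_, hm.symm⟩
      have h3 : n % c = e % c := by rw [hdim, Nat.add_mul_mod_self_left]
      have h4 : e % c ≤ e := Nat.mod_le e c
      omega
    · refine ⟨b₀, m - c * b₀, le_refl _, ?_, ?_⟩
      · have e1 : c * u ≤ c * (2 * b₀ + (r - 1) / c) := Nat.mul_le_mul_left c he
        have e2 : c * ((r - 1) / c + 2 * (m / c)) ≤ c * (n / c) := Nat.mul_le_mul_left c h2'
        rw [Nat.mul_add] at e1 e2
        have e3 : c * (2 * b₀) = 2 * (c * b₀) := by ring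
        have e4 : c * (2 * (m / c)) = 2 * (c * (m / c)) := by ring
        omega
      · have h5 : c * b₀ ≤ c * (m / c) := Nat.mul_le_mul_left c (by omega)
        omega
  · have hc : c = 2 * b := hcb' hi
    have hu : u = 2 * b₀ := ho hi
    subst hu
    by_cases hle : m / b ≤ b₀
    · refine ⟨m / b, m % b, hle, ?_, hm.symm⟩
      have h3 : n % c = e % c := by
        rw [hdim, hc]
        have h6 : b * (2 * b₀) = (2 * b) * b₀ := by ring
        rw [h6, Nat.add_mul_mod_self_left]
      have h4 : e % c ≤ e := Nat.mod_le e c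
      omega
    · refine ⟨b₀, m - b * b₀, le_refl _, ?_, ?_⟩
      · have e3 : b * (2 * b₀) = 2 * (b * b₀) := by ring
        omega
      · have h5 : b * b₀ ≤ b * (m / b) := Nat.mul_le_mul_left b (by omega)
        omega

end Cfsg.Agent.Helper33.HT5953
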