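import Mathlib
import Cfsg.Agent.Helper90.HTDefs

set_option autoImplicit false
set_option linter.unusedSectionVars false
set_option linter.unusedVariables false

namespace Cfsg.Agent.Helper33.HT5953

open Module Polynomial Cfsg.Agent.Helper90.HT

section geom

variable {F : Type*} [Field F] {V : Type*} [AddCommGroup V] [Module F V] [FiniteDimensional F V]
  (σ : F →+* F) (h : V → V → F)

/-- DETINV: the determinant of an involution. -/
theorem ht_det_inv (T : Module.End F V) (h2 : (2 : F) ≠ 0) (hT2 : T ^ 2 = 1) :
    LinearMap.det T = (-1) ^ finrank F (LinearMap.ker (T + 1)) := by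
  have hTT : ∀ v, T (T v) = v := by
    intro v
    have := congrArg (fun f : Module.End F V => f v) hT2
    simpa [pow_two, Module.End.mul_apply] using this
  have hc : IsCompl (LinearMap.ker (T - 1)) (LinearMap.ker (T + 1)) := by
    constructor
    · rw [Submodule.disjoint_def]
      intro v h1 h2'
      rw [LinearMap.mem_ker] at h1 h2'
      simp only [LinearMap.sub_apply, LinearMap.add_apply, Module.End.one_apply] at h1 h2'
      have h3 : (2 : F) • v = 0 := by
        have e1 : T v = v := sub_eq_zero.mp h1
        rw [e1] at h2'
        rw [two_smul]; exact h2'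
      exact (smul_eq_zero.mp h3).resolve_left h2
    · rw [codisjoint_iff, eq_top_iff]
      intro v _
      have hv : v = (2 : F)⁻¹ • (v + T v) + (2 : F)⁻¹ • (v - T v) := by
        rw [← smul_add]
        have : v + T v + (v - T v) = (2 : F) • v := by rw [two_smul]; abel
        rw [this, smul_smul, inv_mul_cancel₀ h2, one_smul]
      rw [hv]
      apply Submodule.add_mem_sup
      · apply Submodule.smul_mem
        rw [LinearMap.mem_ker]
        simp only [LinearMap.sub_apply, Module.End.one_apply, map_add, hTT]
        abel
      · apply Submodule.smul_mem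
        rw [LinearMap.mem_ker]
        simp only [LinearMap.add_apply, Module.End.one_apply, map_sub, hTT]
        abel
  set e := Submodule.prodEquivOfIsCompl _ _ hc with he
  have hconj : T = e.toLinearMap ∘ₗ
      (LinearMap.prodMap LinearMap.id (-LinearMap.id)) ∘ₗ e.symm.toLinearMap := by
    apply LinearMap.ext
    intro v
    obtain ⟨⟨a, b⟩, rfl⟩ := e.surjective v
    simp only [LinearMap.comp_apply, LinearEquiv.coe_coe, LinearEquiv.symm_apply_apply,
      LinearMap.prodMap_apply, LinearMap.id_apply, LinearMap.neg_apply]
    rw [he, Submodule.coe_prodEquivOfIsCompl', Submodule.coe_prodEquivOfIsCompl']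
    have ha : T (a : V) = a := by
      have := a.2
      rw [LinearMap.mem_ker] at this
      simp only [LinearMap.sub_apply, Module.End.one_apply] at this
      exact sub_eq_zero.mp this
    have hb : T (b : V) = -b := by
      have := b.2
      rw [LinearMap.mem_ker] at this
      simp only [LinearMap.add_apply, Module.End.one_apply] at this
      exact eq_neg_of_add_eq_zero_left this
    rw [map_add, ha, hb]
    simp
  have hdet : LinearMap.det T = LinearMap.det
      (LinearMap.prodMap (LinearMap.id : ↥(LinearMap.ker (T - 1)) →ₗ[F] ↥(LinearMap.ker (T - 1)))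
        (-LinearMap.id : ↥(LinearMap.ker (T + 1)) →ₗ[F] ↥(LinearMap.ker (T + 1)))) := by
    conv_lhs => rw [hconj]
    exact LinearMap.det_conj _ e
  rw [hdet, LinearMap.det_prodMap, LinearMap.det_id, one_mul]
  have hneg : (-LinearMap.id : ↥(LinearMap.ker (T + 1)) →ₗ[F] ↥(LinearMap.ker (T + 1))) =
      (-1 : F) • LinearMap.id := by
    apply LinearMap.ext
    intro v
    rw [LinearMap.neg_apply, LinearMap.smul_apply, LinearMap.id_apply, neg_smul, one_smul]
  rw [hneg, LinearMap.det_smul, LinearMap.det_id, mul_one]

end geom

end Cfsg.Agent.Helper33.HT5953
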