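import Mathlib
import Cfsg.Agent.Helper90.HTDefs

set_option autoImplicit false
set_option linter.unusedSectionVars false
set_option linter.unusedVariables false

namespace Cfsg.Agent.Helper33.HT5953

open Module Polynomial Cfsg.Agent.Helper90.HT

section geom

variable {F : Type*} [Field F] {V : Type*} [AddCommGroup V] [Module F V] [FiniteDimensional F V]
  (σ : F →+* F) (h : V → V → F)

/-- a subspace of every smaller dimension -/
theorem hneg_exists_le_finrank_eq (C : Submodule F V) (c : ℕ) (hc : c ≤ Module.finrank F C) :
    ∃ C' : Submodule F V, C' ≤ C ∧ Module.finrank F C' = c := by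
  classical
  let b := Module.finBasis F C
  let v : Fin c → V := fun i => (b (Fin.castLE hc i) : V)
  have hli : LinearIndependent F v := by
    have h1 : LinearIndependent F (fun i : Fin c => b (Fin.castLE hc i)) :=
      b.linearIndependent.comp _ (Fin.castLE_injective hc)
    exact h1.map' C.subtype (Submodule.ker_subtype C)
  refine ⟨Submodule.span F (Set.range v), ?_, ?_⟩
  · rw [Submodule.span_le]
    rintro _ ⟨i, rfl⟩
    exact (b (Fin.castLE hc i)).2
  · rw [finrank_span_eq_card hli, Fintype.card_fin]

/-- inside an eigenspace for an eigenvalue of norm `-1` everything is totally isotropic -/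
theorem hneg_eigen (hh : IsHerm σ h) (T : Module.End F V) (hT : HPres h T) (h2 : (2 : F) ≠ 0)
    (c : F) (hc : c * σ c = -1) (m : ℕ)
    (hm : m ≤ finrank F (LinearMap.ker (T - c • (1 : Module.End F V)))) :
    ∃ W : Submodule F V, finrank F W = m ∧ HTI h W ∧ W.map T ≤ W := by
  obtain ⟨W, hWE, hWm⟩ := hneg_exists_le_finrank_eq _ m hm
  have hmem : ∀ w ∈ W, T w = c • w := by
    intro w hw
    have := hWE hw
    rw [LinearMap.mem_ker] at this
    simp only [LinearMap.sub_apply, LinearMap.smul_apply, Module.End.one_apply] at this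
    exact sub_eq_zero.mp this
  refine ⟨W, hWm, ?_, ?_⟩
  · intro u hu v hv
    have h1 := hT u v
    rw [hmem u hu, hmem v hv, hh.smul_left, hh.smul_right, ← mul_assoc, hc] at h1
    have h3 : (2 : F) * h u v = 0 := by linear_combination -h1
    exact (mul_eq_zero.mp h3).resolve_left h2
  · rintro _ ⟨w, hw, rfl⟩
    rw [hmem w hw]
    exact W.smul_mem c hw

/-- HNEG: `T² = y²` with `y σ(y) = -1`: the eigenspaces are totally isotropic. -/
theorem ht_neg (hh : IsHerm σ h) (T : Module.End F V) (hT : HPres h T) (h2 : (2 : F) ≠ 0) (y : F)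
    (hy : y * σ y = -1) (hT2 : T ^ 2 = (y ^ 2) • (1 : Module.End F V)) :
    ∀ m, 2 * m ≤ finrank F V → ∃ W : Submodule F V, finrank F W = m ∧ HTI h W ∧ W.map T ≤ W := by
  intro m hm
  have hy0 : y ≠ 0 := by
    intro h0
    rw [h0, zero_mul] at hy
    exact absurd hy (by simp)
  have hTT : ∀ v, T (T v) = (y ^ 2) • v := by
    intro v
    have := congrArg (fun f : Module.End F V => f v) hT2
    simpa [pow_two, Module.End.mul_apply] using this
  have hny : (-y) * σ (-y) = -1 := by
    rw [map_neg, neg_mul_neg]; exact hy
  have hsup : LinearMap.ker (T - y • (1 : Module.End F V)) ⊔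
      LinearMap.ker (T - (-y) • (1 : Module.End F V)) = ⊤ := by
    rw [eq_top_iff]
    intro v _
    have h2y : (2 * y : F) ≠ 0 := mul_ne_zero h2 hy0
    have hv : v = (2 * y)⁻¹ • (y • v + T v) + (2 * y)⁻¹ • (y • v - T v) := by
      rw [← smul_add]
      have : y • v + T v + (y • v - T v) = (2 * y) • v := by
        rw [mul_smul, two_smul]; abel
      rw [this, smul_smul, inv_mul_cancel₀ h2y, one_smul]
    rw [hv]
    apply Submodule.add_mem_sup
    · apply Submodule.smul_mem
      rw [LinearMap.mem_ker]
      have e1 : (T - y • (1 : Module.End F V)) (y • v + T v) =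
          T (y • v + T v) - y • (y • v + T v) := rfl
      rw [e1, map_add, map_smul, hTT, smul_add, smul_smul, pow_two]
      abel
    · apply Submodule.smul_mem
      rw [LinearMap.mem_ker]
      have e1 : (T - (-y) • (1 : Module.End F V)) (y • v - T v) =
          T (y • v - T v) - (-y) • (y • v - T v) := rfl
      rw [e1, map_sub, map_smul, hTT, neg_smul, smul_sub, smul_smul, pow_two]
      abel
  have hdim : finrank F V ≤ finrank F (LinearMap.ker (T - y • (1 : Module.End F V))) +
      finrank F (LinearMap.ker (T - (-y) • (1 : Module.End F V))) := by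
    have h1 := Submodule.finrank_add_le_finrank_add_finrank
      (LinearMap.ker (T - y • (1 : Module.End F V)))
      (LinearMap.ker (T - (-y) • (1 : Module.End F V)))
    rw [hsup, finrank_top] at h1
    exact h1
  by_cases hcase : m ≤ finrank F (LinearMap.ker (T - y • (1 : Module.End F V)))
  · exact hneg_eigen σ h hh T hT h2 y hy m hcase
  · exact hneg_eigen σ h hh T hT h2 (-y) hny m (by omega)

end geom

end Cfsg.Agent.Helper33.HT5953
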