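import Mathlib
import Cfsg.Agent.Helper90.HTDefs

set_option autoImplicit false
set_option linter.unusedSectionVars false
set_option linter.unusedVariables false

namespace Cfsg.Agent.Helper33.HT5953

open Module Polynomial Cfsg.Agent.Helper90.HT

section field

variable {F : Type*} [Field F] [Fintype F] (q : ℕ) (hq : Fintype.card F = q ^ 2) (σ : F →+* F)
  (hσ : ∀ a, σ a = a ^ q)

include hq hσ

/-- SQRT: a norm-one scalar is the square of a scalar of norm `1` or of norm `-1`. -/
theorem ht_sqrt (h2 : (2 : F) ≠ 0) (z : F) (hz : z * σ z = 1) :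
    (∃ w : F, w * σ w = 1 ∧ w ^ 2 = z) ∨ (∃ y : F, y * σ y = -1 ∧ y ^ 2 = z) := by
  have hchar : ringChar F ≠ 2 := by
    intro hc
    have h0 : ((ringChar F : ℕ) : F) = 0 := ringChar.Nat.cast_ringChar
    rw [hc] at h0
    exact h2 (by exact_mod_cast h0)
  have hz0 : z ≠ 0 := by
    intro h0
    rw [h0, zero_mul] at hz
    exact zero_ne_one hz
  have hqodd : Odd q := by
    by_contra hcon
    rw [Nat.not_odd_iff_even] at hcon
    have hev : Fintype.card F % 2 = 0 := by
      rw [hq]
      obtain ⟨k, hk⟩ := hcon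
      rw [hk]
      have : (k + k) ^ 2 = 2 * (2 * k * k) := by ring
      rw [this]
      exact Nat.mul_mod_right 2 _
    exact hchar ((FiniteField.even_card_iff_char_two).mpr hev)
  obtain ⟨k, hk⟩ := hqodd
  have hzq : z ^ (q + 1) = 1 := by
    rw [pow_succ, mul_comm, ← hσ]
    exact hz
  have hsq : IsSquare z := by
    rw [FiniteField.isSquare_iff hchar hz0, hq]
    have : q ^ 2 / 2 = (q + 1) * k := by
      rw [hk]
      have : (2 * k + 1) ^ 2 = 2 * ((2 * k + 1 + 1) * k) + 1 := by ring
      rw [this]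
      omega
    rw [this, pow_mul, hzq, one_pow]
  obtain ⟨y, hy⟩ := hsq
  have hyy : (y * σ y) * (y * σ y) = 1 := by
    have : (y * σ y) * (y * σ y) = (y * y) * σ (y * y) := by
      rw [map_mul]; ring
    rw [this, ← hy]
    exact hz
  rcases mul_self_eq_one_iff.mp hyy with h1 | h1
  · left
    exact ⟨y, h1, by rw [pow_two]; exact hy.symm⟩
  · right
    exact ⟨y, h1, by rw [pow_two]; exact hy.symm⟩

end field

end Cfsg.Agent.Helper33.HT5953
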