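import Cfsg.Agent.S1983
import Cfsg.Agent.S1978
import Cfsg.Agent.Helper33.WCQuad
import Cfsg.Agent.Helper33.KIso

set_option autoImplicit false

/-!
Helper33: the local hypotheses of the weak closure theorems for the lower K-infinity functor.

* `kInfLower_center_le`: `Z(P) ≤ K_∞(P)` for `p`-subgroups `P` of `G`.
* `kInfLower_quadratic_loc`: if `T` is a Sylow `p`-subgroup of `H ≤ G` and `K_∞(T)` is not normal
  in `H`, some `g ∈ T` outside `O_p(H)` satisfies `[Z(O_p(H)), g, g] = 1` (from `S1983`, applied to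
  the group `↥H`).
-/

namespace Cfsg.Agent.Helper33

open scoped commutatorElement

universe u

variable {G : Type u} [Group G] [Finite G] {p : ℕ} [Fact p.Prime]

theorem kInfLower_center_le (P : Subgroup G) (hP : IsPGroup p ↥P) :
    P ⊓ Subgroup.centralizer (P : Set G) ≤ Cfsg.inducedFunctor Cfsg.kInfLower P := by
  intro z hz
  obtain ⟨hz1, hz2⟩ := Subgroup.mem_inf.mp hz
  have h := Cfsg.Agent.S1978.result (P := ↥P) hP
  have hc : (⟨z, hz1⟩ : ↥P) ∈ Subgroup.center ↥P := by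
    rw [Subgroup.mem_center_iff]
    intro q
    apply Subtype.ext
    exact Subgroup.mem_centralizer_iff.mp hz2 (q : G) q.2
  exact ⟨⟨z, hz1⟩, h.1 (h.2.1 hc), rfl⟩

/-- `Z(O_p(H))` computed in `G` is the image of `Z(O_p(H))` computed in `↥H`. -/
theorem center_pCoreOf_eq_map (H : Subgroup G) :
    Cfsg.pCoreOf p H ⊓ Subgroup.centralizer ((Cfsg.pCoreOf p H : Subgroup G) : Set G) =
      (Cfsg.pCore p ↥H ⊓ Subgroup.centralizer ((Cfsg.pCore p ↥H : Subgroup ↥H) : Set ↥H)).map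
        H.subtype := by
  apply le_antisymm
  · intro z hz
    obtain ⟨hz1, hz2⟩ := Subgroup.mem_inf.mp hz
    obtain ⟨q, hq1, rfl⟩ := hz1
    refine ⟨q, Subgroup.mem_inf.mpr ⟨hq1, ?_⟩, rfl⟩
    apply Subgroup.mem_centralizer_iff.mpr
    intro r hr
    apply Subtype.ext
    exact Subgroup.mem_centralizer_iff.mp hz2 (r : G) ⟨r, hr, rfl⟩
  · exact map_center_pCore_le H

theorem kInfLower_quadratic_loc (H T : Subgroup G) (hTH : T ≤ H) (hTp : IsPGroup p ↥T)
    (hidx : ¬ p ∣ T.relIndex H)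
    (hn : ¬ H ≤ Subgroup.normalizer
      ((Cfsg.inducedFunctor Cfsg.kInfLower T : Subgroup G) : Set G)) :
    ∃ g : G, g ∈ T ∧ g ∉ Cfsg.pCoreOf p H ∧
      ⁅⁅Cfsg.pCoreOf p H ⊓ Subgroup.centralizer ((Cfsg.pCoreOf p H : Subgroup G) : Set G),
        Subgroup.zpowers g⁆, Subgroup.zpowers g⁆ = ⊥ := by
  have hT'p : IsPGroup p (T.subgroupOf H) := hTp.comap_subtype
  let S' : Sylow p ↥H := hT'p.toSylow hidx
  have hS'map : (S' : Subgroup ↥H).map H.subtype = T := Subgroup.map_subgroupOf_eq_of_le hTH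
  have hind : Cfsg.inducedFunctor Cfsg.kInfLower T =
      (Cfsg.inducedFunctor Cfsg.kInfLower (S' : Subgroup ↥H)).map H.subtype := by
    rw [← inducedFunctor_map_subtype (isCharPFunctor_kInfLower p) H (S' : Subgroup ↥H) S'.2,
      hS'map]
  have hnn : ¬ (Cfsg.inducedFunctor Cfsg.kInfLower (S' : Subgroup ↥H)).Normal := by
    intro hnorm
    apply hn
    intro h hh
    rw [hind]
    apply (mem_normalizer_map_subtype_iff H _ ⟨h, hh⟩).mp
    rw [Subgroup.normalizer_eq_top_iff.mpr hnorm]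
    exact Subgroup.mem_top _
  obtain ⟨g', hg'S, hg'P, -, hq, -⟩ := Cfsg.Agent.S1983.result S' (Or.inl hnn)
  refine ⟨(g' : G), Subgroup.mem_subgroupOf.mp hg'S, ?_, ?_⟩
  · rintro ⟨q, hq', hqg⟩
    have : q = g' := Subtype.ext hqg
    exact hg'P (this ▸ hq')
  · have hz : Subgroup.zpowers (g' : G) = (Subgroup.zpowers g').map H.subtype :=
      (MonoidHom.map_zpowers H.subtype g').symm
    rw [center_pCoreOf_eq_map, hz, ← Subgroup.map_commutator, ← Subgroup.map_commutator, hq,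
      Subgroup.map_bot]

end Cfsg.Agent.Helper33
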