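import Mathlib
import Cfsg.Prelude.Def_GeometricClasses
import Cfsg.Prelude.Def_Classical
import Cfsg.Agent.Helper13.NPDefs
import Cfsg.Agent.Helper96.OHDefs
import Cfsg.Agent.Helper45.Spinor
import Cfsg.Agent.Helper43.UniIso
import Cfsg.Agent.Helper96.OHEMB

set_option autoImplicit false

/-!
# CALL NP piece EMB (helper33): a nondegenerate space contains a copy of every nondegenerate space
of smaller dimension (corollary of `Cfsg.Agent.Helper96.OHEmb.oemb_main`).
-/

namespace Cfsg.Agent.Helper33.NP5989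

open Module Cfsg Cfsg.Geo Cfsg.Agent.Helper13.NP Cfsg.Agent.Helper96.OH
open Cfsg.Agent.Helper43.UniIso (UnipH kdim)
open scoped MatrixGroups

universe u

section C

variable {ι : Type} [Fintype ι] [DecidableEq ι] {F : Type*} [Field F] [Fintype F]
  (Q : (ι → F) → F)

theorem np_emb (hQ : IsNondegenerateQuadraticForm Q) (h2 : (2 : F) ≠ 0)
    (K R : Submodule F (ι → F)) (hK : ONd Q K) (hR : ONd Q R)
    (hdim : finrank F R + 1 ≤ finrank F K) :
    ∃ R' : Submodule F (ι → F), R' ≤ K ∧ AreIsometricFor Q R' R := by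
  obtain ⟨R', h1, -, -, -, h5⟩ := Cfsg.Agent.Helper96.OHEmb.oemb_main Q hQ h2 K R hK hR hdim
  exact ⟨R', h1, h5⟩

end C

end Cfsg.Agent.Helper33.NP5989
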