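import Mathlib
import Cfsg.Prelude.Def_GeometricClasses
import Cfsg.Prelude.Def_Classical
import Cfsg.Agent.Helper13.NPDefs
import Cfsg.Agent.Helper96.OHDefs
import Cfsg.Agent.Helper45.Spinor
import Cfsg.Agent.Helper43.UniIso
import Cfsg.Agent.Helper96.OHEMB
import Cfsg.Agent.Helper31.OHOPERP

set_option autoImplicit false

/-!
# CALL NP piece EMB2 (helper33): complete a nondegenerate `U` to a copy of `W₀` inside `U ⟂ K`.
-/

namespace Cfsg.Agent.Helper33.NP5989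

open Module Cfsg Cfsg.Geo Cfsg.Agent.Helper13.NP Cfsg.Agent.Helper96.OH
open Cfsg.Agent.Helper43.UniIso (UnipH kdim)
open scoped MatrixGroups

universe u

section C

variable {ι : Type} [Fintype ι] [DecidableEq ι] {F : Type*} [Field F] [Fintype F]
  (Q : (ι → F) → F)

theorem np_emb_two (hQ : IsNondegenerateQuadraticForm Q) (h2 : (2 : F) ≠ 0)
    (U K W₀ : Submodule F (ι → F)) (hU : ONd Q U) (hK : ONd Q K) (hW₀ : ONd Q W₀)
    (horth : OOrth Q U K) (hlt : finrank F U < finrank F W₀)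
    (hdim : finrank F W₀ - finrank F U + 1 ≤ finrank F K) :
    ∃ W' : Submodule F (ι → F), W' ≤ K ∧ AreIsometricFor Q (U ⊔ W') W₀ := by
  obtain ⟨U'', hU''W, hU''nd, hU''dim, hiso1, -⟩ :=
    Cfsg.Agent.Helper96.OHEmb.oemb_main Q hQ h2 W₀ U hW₀ hU (by omega)
  obtain ⟨P, hPW, -, hPnd, -, hsup, hUP, hPdim⟩ :=
    Cfsg.Agent.Helper31.OH5992.o_perp Q hQ 1 (opres_one Q) 1 Nat.one_pos (pow_one _) W₀ U''
      hW₀ hU''nd hU''W (Cfsg.Agent.Helper96.OHEmb.oemb_map_one W₀)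
      (Cfsg.Agent.Helper96.OHEmb.oemb_map_one U'')
  obtain ⟨W', hW'K, -, -, -, hiso2⟩ :=
    Cfsg.Agent.Helper96.OHEmb.oemb_main Q hQ h2 K P hK hPnd (by omega)
  refine ⟨W', hW'K, ?_⟩
  have h := Cfsg.Agent.Helper96.OHEmb.oemb_iso_sup Q hQ U W' U'' P hU hU''nd
    (fun u hu v hv => horth u hu v (hW'K hv)) hUP hiso1 hiso2
  rw [hsup] at h
  exact h

end C

end Cfsg.Agent.Helper33.NP5989
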