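import Mathlib
import Cfsg.Prelude.Def_GeometricClasses
import Cfsg.Prelude.Def_Classical
import Cfsg.Agent.Helper13.NPDefs
import Cfsg.Agent.Helper96.OHDefs
import Cfsg.Agent.Helper45.Spinor
import Cfsg.Agent.Helper43.UniIso
import Cfsg.Agent.Helper96.OHEMB
import Cfsg.Agent.Helper50.TSR2SPLA

set_option autoImplicit false

/-!
# CALL NP piece INVGOOD (helper33): an involution fixes a member of the orbit.
-/

namespace Cfsg.Agent.Helper33.NP5989

open Module Cfsg Cfsg.Geo Cfsg.Agent.Helper13.NP Cfsg.Agent.Helper96.OH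
open Cfsg.Agent.Helper43.UniIso (UnipH kdim)
open scoped MatrixGroups

universe u

section C

variable {ι : Type} [Fintype ι] [DecidableEq ι] {F : Type*} [Field F] [Fintype F]
  (Q : (ι → F) → F)

theorem np_inv_good (hQ : IsNondegenerateQuadraticForm Q) (h2 : (2 : F) ≠ 0) (M : Matrix ι ι F)
    (hM : ∀ v, Q (M.mulVec v) = Q v) (hM2 : M * M = 1) (W₀ : Submodule F (ι → F))
    (hW₀ : ONd Q W₀) (m : ℕ) (hm : finrank F W₀ = m) (hcard : 2 * m + 2 ≤ Fintype.card ι) :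
    NPFix Q W₀ m M := by
  obtain ⟨hp, hmn, hsum, -⟩ := Cfsg.Agent.Helper50.TSR2.r2_split Q hQ h2 M hM hM2
  by_cases hcase : m + 1 ≤ finrank F (LinearMap.ker (Matrix.toLin' M - 1))
  · obtain ⟨W, hWK, hWnd, hWdim, -, hiso⟩ :=
      Cfsg.Agent.Helper96.OHEmb.oemb_main Q hQ h2 _ W₀ hp hW₀ (by omega)
    refine ⟨W, ⟨by omega, hWnd, hiso⟩, ?_⟩
    rintro _ ⟨w, hw, rfl⟩
    have h1 := hWK hw
    rw [LinearMap.mem_ker, LinearMap.sub_apply, sub_eq_zero] at h1
    rw [h1]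
    exact hw
  · have hcase' : m + 1 ≤ finrank F (LinearMap.ker (Matrix.toLin' M + 1)) := by omega
    obtain ⟨W, hWK, hWnd, hWdim, -, hiso⟩ :=
      Cfsg.Agent.Helper96.OHEmb.oemb_main Q hQ h2 _ W₀ hmn hW₀ (by omega)
    refine ⟨W, ⟨by omega, hWnd, hiso⟩, ?_⟩
    rintro _ ⟨w, hw, rfl⟩
    have h1 := hWK hw
    rw [LinearMap.mem_ker, LinearMap.add_apply] at h1
    have h3 : Matrix.toLin' M w = -w := by
      have h4 : (1 : Module.End F (ι → F)) w = w := rfl
      rw [h4] at h1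
      exact eq_neg_of_add_eq_zero_left h1
    rw [h3]
    exact W.neg_mem hw

end C

end Cfsg.Agent.Helper33.NP5989
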