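import Mathlib
import Cfsg.Prelude.Def_GeometricClasses
import Cfsg.Prelude.Def_Classical
import Cfsg.Agent.Helper58.TSDefs
import Cfsg.Agent.Helper65.TSOBDefs
import Cfsg.Agent.Helper98.OPar
import Cfsg.Agent.Helper90.BGChain
import Cfsg.Agent.Helper46.BGLIRR

set_option autoImplicit false

/-!
# Sub-CALL OB piece CDVD (helper33): `i` divides the dimension of an invariant subspace of
`range (T - 1)`.
-/

namespace Cfsg.Agent.Helper33.OB

open Module Cfsg Cfsg.Geo Cfsg.Agent.Helper58.TS Cfsg.Agent.Helper65.TSOB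

section geo

variable {ι : Type} [Fintype ι] [DecidableEq ι] {F : Type*} [Field F] [Fintype F]

theorem ob_cdvd {V : Type*} [AddCommGroup V] [Module F V] [FiniteDimensional F V]
    (T : Module.End F V) (r : ℕ) [Fact r.Prime] (hrF : (r : F) ≠ 0) (hTr : T ^ r = 1) (i : ℕ)
    (hi : i = orderOf ((Fintype.card F : ℕ) : ZMod r)) (W : Submodule F V)
    (hWT : W.map T ≤ W) (hW : W ≤ LinearMap.range (T - 1)) : i ∣ finrank F W := by
  refine Cfsg.Agent.Helper90.BG.chain_dvd T W hWT _ (Cfsg.Agent.Helper90.BG.phi_ne_zero r hrF) i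
    (fun g hg hdv => by
      rw [hi]
      exact Cfsg.Agent.Helper46.bgl_irr_factor_degree r hrF g hg hdv)
    (finrank F W) ⊥ bot_le (by simp) ?_ (by simp)
  intro v hv
  obtain ⟨u, rfl⟩ := hW hv
  rw [Submodule.mem_bot, ← Module.End.mul_apply,
    Cfsg.Agent.Helper90.BG.aeval_phi_mul_sub_one T r hTr, LinearMap.zero_apply]

end geo

end Cfsg.Agent.Helper33.OB
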