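import Mathlib
import Cfsg.Prelude.Def_GeometricClasses
import Cfsg.Prelude.Def_Classical
import Cfsg.Agent.Helper58.TSDefs
import Cfsg.Agent.Helper65.TSOBDefs
import Cfsg.Agent.Helper98.OPar
import Cfsg.Agent.Helper43.OrthEven

set_option autoImplicit false

/-!
# Sub-CALL OB piece FAM (helper33): hyperbolic families in a nondegenerate `2d`-space.
-/

namespace Cfsg.Agent.Helper33.OB

open Module Cfsg Cfsg.Geo Cfsg.Agent.Helper58.TS Cfsg.Agent.Helper65.TSOB

section geo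

variable {ι : Type} [Fintype ι] [DecidableEq ι] {F : Type*} [Field F] [Fintype F]

omit [Fintype F] in
/-- transport of a coordinate hyperbolic family along a linear isometry -/
theorem fam_of_iso {κ : Type} [Fintype κ] [DecidableEq κ] (Qb : QuadraticForm F (ι → F))
    (q' : (κ → F) → F) (Ψ : (κ → F) ≃ₗ[F] (ι → F)) (hΨ : ∀ z, Qb (Ψ z) = q' z) (n : ℕ)
    (a b : Fin n → κ)
    (h1 : ∀ k, q' (Pi.single (a k) 1) = 0) (h2 : ∀ k, q' (Pi.single (b k) 1) = 0)
    (h3 : ∀ j k, q' (Pi.single (a j) 1 + Pi.single (a k) 1) = 0)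
    (h4 : ∀ j k, q' (Pi.single (b j) 1 + Pi.single (b k) 1) = 0)
    (h5 : ∀ j k, q' (Pi.single (a j) 1 + Pi.single (b k) 1) = if j = k then 1 else 0) :
    HypFam Qb (fun k => Ψ (Pi.single (a k) 1)) (fun k => Ψ (Pi.single (b k) 1)) where
  qe k := by rw [hΨ]; exact h1 k
  qf k := by rw [hΨ]; exact h2 k
  ee j k := by
    show QuadraticMap.polar Qb (Ψ _) (Ψ _) = 0
    unfold QuadraticMap.polar
    rw [← map_add, hΨ, hΨ, hΨ, h3, h1, h1]
    ring
  ff j k := by
    show QuadraticMap.polar Qb (Ψ _) (Ψ _) = 0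
    unfold QuadraticMap.polar
    rw [← map_add, hΨ, hΨ, hΨ, h4, h2, h2]
    ring
  ef j k := by
    show QuadraticMap.polar Qb (Ψ _) (Ψ _) = _
    unfold QuadraticMap.polar
    rw [← map_add, hΨ, hΨ, hΨ, h5, h1, h2]
    ring

theorem ob_fam (Q : (ι → F) → F) (hQ : IsNondegenerateQuadraticForm Q) (d δ : ℕ) (hd : 1 ≤ d)
    (hcard : Fintype.card ι = 2 * d) (hδ : TypeDefect Q δ) (n : ℕ) (hn : n + δ ≤ d) :
    ∃ e f : Fin n → ι → F, HypFam (Cfsg.Agent.Helper98.op_qf Q hQ) e f := by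
  classical
  have hV : finrank F (ι → F) = 2 * d := by
    rw [Module.finrank_fintype_fun_eq_card, hcard]
  have hnd : Cfsg.Agent.Helper43.PolarNondeg (Cfsg.Agent.Helper98.op_qf Q hQ) :=
    Cfsg.Agent.Helper43.polarNondeg_of_nondegenerate _ (Cfsg.Agent.Helper98.op_qf_nondeg Q hQ)
  by_cases hts : Cfsg.Agent.Helper43.OrthEven.HasTS (Cfsg.Agent.Helper98.op_qf Q hQ) d
  · obtain ⟨Ψ, hΨ⟩ := Cfsg.Agent.Helper43.OrthEven.exists_plus_of_hasTS hd hV
      (Cfsg.Agent.Helper98.op_qf Q hQ) hnd hts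
    have hnd' : n ≤ d := by omega
    refine ⟨_, _, fam_of_iso (Cfsg.Agent.Helper98.op_qf Q hQ) (Cfsg.quadFormPlus d F) Ψ hΨ n
      (fun k => Sum.inl (Fin.castLE hnd' k)) (fun k => Sum.inr (Fin.castLE hnd' k))
      ?_ ?_ ?_ ?_ ?_⟩
    · intro k
      simp [Cfsg.quadFormPlus, Pi.single_apply]
    · intro k
      simp [Cfsg.quadFormPlus, Pi.single_apply]
    · intro j k
      simp [Cfsg.quadFormPlus, Pi.single_apply]
    · intro j k
      simp [Cfsg.quadFormPlus, Pi.single_apply]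
    · intro j k
      simp [Cfsg.quadFormPlus, Pi.single_apply, Fin.castLE_inj]
      simp only [eq_comm]
  · -- minus type: `δ = 1`
    have hδ1 : δ = 1 := by
      rcases hδ with ⟨-, hpl⟩ | ⟨h, -⟩
      · exfalso
        apply hts
        obtain ⟨U, -, hU0, hUd⟩ := hpl
        refine ⟨U, ?_, fun u hu => hU0 u hu⟩
        rw [finrank_top, hV] at hUd
        omega
      · exact h
    obtain ⟨ζ, hζ, Ψ, hΨ⟩ := Cfsg.Agent.Helper43.OrthEven.exists_minus_of_not_hasTS hd hV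
      (Cfsg.Agent.Helper98.op_qf Q hQ) hnd hts
    have hnd' : n ≤ d - 1 := by omega
    refine ⟨_, _, fam_of_iso (Cfsg.Agent.Helper98.op_qf Q hQ) (Cfsg.quadFormMinus (d - 1) F 1 ζ)
      Ψ hΨ n (fun k => Sum.inl (Sum.inl (Fin.castLE hnd' k)))
      (fun k => Sum.inl (Sum.inr (Fin.castLE hnd' k))) ?_ ?_ ?_ ?_ ?_⟩
    · intro k
      simp [Cfsg.quadFormMinus, Pi.single_apply]
    · intro k
      simp [Cfsg.quadFormMinus, Pi.single_apply]
    · intro j k
      simp [Cfsg.quadFormMinus, Pi.single_apply]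
    · intro j k
      simp [Cfsg.quadFormMinus, Pi.single_apply]
    · intro j k
      simp [Cfsg.quadFormMinus, Pi.single_apply, Fin.castLE_inj]
      simp only [eq_comm]

end geo

end Cfsg.Agent.Helper33.OB
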