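import Mathlib
import Cfsg.Prelude.Def_GeometricClasses
import Cfsg.Prelude.Def_Classical
import Cfsg.Agent.Helper58.TSDefs
import Cfsg.Agent.Helper65.TSOBDefs
import Cfsg.Agent.Helper98.OPar
import Cfsg.Agent.Helper90.BGChain
import Cfsg.Agent.Helper46.BGLIRR

set_option autoImplicit false

/-!
# Sub-CALL OB piece GB (helper33): a matrix `g` of size `i a` killed by `1 + X + … + X^(r-1)`
together with an invertible `B` with `B g = gᵀ B`.

`K = AdjoinRoot f` for an irreducible factor `f` of `∑ X^j`; `g` = matrix of the multiplication by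
the root, `B` = matrix of the trace form (nondegenerate: finite fields are perfect); `a` diagonal
blocks.
-/

namespace Cfsg.Agent.Helper33.OB

open Module Cfsg Cfsg.Geo Cfsg.Agent.Helper58.TS Cfsg.Agent.Helper65.TSOB

section model

variable {F : Type*} [Field F] [Fintype F]

open Polynomial in
theorem gb_exists_irr (r : ℕ) [Fact r.Prime] (hrF : (r : F) ≠ 0) :
    ∃ f : F[X], Irreducible f ∧ f ∣ ∑ j ∈ Finset.range r, (X : F[X]) ^ j := by
  have hrp : r.Prime := Fact.out
  have hΦ := Cfsg.Agent.Helper90.BG.phi_ne_zero (F := F) r hrF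
  apply WfDvdMonoid.exists_irreducible_factor _ hΦ
  intro hu
  have h0 := Polynomial.natDegree_eq_zero_of_isUnit hu
  have hmul : (∑ j ∈ Finset.range r, (X : F[X]) ^ j) * (X - C 1) = X ^ r - C 1 := by
    rw [C_1]
    exact geom_sum_mul X r
  have hdeg := congrArg Polynomial.natDegree hmul
  rw [Polynomial.natDegree_mul hΦ (X_sub_C_ne_zero 1), natDegree_X_sub_C, natDegree_X_pow_sub_C,
    h0] at hdeg
  have := hrp.two_le
  omega

open Polynomial in
theorem gb_core (r : ℕ) [Fact r.Prime] (hrF : (r : F) ≠ 0) (i : ℕ)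
    (hi : i = orderOf ((Fintype.card F : ℕ) : ZMod r)) :
    ∃ g B : Matrix (Fin i) (Fin i) F, B.det ≠ 0 ∧ B * g = g.transpose * B ∧
      ∑ j ∈ Finset.range r, g ^ j = 0 := by
  classical
  obtain ⟨f, hf, hfd⟩ := gb_exists_irr (F := F) r hrF
  haveI : Fact (Irreducible f) := ⟨hf⟩
  have hdeg : f.natDegree = i := by
    rw [hi]
    exact Cfsg.Agent.Helper46.bgl_irr_factor_degree r hrF f hf hfd
  have hdim : (AdjoinRoot.powerBasis hf.ne_zero).dim = i := by
    rw [AdjoinRoot.powerBasis_dim]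
    exact hdeg
  haveI : Module.Finite F (AdjoinRoot f) := (AdjoinRoot.powerBasis hf.ne_zero).finite
  obtain ⟨b⟩ : Nonempty (Basis (Fin i) F (AdjoinRoot f)) :=
    ⟨(AdjoinRoot.powerBasis hf.ne_zero).basis.reindex (finCongr hdim)⟩
  have hsum : ∑ j ∈ Finset.range r, (AdjoinRoot.root f) ^ j = 0 := by
    have h1 : AdjoinRoot.mk f (∑ j ∈ Finset.range r, (X : F[X]) ^ j) = 0 :=
      AdjoinRoot.mk_eq_zero.mpr hfd
    rw [← AdjoinRoot.aeval_eq] at h1
    simpa using h1
  have key : ∀ y z : AdjoinRoot f,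
      ∑ l, b.repr y l * Algebra.trace F (AdjoinRoot f) (b l * z) =
        Algebra.trace F (AdjoinRoot f) (y * z) := by
    intro y z
    conv_rhs => rw [← b.sum_repr y]
    rw [Finset.sum_mul, map_sum]
    apply Finset.sum_congr rfl
    intro l _
    rw [smul_mul_assoc, map_smul, smul_eq_mul]
  refine ⟨Algebra.leftMulMatrix b (AdjoinRoot.root f),
    (Algebra.traceForm F (AdjoinRoot f)).toMatrix b, det_traceForm_ne_zero b, ?_, ?_⟩
  · ext j k
    rw [Matrix.mul_apply, Matrix.mul_apply]
    simp only [Matrix.transpose_apply, LinearMap.BilinForm.toMatrix_apply,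
      Algebra.traceForm_apply, Algebra.leftMulMatrix_eq_repr_mul]
    rw [key (AdjoinRoot.root f * b j) (b k)]
    have h1 : ∑ l, Algebra.trace F (AdjoinRoot f) (b j * b l) *
        b.repr (AdjoinRoot.root f * b k) l =
        ∑ l, b.repr (AdjoinRoot.root f * b k) l *
          Algebra.trace F (AdjoinRoot f) (b l * b j) := by
      apply Finset.sum_congr rfl
      intro l _
      rw [mul_comm, mul_comm (b j) (b l)]
    rw [h1, key (AdjoinRoot.root f * b k) (b j)]
    congr 1
    ring
  · have h1 : ∑ j ∈ Finset.range r, (Algebra.leftMulMatrix b (AdjoinRoot.root f)) ^ j =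
        Algebra.leftMulMatrix b (∑ j ∈ Finset.range r, (AdjoinRoot.root f) ^ j) := by
      rw [map_sum]
      simp only [map_pow]
    rw [h1, hsum, map_zero]

theorem ob_gb (r : ℕ) [Fact r.Prime] (hrF : (r : F) ≠ 0) (i a : ℕ)
    (hi : i = orderOf ((Fintype.card F : ℕ) : ZMod r)) :
    ∃ g B : Matrix (Fin (i * a)) (Fin (i * a)) F, IsUnit B ∧ B * g = g.transpose * B ∧
      ∑ j ∈ Finset.range r, g ^ j = 0 := by
  classical
  obtain ⟨g, B, hB, hBg, hsum⟩ := gb_core (F := F) r hrF i hi
  obtain ⟨φ, hφ⟩ : ∃ φ : (Fin a → Matrix (Fin i) (Fin i) F) →+*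
      Matrix (Fin (i * a)) (Fin (i * a)) F,
      ∀ M, φ M = Matrix.reindex finProdFinEquiv finProdFinEquiv (Matrix.blockDiagonal M) :=
    ⟨(Matrix.reindexRingEquiv F finProdFinEquiv).toRingHom.comp
      (Matrix.blockDiagonalRingHom (Fin i) (Fin a) F), fun M => rfl⟩
  have hT : (φ (fun _ => g)).transpose = φ (fun _ => g.transpose) := by
    rw [hφ, hφ, Matrix.transpose_reindex, Matrix.blockDiagonal_transpose]
  refine ⟨φ (fun _ => g), φ (fun _ => B), ?_, ?_, ?_⟩
  · apply IsUnit.map φ
    rw [Pi.isUnit_iff]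
    intro _
    exact (Matrix.isUnit_iff_isUnit_det B).mpr (IsUnit.mk0 _ hB)
  · rw [hT, ← map_mul, ← map_mul]
    congr 1
    funext k
    exact hBg
  · have h1 : ∑ j ∈ Finset.range r, (φ (fun _ => g)) ^ j =
        φ (∑ j ∈ Finset.range r, (fun _ : Fin a => g) ^ j) := by
      rw [map_sum]
      simp only [map_pow]
    rw [h1]
    have h2 : ∑ j ∈ Finset.range r, (fun _ : Fin a => g) ^ j = 0 := by
      funext k
      rw [Finset.sum_apply]
      simp only [Pi.pow_apply]
      exact hsum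
    rw [h2, map_zero]

end model

end Cfsg.Agent.Helper33.OB
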