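import Mathlib
import Cfsg.Agent.Helper96.OHDefs
import Cfsg.Agent.Helper69.ODDefs

set_option autoImplicit false
set_option linter.unusedSectionVars false
set_option linter.unusedVariables false

/-!
# CALL OD piece DSBASIS (helper33): the discriminant class can be read off any basis.
-/

namespace Cfsg.Agent.Helper33.OD59

open Module Polynomial Cfsg Cfsg.Geo
open Cfsg.Agent.Helper13.TIu Cfsg.Agent.Helper96.OH Cfsg.Agent.Helper69.OD
open scoped MatrixGroups

variable {ι : Type} [Fintype ι] [DecidableEq ι] {F : Type*} [Field F] (Q : (ι → F) → F)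

theorem ods_gram_eq (hQ : IsNondegenerateQuadraticForm Q) (W : Submodule F (ι → F))
    {κ : Type} [Fintype κ] [DecidableEq κ] (e : Basis κ F W) :
    (Matrix.of fun i j : κ => QuadraticMap.polar Q (e i : ι → F) (e j : ι → F)) =
      LinearMap.BilinForm.toMatrix e ((pB Q hQ).restrict W) := by
  ext i j
  rw [LinearMap.BilinForm.toMatrix_apply]
  rfl

theorem ods_change (hQ : IsNondegenerateQuadraticForm Q) (W : Submodule F (ι → F))
    {κ : Type} [Fintype κ] [DecidableEq κ] (b c : Basis κ F W) :
    Matrix.det (Matrix.of fun i j : κ => QuadraticMap.polar Q (c i : ι → F) (c j : ι → F)) =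
      (Matrix.det (b.toMatrix c)) ^ 2 *
        Matrix.det (Matrix.of fun i j : κ => QuadraticMap.polar Q (b i : ι → F) (b j : ι → F)) := by
  rw [ods_gram_eq Q hQ W c, ods_gram_eq Q hQ W b,
    ← LinearMap.BilinForm.toMatrix_mul_basis_toMatrix b c, Matrix.det_mul, Matrix.det_mul,
    Matrix.det_transpose]
  ring

theorem ods_det_ne (W : Submodule F (ι → F)) {κ : Type} [Fintype κ] [DecidableEq κ]
    (b c : Basis κ F W) : Matrix.det (b.toMatrix c) ≠ 0 := by
  have h := Basis.toMatrix_mul_toMatrix_flip b c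
  intro h0
  have h1 := congrArg Matrix.det h
  rw [Matrix.det_mul, h0, zero_mul, Matrix.det_one] at h1
  exact zero_ne_one h1

theorem ods_sq_mul {s x : F} (hs : s ≠ 0) : IsSquare (s ^ 2 * x) ↔ IsSquare x := by
  constructor
  · rintro ⟨y, hy⟩
    refine ⟨y / s, ?_⟩
    field_simp
    linear_combination hy
  · rintro ⟨y, rfl⟩
    exact ⟨s * y, by ring⟩

theorem ods_same (hQ : IsNondegenerateQuadraticForm Q) (W : Submodule F (ι → F))
    {κ : Type} [Fintype κ] [DecidableEq κ] (b c : Basis κ F W) :
    IsSquare (Matrix.det (Matrix.of fun i j : κ =>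
        QuadraticMap.polar Q (b i : ι → F) (b j : ι → F))) ↔
      IsSquare (Matrix.det (Matrix.of fun i j : κ =>
        QuadraticMap.polar Q (c i : ι → F) (c j : ι → F))) := by
  rw [ods_change Q hQ W b c, ods_sq_mul (ods_det_ne W b c)]

theorem ods_reindex (W : Submodule F (ι → F)) {κ κ' : Type} [Fintype κ] [DecidableEq κ]
    [Fintype κ'] [DecidableEq κ'] (e : Basis κ F W) (σ : κ ≃ κ') :
    Matrix.det (Matrix.of fun i j : κ' =>
        QuadraticMap.polar Q ((e.reindex σ) i : ι → F) ((e.reindex σ) j : ι → F)) =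
      Matrix.det (Matrix.of fun i j : κ =>
        QuadraticMap.polar Q (e i : ι → F) (e j : ι → F)) := by
  have h : (Matrix.of fun i j : κ' =>
      QuadraticMap.polar Q ((e.reindex σ) i : ι → F) ((e.reindex σ) j : ι → F)) =
      Matrix.reindex σ σ (Matrix.of fun i j : κ =>
        QuadraticMap.polar Q (e i : ι → F) (e j : ι → F)) := by
    ext i j
    simp [Basis.reindex_apply]
  rw [h, Matrix.det_reindex_self]

theorem ods_iff_basis (hQ : IsNondegenerateQuadraticForm Q) (W : Submodule F (ι → F))
    {κ : Type} [Fintype κ] [DecidableEq κ] (e : Basis κ F W) :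
    ODs Q W ↔ IsSquare (Matrix.det (Matrix.of fun i j : κ =>
      QuadraticMap.polar Q (e i : ι → F) (e j : ι → F))) := by
  have hcard : Fintype.card κ = finrank F W := (Module.finrank_eq_card_basis e).symm
  rw [← ods_reindex Q W e (Fintype.equivFinOfCardEq hcard)]
  constructor
  · rintro ⟨e₀, h⟩
    exact (ods_same Q hQ W e₀ (e.reindex (Fintype.equivFinOfCardEq hcard))).mp h
  · intro h
    exact ⟨e.reindex (Fintype.equivFinOfCardEq hcard), h⟩

end Cfsg.Agent.Helper33.OD59
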