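import Mathlib
import Cfsg.Agent.Helper96.OHDefs
import Cfsg.Agent.Helper69.ODDefs
import Cfsg.Agent.Helper14.OEEISO
import Cfsg.Agent.Helper33.ODDSBASIS

set_option autoImplicit false
set_option linter.unusedSectionVars false
set_option linter.unusedVariables false

/-!
# CALL OD piece DSISO2 (helper33): nondegenerate subspaces of the same dimension and the same
discriminant class are isometric (mirror of `Cfsg.Agent.Helper14.OE5993.oe_iso`).
-/

namespace Cfsg.Agent.Helper33.OD59

open Module Polynomial Cfsg Cfsg.Geo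
open Cfsg.Agent.Helper13.TIu Cfsg.Agent.Helper96.OH Cfsg.Agent.Helper69.OD
open scoped MatrixGroups

variable {ι : Type} [Fintype ι] [DecidableEq ι] {F : Type*} [Field F] (Q : (ι → F) → F)

theorem iso_of_ods [Fintype F] (hQ : IsNondegenerateQuadraticForm Q) (h2 : (2 : F) ≠ 0)
    (W W' : Submodule F (ι → F)) (hW : ONd Q W) (hW' : ONd Q W')
    (hdim : finrank F W = finrank F W') (h : ODs Q W ↔ ODs Q W') : AreIsometricFor Q W W' := by
  classical
  rcases Nat.eq_zero_or_pos (finrank F W) with h0 | hpos
  · refine ⟨LinearEquiv.ofFinrankEq W W' hdim, fun w => ?_⟩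
    have hw : w = 0 := by
      haveI : Subsingleton W := Module.finrank_zero_iff.mp h0
      exact Subsingleton.elim _ _
    rw [hw, map_zero]
    rfl
  · obtain ⟨d, hd⟩ : ∃ d, finrank F W = d + 1 := ⟨finrank F W - 1, by omega⟩
    have hdimW' : finrank F W' = d + 1 := by omega
    obtain ⟨e, heo, he1, hel⟩ := Cfsg.Agent.Helper14.OE5993.oe_iso_basis Q hQ h2 W hW d hd
    obtain ⟨e', heo', he1', hel'⟩ :=
      Cfsg.Agent.Helper14.OE5993.oe_iso_basis Q hQ h2 W' hW' d hdimW'
    have hpl := ods_iff_basis Q hQ W e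
    have hpl' := ods_iff_basis Q hQ W' e'
    rw [Cfsg.Agent.Helper14.OE5993.oe_iso_det Q W d e heo he1] at hpl
    rw [Cfsg.Agent.Helper14.OE5993.oe_iso_det Q W' d e' heo' he1'] at hpl'
    obtain ⟨s, hs0, hs⟩ := Cfsg.Agent.Helper14.OE5993.oe_iso_sq (1 : F) _ _ (one_mul 1) hel hel'
      (by rw [one_mul, one_mul, ← hpl, ← hpl']; exact h)
    let c : Fin (d + 1) → F := fun j => if j = Fin.last d then s⁻¹ else 1
    have hpolar_smul : ∀ (a b : F) (x y : ι → F),
        QuadraticMap.polar Q (a • x) (b • y) = a * b * QuadraticMap.polar Q x y := by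
      intro a b x y
      rw [← pB_apply Q hQ, ← pB_apply Q hQ]
      simp only [map_smul, LinearMap.smul_apply, smul_eq_mul]
      ring
    have hQpolar : ∀ x : ι → F, QuadraticMap.polar Q x x = 2 * Q x := fun x => by
      rw [← pB_apply Q hQ, pB_self]
    refine Cfsg.Agent.Helper33.OTwo.iso_of_families h2 Q hQ (by omega : 1 ≤ d + 1) W W'
      hd hdimW' (fun j => e j) (fun j => c j • e' j) heo ?_ ?_ ?_
    · intro i j hij
      show QuadraticMap.polar Q (((c i • e' i : W') : ι → F)) ((c j • e' j : W') : ι → F) = 0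
      rw [Submodule.coe_smul, Submodule.coe_smul, hpolar_smul, heo' i j hij, mul_zero]
    · intro j h0
      have h := hQpolar (e j : ι → F)
      rw [h0, mul_zero] at h
      by_cases hj : j = Fin.last d
      · rw [hj] at h
        exact hel h
      · rw [he1 j hj] at h
        exact one_ne_zero h
    · intro j
      show Q ((c j • e' j : W') : ι → F) = Q (e j : ι → F)
      apply mul_left_cancel₀ h2
      rw [← hQpolar, ← hQpolar, Submodule.coe_smul, hpolar_smul]
      by_cases hj : j = Fin.last d
      · have hc : c j = s⁻¹ := by simp only [c, hj, if_true]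
        rw [hc, hj, hs]
        field_simp
      · have hc : c j = 1 := by simp only [c, hj, if_false]
        rw [hc, he1 j hj, he1' j hj]
        ring

end Cfsg.Agent.Helper33.OD59
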