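import Mathlib
import Cfsg.Agent.Helper96.OHDefs
import Cfsg.Agent.Helper69.ODDefs
import Cfsg.Agent.Helper33.ODDSBASIS
import Cfsg.Agent.Helper33.OHOLINE
import Cfsg.Agent.Helper96.OHEXND
import Cfsg.Agent.Helper96.OHEMB

set_option autoImplicit false
set_option linter.unusedSectionVars false
set_option linter.unusedVariables false

/-!
# CALL OD piece DSLINE (helper33): a nondegenerate subspace of dimension `≥ 2` has nonsingular
vectors of both discriminant classes.
-/

namespace Cfsg.Agent.Helper33.OD59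

open Module Polynomial Cfsg Cfsg.Geo
open Cfsg.Agent.Helper13.TIu Cfsg.Agent.Helper96.OH Cfsg.Agent.Helper69.OD
open scoped MatrixGroups

variable {ι : Type} [Fintype ι] [DecidableEq ι] {F : Type*} [Field F] (Q : (ι → F) → F)

/-- the class of a nonsingular line -/
theorem ods_span_iff (hQ : IsNondegenerateQuadraticForm Q) (v : ι → F) (hv0 : v ≠ 0) :
    ODs Q (Submodule.span F {v}) ↔ IsSquare (2 * Q v) := by
  classical
  obtain ⟨e, he⟩ : ∃ e : Basis Unit F (Submodule.span F {v}),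
      ((e () : Submodule.span F {v}) : ι → F) = v := by
    refine ⟨(Basis.singleton Unit F).map (LinearEquiv.toSpanNonzeroSingleton F (ι → F) v hv0), ?_⟩
    rw [Basis.map_apply, Basis.singleton_apply]
    simp
  rw [ods_iff_basis Q hQ _ e, Matrix.det_unique, Matrix.of_apply]
  have h1 : (default : Unit) = () := rfl
  rw [h1, he, ← pB_apply Q hQ, pB_self]

theorem ods_line [Fintype F] (hQ : IsNondegenerateQuadraticForm Q) (h2 : (2 : F) ≠ 0)
    (K : Submodule F (ι → F)) (hK : ONd Q K) (hdim : 2 ≤ finrank F K) (b : Prop) :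
    ∃ v ∈ K, Q v ≠ 0 ∧ ONd Q (Submodule.span F {v}) ∧ finrank F (Submodule.span F {v}) = 1 ∧
      (ODs Q (Submodule.span F {v}) ↔ b) := by
  classical
  obtain ⟨Pi, hPiK, hPi, hPidim⟩ := Cfsg.Agent.Helper96.OH5992.o_exists_nd Q hQ h2 K hK 2 hdim
  obtain ⟨t, ht0, ht⟩ : ∃ t : F, t ≠ 0 ∧ (IsSquare (2 * t) ↔ b) := by
    by_cases hb : b
    · refine ⟨2⁻¹, inv_ne_zero h2, ?_⟩
      simp only [hb, iff_true]
      exact ⟨1, by rw [mul_inv_cancel₀ h2, mul_one]⟩
    · obtain ⟨ε, hε⟩ := FiniteField.exists_nonsquare (F := F)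
        (Cfsg.Agent.Helper33.OH5992.ol_ringChar h2)
      have hε0 : ε ≠ 0 := by
        rintro rfl
        exact hε ⟨0, by simp⟩
      refine ⟨2⁻¹ * ε, mul_ne_zero (inv_ne_zero h2) hε0, ?_⟩
      simp only [hb, iff_false]
      rw [← mul_assoc, mul_inv_cancel₀ h2, one_mul]
      exact hε
  obtain ⟨v, hvPi, hQv⟩ := Cfsg.Agent.Helper33.OH5992.ol_universal Q hQ h2 Pi hPi hPidim t
  have hQv0 : Q v ≠ 0 := by rw [hQv]; exact ht0
  have hv0 : v ≠ 0 := by
    rintro rfl
    exact hQv0 (q_zero Q hQ)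
  refine ⟨v, hPiK hvPi, hQv0, Cfsg.Agent.Helper96.OHEmb.oemb_nd_span Q hQ h2 v hQv0,
    finrank_span_singleton hv0, ?_⟩
  rw [ods_span_iff Q hQ v hv0, hQv]
  exact ht

end Cfsg.Agent.Helper33.OD59
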