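import Mathlib
import Cfsg.Agent.Helper96.OHDefs
import Cfsg.Agent.Helper69.ODDefs
import Cfsg.Agent.Helper33.ODDSBASIS

set_option autoImplicit false
set_option linter.unusedSectionVars false
set_option linter.unusedVariables false

/-!
# CALL OD piece DSSUM (helper33): orthogonal sums multiply discriminants.
-/

namespace Cfsg.Agent.Helper33.OD59

open Module Polynomial Cfsg Cfsg.Geo
open Cfsg.Agent.Helper13.TIu Cfsg.Agent.Helper96.OH Cfsg.Agent.Helper69.OD
open scoped MatrixGroups

variable {ι : Type} [Fintype ι] [DecidableEq ι] {F : Type*} [Field F] (Q : (ι → F) → F)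

/-- the Gram determinant of a basis of a nondegenerate subspace is nonzero -/
theorem ods_det_ne_zero (hQ : IsNondegenerateQuadraticForm Q) (W : Submodule F (ι → F))
    (hW : ONd Q W) {κ : Type} [Fintype κ] [DecidableEq κ] (e : Basis κ F W) :
    Matrix.det (Matrix.of fun i j : κ =>
      QuadraticMap.polar Q (e i : ι → F) (e j : ι → F)) ≠ 0 := by
  rw [ods_gram_eq Q hQ W e]
  apply (LinearMap.BilinForm.nondegenerate_iff_det_ne_zero e).mp
  have hl : ∀ u : W, (∀ v : W, (pB Q hQ).restrict W u v = 0) → u = 0 := by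
    intro u hu
    by_contra hne
    have hu0 : (u : ι → F) ≠ 0 := fun h => hne (Subtype.ext h)
    obtain ⟨-, x, hx, hux⟩ := hW u u.2 hu0
    exact hux (hu ⟨x, hx⟩)
  refine ⟨hl, fun v hv => hl v (fun u => ?_)⟩
  have h1 := hv u
  show QuadraticMap.polar Q (v : ι → F) (u : ι → F) = 0
  rw [QuadraticMap.polar_comm]
  exact h1

/-- in a finite field the square classes of nonzero elements multiply -/
theorem ods_sq_prod [Fintype F] {x y : F} (hx : x ≠ 0) (hy : y ≠ 0) :
    IsSquare (x * y) ↔ (IsSquare x ↔ IsSquare y) := by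
  classical
  rw [← quadraticChar_one_iff_isSquare (mul_ne_zero hx hy), ← quadraticChar_one_iff_isSquare hx,
    ← quadraticChar_one_iff_isSquare hy, map_mul]
  rcases quadraticChar_dichotomy hx with h | h <;>
    rcases quadraticChar_dichotomy hy with h' | h' <;> rw [h, h'] <;> norm_num

theorem ods_sup [Fintype F] (hQ : IsNondegenerateQuadraticForm Q)
    (A B : Submodule F (ι → F)) (hA : ONd Q A) (hB : ONd Q B) (horth : OOrth Q A B) :
    ODs Q (A ⊔ B) ↔ (ODs Q A ↔ ODs Q B) := by
  classical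
  obtain ⟨eA⟩ : Nonempty (Basis (Fin (finrank F A)) F A) := ⟨Module.finBasis F A⟩
  obtain ⟨eB⟩ : Nonempty (Basis (Fin (finrank F B)) F B) := ⟨Module.finBasis F B⟩
  obtain ⟨e, he⟩ : ∃ e : Basis (Fin (finrank F A) ⊕ Fin (finrank F B)) F ↥(A ⊔ B),
      ∀ k, e k = Cfsg.Agent.Helper33.OType.supEquiv Q A B hA horth ((eA.prod eB) k) :=
    ⟨(eA.prod eB).map (Cfsg.Agent.Helper33.OType.supEquiv Q A B hA horth), fun k => rfl⟩
  have hinl : ∀ i, ((e (Sum.inl i) : ↥(A ⊔ B)) : ι → F) = (eA i : ι → F) := by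
    intro i
    rw [he, Cfsg.Agent.Helper33.OType.supEquiv_coe]
    simp
  have hinr : ∀ j, ((e (Sum.inr j) : ↥(A ⊔ B)) : ι → F) = (eB j : ι → F) := by
    intro j
    rw [he, Cfsg.Agent.Helper33.OType.supEquiv_coe]
    simp
  have hG : (Matrix.of fun i j : Fin (finrank F A) ⊕ Fin (finrank F B) =>
      QuadraticMap.polar Q (e i : ι → F) (e j : ι → F)) =
      Matrix.fromBlocks
        (Matrix.of fun i j : Fin (finrank F A) =>
          QuadraticMap.polar Q (eA i : ι → F) (eA j : ι → F)) 0 0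
        (Matrix.of fun i j : Fin (finrank F B) =>
          QuadraticMap.polar Q (eB i : ι → F) (eB j : ι → F)) := by
    ext i j
    rcases i with i | i <;> rcases j with j | j
    · rw [Matrix.fromBlocks_apply₁₁, Matrix.of_apply, Matrix.of_apply, hinl, hinl]
    · rw [Matrix.fromBlocks_apply₁₂, Matrix.of_apply, hinl, hinr]
      exact horth _ (eA i).2 _ (eB j).2
    · rw [Matrix.fromBlocks_apply₂₁, Matrix.of_apply, hinl, hinr, QuadraticMap.polar_comm]
      exact horth _ (eA j).2 _ (eB i).2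
    · rw [Matrix.fromBlocks_apply₂₂, Matrix.of_apply, Matrix.of_apply, hinr, hinr]
  rw [ods_iff_basis Q hQ (A ⊔ B) e, ods_iff_basis Q hQ A eA, ods_iff_basis Q hQ B eB, hG,
    Matrix.det_fromBlocks_zero₂₁]
  exact ods_sq_prod (ods_det_ne_zero Q hQ A hA eA) (ods_det_ne_zero Q hQ B hB eB)

end Cfsg.Agent.Helper33.OD59
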