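import Mathlib
import Cfsg.Agent.Helper96.OHDefs
import Cfsg.Agent.Helper69.ODDefs
import Cfsg.Agent.Helper33.ODDSBASIS
import Cfsg.Agent.Helper33.ODDSSUM
import Cfsg.Agent.Helper33.ODDSLINE
import Cfsg.Agent.Helper31.OHOPERP
import Cfsg.Agent.Helper96.OHEXND
import Cfsg.Agent.Helper96.OHEMB

set_option autoImplicit false
set_option linter.unusedSectionVars false
set_option linter.unusedVariables false

/-!
# CALL OD piece DSSUB (helper33): class freedom inside a nondegenerate subspace.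
-/

namespace Cfsg.Agent.Helper33.OD59

open Module Polynomial Cfsg Cfsg.Geo
open Cfsg.Agent.Helper13.TIu Cfsg.Agent.Helper96.OH Cfsg.Agent.Helper69.OD
open scoped MatrixGroups

variable {ι : Type} [Fintype ι] [DecidableEq ι] {F : Type*} [Field F] (Q : (ι → F) → F)

theorem ods_sub [Fintype F] (hQ : IsNondegenerateQuadraticForm Q) (h2 : (2 : F) ≠ 0)
    (K : Submodule F (ι → F)) (hK : ONd Q K) (e : ℕ) (he0 : 0 < e) (heK : e < finrank F K)
    (b : Prop) :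
    ∃ X : Submodule F (ι → F), X ≤ K ∧ ONd Q X ∧ finrank F X = e ∧ (ODs Q X ↔ b) := by
  classical
  obtain ⟨X₀, hX₀K, hX₀, hX₀dim⟩ :=
    Cfsg.Agent.Helper96.OH5992.o_exists_nd Q hQ h2 K hK (e - 1) (by omega)
  obtain ⟨K₁, hK₁K, -, hK₁, -, hsup, horth, hK₁dim⟩ :=
    Cfsg.Agent.Helper31.OH5992.o_perp Q hQ 1 (opres_one Q) 1 Nat.one_pos (pow_one _) K X₀
      hK hX₀ hX₀K (Cfsg.Agent.Helper96.OHEmb.oemb_map_one K)
      (Cfsg.Agent.Helper96.OHEmb.oemb_map_one X₀)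
  obtain ⟨v, hvK₁, hQv, hvnd, hvdim, hvb⟩ :=
    ods_line Q hQ h2 K₁ hK₁ (by omega) (ODs Q X₀ ↔ b)
  have horth' : OOrth Q X₀ (Submodule.span F {v}) := by
    intro u hu w hw
    obtain ⟨c, rfl⟩ := Submodule.mem_span_singleton.mp hw
    rw [hQ.polar_bilinear.smul_right, horth u hu v hvK₁, mul_zero]
  refine ⟨X₀ ⊔ Submodule.span F {v},
    sup_le hX₀K ((Submodule.span_singleton_le_iff_mem _ _).mpr (hK₁K hvK₁)),
    Cfsg.Agent.Helper33.OType.nondeg_sup Q hQ _ _ hX₀ hvnd horth', ?_, ?_⟩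
  · rw [Cfsg.Agent.Helper33.OType.finrank_sup_of_orth Q _ _ hX₀ horth', hX₀dim, hvdim]
    omega
  · rw [ods_sup Q hQ _ _ hX₀ hvnd horth', hvb]
    tauto

end Cfsg.Agent.Helper33.OD59
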