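import Mathlib
import Cfsg.Agent.Helper96.OHDefs
import Cfsg.Agent.Helper69.ODDefs
import Cfsg.Agent.Helper98.OPar

set_option autoImplicit false
set_option linter.unusedSectionVars false
set_option linter.unusedVariables false

/-!
# CALL OD part 2, piece PMC1 (helper33): the fixed space of an isometry with
`dim ker N = d`, `dim ker N² = 2d - 1` in dimension `2d` has a radical of codimension one.
-/

namespace Cfsg.Agent.Helper33.OD59

open Module Polynomial Cfsg Cfsg.Geo
open Cfsg.Agent.Helper13.TIu Cfsg.Agent.Helper96.OH Cfsg.Agent.Helper69.OD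
open scoped MatrixGroups

variable {ι : Type} [Fintype ι] [DecidableEq ι] {F : Type*} [Field F] (Q : (ι → F) → F)

theorem pmc1_N_orth (hQ : IsNondegenerateQuadraticForm Q) (A : Matrix ι ι F)
    (hA : ∀ v, Q (A.mulVec v) = Q v) (x y : ι → F)
    (hy : y ∈ LinearMap.ker (Matrix.toLin' A - 1)) :
    QuadraticMap.polar Q ((Matrix.toLin' A - 1) x) y = 0 := by
  have hTy : Matrix.toLin' A y = y := by
    have h := LinearMap.mem_ker.mp hy
    rw [LinearMap.sub_apply, Module.End.one_apply, sub_eq_zero] at h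
    exact h
  have hiso : QuadraticMap.polar Q (Matrix.toLin' A x) (Matrix.toLin' A y) =
      QuadraticMap.polar Q x y := by
    unfold QuadraticMap.polar
    rw [← map_add, Matrix.toLin'_apply, Matrix.toLin'_apply, Matrix.toLin'_apply, hA, hA, hA]
  have h1 : QuadraticMap.polar Q (Matrix.toLin' A x) y = QuadraticMap.polar Q x y := by
    conv_lhs => rw [← hTy]
    exact hiso
  rw [← pB_apply Q hQ, LinearMap.sub_apply, Module.End.one_apply, map_sub, LinearMap.sub_apply,
    pB_apply, pB_apply, h1, sub_self]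

theorem pmc1_ker_sq (N : Module.End F (ι → F)) :
    finrank F ↥(LinearMap.ker N ⊓ LinearMap.range N) + finrank F (LinearMap.ker N) =
      finrank F (LinearMap.ker (N ^ 2)) := by
  have hle : LinearMap.ker N ≤ LinearMap.ker (N ^ 2) := by
    intro x hx
    rw [LinearMap.mem_ker] at hx ⊢
    rw [pow_two, Module.End.mul_apply, hx, map_zero]
  have h1 := LinearMap.finrank_range_add_finrank_ker (N ∘ₗ (LinearMap.ker (N ^ 2)).subtype)
  have h2 : LinearMap.range (N ∘ₗ (LinearMap.ker (N ^ 2)).subtype) =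
      LinearMap.ker N ⊓ LinearMap.range N := by
    ext x
    constructor
    · rintro ⟨⟨y, hy⟩, rfl⟩
      refine ⟨?_, ⟨y, rfl⟩⟩
      show N y ∈ LinearMap.ker N
      rw [LinearMap.mem_ker] at hy ⊢
      rw [pow_two, Module.End.mul_apply] at hy
      exact hy
    · rintro ⟨hx1, ⟨y, rfl⟩⟩
      have hx1' : N y ∈ LinearMap.ker N := hx1
      refine ⟨⟨y, ?_⟩, rfl⟩
      rw [LinearMap.mem_ker] at hx1' ⊢
      rw [pow_two, Module.End.mul_apply]
      exact hx1'
  have h3 : LinearMap.ker (N ∘ₗ (LinearMap.ker (N ^ 2)).subtype) =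
      (LinearMap.ker N).comap (LinearMap.ker (N ^ 2)).subtype := LinearMap.ker_comp _ _
  rw [h2, h3, (Submodule.comapSubtypeEquivOfLe hle).finrank_eq] at h1
  exact h1

theorem od_pm_fix [Fintype F] (hQ : IsNondegenerateQuadraticForm Q) (h2 : (2 : F) ≠ 0) (d : ℕ)
    (hd : 1 ≤ d) (hcard : Fintype.card ι = 2 * d) (A : Matrix ι ι F)
    (hA : ∀ v, Q (A.mulVec v) = Q v)
    (hk1 : finrank F (LinearMap.ker (Matrix.toLin' A - 1)) = d)
    (hk2 : finrank F (LinearMap.ker ((Matrix.toLin' A - 1) ^ 2)) = 2 * d - 1) :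
    ∃ e ∈ LinearMap.ker (Matrix.toLin' A - 1), Q e ≠ 0 ∧
      ∀ f ∈ LinearMap.ker (Matrix.toLin' A - 1), ∃ t : F,
        ∀ g ∈ LinearMap.ker (Matrix.toLin' A - 1), QuadraticMap.polar Q (f - t • e) g = 0 := by
  classical
  set N : Module.End F (ι → F) := Matrix.toLin' A - 1 with hN
  have hnd : (pB Q hQ).Nondegenerate := Cfsg.Agent.Helper98.op_qf_nondeg Q hQ
  have hV : finrank F (ι → F) = 2 * d := by
    rw [Module.finrank_fintype_fun_eq_card, hcard]
  -- range N = E^⊥
  have hle : LinearMap.range N ≤ (pB Q hQ).orthogonal (LinearMap.ker N) := by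
    rintro _ ⟨x, rfl⟩
    rw [LinearMap.BilinForm.mem_orthogonal_iff]
    intro n hn
    rw [pB_apply, QuadraticMap.polar_comm]
    exact pmc1_N_orth Q hQ A hA x n hn
  have hr := LinearMap.finrank_range_add_finrank_ker N
  have ho := LinearMap.BilinForm.finrank_orthogonal hnd (LinearMap.ker N)
  have heq : LinearMap.range N = (pB Q hQ).orthogonal (LinearMap.ker N) :=
    Submodule.eq_of_le_of_finrank_eq hle (by omega)
  have hR := pmc1_ker_sq N
  rw [heq] at hR
  set R : Submodule F (ι → F) := LinearMap.ker N ⊓ (pB Q hQ).orthogonal (LinearMap.ker N)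
    with hRdef
  have hRd : finrank F R + 1 = d := by omega
  have hRE : R ≤ LinearMap.ker N := inf_le_left
  have hRorth : ∀ ρ ∈ R, ∀ g ∈ LinearMap.ker N, QuadraticMap.polar Q ρ g = 0 := by
    intro ρ hρ g hg
    have h := (LinearMap.BilinForm.mem_orthogonal_iff.mp hρ.2) g hg
    rw [pB_apply] at h
    rw [QuadraticMap.polar_comm]
    exact h
  obtain ⟨e, heE, heR⟩ : ∃ e ∈ LinearMap.ker N, e ∉ R := by
    by_contra hcon
    push Not at hcon
    have h1 : LinearMap.ker N ≤ R := fun x hx => hcon x hx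
    have h2' := Submodule.finrank_mono h1
    omega
  have hsup : R ⊔ Submodule.span F {e} = LinearMap.ker N := by
    have hle1 : R ⊔ Submodule.span F {e} ≤ LinearMap.ker N := by
      refine sup_le hRE ?_
      rw [Submodule.span_singleton_le_iff_mem]
      exact heE
    have hlt : R < R ⊔ Submodule.span F {e} := by
      refine lt_of_le_of_ne le_sup_left ?_
      intro h
      apply heR
      rw [h]
      exact Submodule.mem_sup_right (Submodule.mem_span_singleton_self e)
    have h3 := Submodule.finrank_lt_finrank_of_lt hlt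
    exact Submodule.eq_of_le_of_finrank_le hle1 (by omega)
  have hdecomp : ∀ f ∈ LinearMap.ker N, ∃ t : F, f - t • e ∈ R := by
    intro f hf
    rw [← hsup] at hf
    obtain ⟨ρ, hρ, y, hy, rfl⟩ := Submodule.mem_sup.mp hf
    obtain ⟨t, rfl⟩ := Submodule.mem_span_singleton.mp hy
    refine ⟨t, ?_⟩
    have : ρ + t • e - t • e = ρ := by abel
    rw [this]
    exact hρ
  refine ⟨e, heE, ?_, ?_⟩
  · -- Q e ≠ 0
    intro hQe
    apply heR
    refine ⟨heE, ?_⟩
    show e ∈ (pB Q hQ).orthogonal (LinearMap.ker N)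
    rw [LinearMap.BilinForm.mem_orthogonal_iff]
    intro g hg
    obtain ⟨t, ht⟩ := hdecomp g hg
    have hg_eq : g = (g - t • e) + t • e := by abel
    rw [hg_eq, map_add, LinearMap.add_apply, map_smul, LinearMap.smul_apply, pB_self, hQe,
      pB_apply, hRorth _ ht e heE]
    simp
  · intro f hf
    obtain ⟨t, ht⟩ := hdecomp f hf
    exact ⟨t, fun g hg => hRorth _ ht g hg⟩

end Cfsg.Agent.Helper33.OD59
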