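import Mathlib
import Cfsg.Agent.Helper96.OHDefs
import Cfsg.Agent.Helper69.ODDefs
import Cfsg.Agent.Helper33.ODDSBASIS
import Cfsg.Agent.Helper33.ODDSSUM
import Cfsg.Agent.Helper33.ODDSLINE
import Cfsg.Agent.Helper84.ODDSISO1
import Cfsg.Agent.Helper14.OEEISO
import Cfsg.Agent.Helper80.TSR2TSB
import Cfsg.Agent.Helper31.OHOPERP
import Cfsg.Agent.Helper96.OHEMB

set_option autoImplicit false
set_option linter.unusedSectionVars false
set_option linter.unusedVariables false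

/-!
# CALL OD part 2, piece PMC2 (helper33): nondegenerate spaces of the same odd dimension meeting
a space `E` with a radical of codimension one in a subspace of the maximal possible dimension have
the same discriminant class.
-/

namespace Cfsg.Agent.Helper33.OD59

open Module Polynomial Cfsg Cfsg.Geo
open Cfsg.Agent.Helper13.TIu Cfsg.Agent.Helper96.OH Cfsg.Agent.Helper69.OD
open scoped MatrixGroups

variable {ι : Type} [Fintype ι] [DecidableEq ι] {F : Type*} [Field F] (Q : (ι → F) → F)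

theorem pmc2_polar_left (hQ : IsNondegenerateQuadraticForm Q) (E : Submodule F (ι → F))
    (e f g : ι → F) (hg : g ∈ E) (t : F)
    (ht : ∀ g ∈ E, QuadraticMap.polar Q (f - t • e) g = 0) :
    QuadraticMap.polar Q f g = t * QuadraticMap.polar Q e g := by
  have hf_eq : f = (f - t • e) + t • e := by abel
  rw [← pB_apply Q hQ f g]
  conv_lhs => rw [hf_eq]
  rw [map_add, LinearMap.add_apply, map_smul, LinearMap.smul_apply, pB_apply, pB_apply, ht g hg,
    smul_eq_mul, zero_add]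

theorem pmc2_polar (hQ : IsNondegenerateQuadraticForm Q) (E : Submodule F (ι → F))
    (e : ι → F) (he : e ∈ E) (f f' : ι → F) (hf : f ∈ E) (hf' : f' ∈ E) (t t' : F)
    (ht : ∀ g ∈ E, QuadraticMap.polar Q (f - t • e) g = 0)
    (ht' : ∀ g ∈ E, QuadraticMap.polar Q (f' - t' • e) g = 0) :
    QuadraticMap.polar Q f f' = 2 * t * t' * Q e := by
  rw [pmc2_polar_left Q hQ E e f f' hf' t ht, QuadraticMap.polar_comm,
    pmc2_polar_left Q hQ E e f' e he t' ht', ← pB_apply Q hQ e e, pB_self]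
  ring

theorem pmc2_Q (hQ : IsNondegenerateQuadraticForm Q) (h2 : (2 : F) ≠ 0)
    (E : Submodule F (ι → F)) (e : ι → F) (he : e ∈ E) (f : ι → F) (hf : f ∈ E) (t : F)
    (ht : ∀ g ∈ E, QuadraticMap.polar Q (f - t • e) g = 0) : Q f = t ^ 2 * Q e := by
  have h := pmc2_polar Q hQ E e he f f hf hf t t ht ht
  rw [← pB_apply Q hQ f f, pB_self] at h
  have h3 : 2 * (Q f - t ^ 2 * Q e) = 0 := by linear_combination h
  rcases mul_eq_zero.mp h3 with h4 | h4
  · exact absurd h4 h2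
  · exact sub_eq_zero.mp h4

theorem pmc2_one [Fintype F] (hQ : IsNondegenerateQuadraticForm Q) (h2 : (2 : F) ≠ 0)
    (E : Submodule F (ι → F)) (e : ι → F) (he : e ∈ E) (hQe : Q e ≠ 0)
    (hE : ∀ f ∈ E, ∃ t : F, ∀ g ∈ E, QuadraticMap.polar Q (f - t • e) g = 0)
    (X : Submodule F (ι → F)) (hX : ONd Q X)
    (hfX : 2 * finrank F ↥(X ⊓ E) = finrank F X + 1) :
    ∃ X' : Submodule F (ι → F), ONd Q X' ∧ OPl Q X' ∧ finrank F X' + 1 = finrank F X ∧
      (ODs Q X ↔ (IsSquare (2 * Q e) ↔ ODs Q X')) := by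
  classical
  obtain ⟨f, hfXE, hQf⟩ : ∃ f ∈ X ⊓ E, Q f ≠ 0 := by
    by_contra hcon
    push Not at hcon
    have := Cfsg.Agent.Helper80.TSR2.r2_ts_bound Q hQ X (X ⊓ E) hX inf_le_left hcon
    omega
  have hfX' : f ∈ X := hfXE.1
  have hfE : f ∈ E := hfXE.2
  obtain ⟨t, ht⟩ := hE f hfE
  have hQf' : Q f = t ^ 2 * Q e := pmc2_Q Q hQ h2 E e he f hfE t ht
  have ht0 : t ≠ 0 := by
    rintro rfl
    apply hQf
    rw [hQf']
    ring
  have hf0 : f ≠ 0 := by
    rintro rfl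
    exact hQf (q_zero Q hQ)
  have hspan : ONd Q (Submodule.span F {f}) :=
    Cfsg.Agent.Helper96.OHEmb.oemb_nd_span Q hQ h2 f hQf
  have hle : Submodule.span F {f} ≤ X := by
    rw [Submodule.span_singleton_le_iff_mem]
    exact hfX'
  have hleE : Submodule.span F {f} ≤ E := by
    rw [Submodule.span_singleton_le_iff_mem]
    exact hfE
  obtain ⟨P, hPX, -, hP, hinf, hsup, horth, hdimP⟩ :=
    Cfsg.Agent.Helper31.OH5992.o_perp Q hQ 1 (opres_one Q) 1 Nat.one_pos (pow_one _) X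
      (Submodule.span F {f}) hX hspan hle (Cfsg.Agent.Helper96.OHEmb.oemb_map_one X)
      (Cfsg.Agent.Helper96.OHEmb.oemb_map_one _)
  have hfr1 : finrank F (Submodule.span F {f}) = 1 := finrank_span_singleton hf0
  have hts : ∀ g ∈ P ⊓ E, Q g = 0 := by
    intro g hg
    obtain ⟨s, hs⟩ := hE g hg.2
    have h1 := pmc2_polar Q hQ E e he f g hfE hg.2 t s ht hs
    have h0 : QuadraticMap.polar Q f g = 0 :=
      horth f (Submodule.mem_span_singleton_self f) g hg.1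
    rw [h0] at h1
    have hs0 : s = 0 := by
      rcases mul_eq_zero.mp h1.symm with h | h
      · rcases mul_eq_zero.mp h with h | h
        · rcases mul_eq_zero.mp h with h | h
          · exact absurd h h2
          · exact absurd h ht0
        · exact h
      · exact absurd h hQe
    rw [pmc2_Q Q hQ h2 E e he g hg.2 s hs, hs0]
    ring
  have hle2 : X ⊓ E ≤ Submodule.span F {f} ⊔ (P ⊓ E) := by
    intro g hg
    have hgX : g ∈ Submodule.span F {f} ⊔ P := by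
      rw [hsup]
      exact hg.1
    obtain ⟨a, ha, b, hb, rfl⟩ := Submodule.mem_sup.mp hgX
    refine Submodule.mem_sup.mpr ⟨a, ha, b, ⟨hb, ?_⟩, rfl⟩
    have : b = (a + b) - a := by abel
    rw [this]
    exact E.sub_mem hg.2 (hleE ha)
  have hd1 : finrank F ↥(X ⊓ E) ≤ 1 + finrank F ↥(P ⊓ E) := by
    have h1 := Submodule.finrank_mono hle2
    have h2' := Submodule.finrank_add_le_finrank_add_finrank (Submodule.span F {f}) (P ⊓ E)
    omega
  have hd2 := Cfsg.Agent.Helper80.TSR2.r2_ts_bound Q hQ P (P ⊓ E) hP inf_le_left hts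
  refine ⟨P, hP, ⟨P ⊓ E, inf_le_left, hts, by omega⟩, by omega, ?_⟩
  have h1 := ods_sup Q hQ (Submodule.span F {f}) P hspan hP horth
  rw [hsup] at h1
  rw [h1, ods_span_iff Q hQ f hf0]
  have h3 : 2 * Q f = t ^ 2 * (2 * Q e) := by
    rw [hQf']
    ring
  rw [h3, ods_sq_mul ht0]

theorem od_pm_class [Fintype F] (hQ : IsNondegenerateQuadraticForm Q) (h2 : (2 : F) ≠ 0)
    (E : Submodule F (ι → F)) (e : ι → F) (he : e ∈ E) (hQe : Q e ≠ 0)
    (hE : ∀ f ∈ E, ∃ t : F, ∀ g ∈ E, QuadraticMap.polar Q (f - t • e) g = 0)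
    (X₁ X₂ : Submodule F (ι → F)) (hX₁ : ONd Q X₁) (hX₂ : ONd Q X₂)
    (hdim : finrank F X₁ = finrank F X₂)
    (hf₁ : 2 * finrank F ↥(X₁ ⊓ E) = finrank F X₁ + 1)
    (hf₂ : 2 * finrank F ↥(X₂ ⊓ E) = finrank F X₂ + 1) :
    ODs Q X₁ ↔ ODs Q X₂ := by
  obtain ⟨P₁, hP₁, hpl₁, hd₁, h₁⟩ := pmc2_one Q hQ h2 E e he hQe hE X₁ hX₁ hf₁
  obtain ⟨P₂, hP₂, hpl₂, hd₂, h₂⟩ := pmc2_one Q hQ h2 E e he hQe hE X₂ hX₂ hf₂
  have hev : Even (finrank F P₁) := by
    obtain ⟨U, -, -, hU⟩ := hpl₁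
    exact ⟨finrank F U, by omega⟩
  have hiso : AreIsometricFor Q P₁ P₂ :=
    Cfsg.Agent.Helper14.OE5993.oe_iso Q hQ h2 P₁ P₂ hP₁ hP₂ (by omega) hev
      (iff_of_true hpl₁ hpl₂)
  rw [h₁, h₂, Cfsg.Agent.Helper84.OD59.ods_of_iso Q hQ P₁ P₂ hiso]

end Cfsg.Agent.Helper33.OD59
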