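import Mathlib
import Cfsg.Agent.Helper96.OHDefs
import Cfsg.Agent.Helper69.ODDefs
import Cfsg.Agent.Helper33.ODDSBASIS
import Cfsg.Agent.Helper33.ODDSSUM

set_option autoImplicit false
set_option linter.unusedSectionVars false
set_option linter.unusedVariables false

/-!
# CALL OD part 2, piece PMF (helper33): a similarity with nonsquare multiplier flips the
discriminant class in odd dimension.
-/

namespace Cfsg.Agent.Helper33.OD59

open Module Polynomial Cfsg Cfsg.Geo
open Cfsg.Agent.Helper13.TIu Cfsg.Agent.Helper96.OH Cfsg.Agent.Helper69.OD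
open scoped MatrixGroups

variable {ι : Type} [Fintype ι] [DecidableEq ι] {F : Type*} [Field F] (Q : (ι → F) → F)

theorem pmf_polar (S : Matrix ι ι F) (lam : F) (hS : ∀ v, Q (S.mulVec v) = lam * Q v)
    (x y : ι → F) :
    QuadraticMap.polar Q (Matrix.toLin' S x) (Matrix.toLin' S y) = lam * QuadraticMap.polar Q x y := by
  unfold QuadraticMap.polar
  rw [← map_add, Matrix.toLin'_apply, Matrix.toLin'_apply, Matrix.toLin'_apply, hS, hS, hS]
  ring

theorem pmf_inj (hQ : IsNondegenerateQuadraticForm Q) (S : Matrix ι ι F) (lam : F)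
    (hlam : lam ≠ 0) (hS : ∀ v, Q (S.mulVec v) = lam * Q v) :
    Function.Injective (Matrix.toLin' S) := by
  rw [← LinearMap.ker_eq_bot, Submodule.eq_bot_iff]
  intro x hx
  rw [LinearMap.mem_ker] at hx
  by_contra hx0
  obtain ⟨-, ⟨y, hy⟩⟩ := hQ.nondegenerate x hx0
  apply hy
  have h := pmf_polar Q S lam hS x y
  rw [hx] at h
  have h0 : QuadraticMap.polar Q (0 : ι → F) (Matrix.toLin' S y) = 0 := by
    have := pB_apply Q hQ 0 (Matrix.toLin' S y)
    rw [← this]
    simp
  rw [h0] at h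
  rcases mul_eq_zero.mp h.symm with h3 | h3
  · exact absurd h3 hlam
  · exact h3

theorem pmf_odd_pow [Fintype F] (lam x : F) (hlam : ¬ IsSquare lam) (hx : x ≠ 0) (k : ℕ)
    (hk : Odd k) : IsSquare (lam ^ k * x) ↔ ¬ IsSquare x := by
  have hlam0 : lam ≠ 0 := by
    rintro rfl
    exact hlam ⟨0, by simp⟩
  obtain ⟨j, rfl⟩ := hk
  have h1 : lam ^ (2 * j + 1) * x = (lam ^ j) ^ 2 * (lam * x) := by ring
  rw [h1, ods_sq_mul (pow_ne_zero j hlam0), ods_sq_prod hlam0 hx]
  constructor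
  · intro h hx'
    exact hlam (h.mpr hx')
  · intro h
    exact ⟨fun h' => absurd h' hlam, fun h' => absurd h' h⟩

theorem od_pm_flip [Fintype F] (hQ : IsNondegenerateQuadraticForm Q) (h2 : (2 : F) ≠ 0)
    (S : Matrix ι ι F) (lam : F) (hlam : ¬ IsSquare lam) (hS : ∀ v, Q (S.mulVec v) = lam * Q v)
    (W : Submodule F (ι → F)) (hW : ONd Q W) (hodd : Odd (finrank F W)) :
    ONd Q (W.map (Matrix.toLin' S)) ∧ finrank F (W.map (Matrix.toLin' S)) = finrank F W ∧
      (ODs Q (W.map (Matrix.toLin' S)) ↔ ¬ ODs Q W) := by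
  classical
  have hlam0 : lam ≠ 0 := by
    rintro rfl
    exact hlam ⟨0, by simp⟩
  have hinj := pmf_inj Q hQ S lam hlam0 hS
  have hpol := pmf_polar Q S lam hS
  have hnd : ONd Q (W.map (Matrix.toLin' S)) := by
    intro w hw hw0
    obtain ⟨x, hx, rfl⟩ := hw
    have hx0 : x ≠ 0 := by
      rintro rfl
      exact hw0 (map_zero _)
    obtain ⟨⟨y, hy, hy1⟩, ⟨y', hy', hy1'⟩⟩ := hW x hx hx0
    refine ⟨⟨Matrix.toLin' S y, Submodule.mem_map_of_mem hy, ?_⟩,
      ⟨Matrix.toLin' S y', Submodule.mem_map_of_mem hy', ?_⟩⟩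
    · rw [hpol]
      exact mul_ne_zero hlam0 hy1
    · rw [hpol]
      exact mul_ne_zero hlam0 hy1'
  have hfr : finrank F (W.map (Matrix.toLin' S)) = finrank F W :=
    (LinearEquiv.finrank_eq (Submodule.equivMapOfInjective (Matrix.toLin' S) hinj W)).symm
  refine ⟨hnd, hfr, ?_⟩
  obtain ⟨e⟩ : Nonempty (Basis (Fin (finrank F W)) F W) := ⟨Module.finBasis F W⟩
  obtain ⟨e', he'⟩ : ∃ e' : Basis (Fin (finrank F W)) F (W.map (Matrix.toLin' S)),
      ∀ k, ((e' k : W.map (Matrix.toLin' S)) : ι → F) = Matrix.toLin' S (e k : ι → F) :=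
    ⟨e.map (Submodule.equivMapOfInjective (Matrix.toLin' S) hinj W), fun k => by
      rw [Basis.map_apply, Submodule.coe_equivMapOfInjective_apply]⟩
  rw [ods_iff_basis Q hQ _ e', ods_iff_basis Q hQ W e]
  have hG : (Matrix.of fun i j : Fin (finrank F W) =>
      QuadraticMap.polar Q ((e' i : W.map (Matrix.toLin' S)) : ι → F)
        ((e' j : W.map (Matrix.toLin' S)) : ι → F)) =
      lam • (Matrix.of fun i j : Fin (finrank F W) =>
        QuadraticMap.polar Q (e i : ι → F) (e j : ι → F)) := by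
    ext i j
    rw [Matrix.smul_apply, Matrix.of_apply, Matrix.of_apply, he', he', hpol, smul_eq_mul]
  rw [hG, Matrix.det_smul, Fintype.card_fin]
  exact pmf_odd_pow lam _ hlam (ods_det_ne_zero Q hQ W hW e) _ hodd

end Cfsg.Agent.Helper33.OD59
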