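import Cfsg.Agent.Helper45.OctE

set_option autoImplicit false
set_option linter.unusedSectionVars false
set_option linter.unusedSimpArgs false
set_option linter.unusedVariables false
set_option linter.style.haveILetI false

/-!
Helper33: piece XS of CALL S0817 (helper45, triality of `PΩ⁺₈(q)`): the automorphism of `PΩ(Q)`
induced by a semisimilarity pair maps the root group of a subspace `L` onto the root group of its
image.
-/

universe u

namespace Cfsg.Agent.Helper33.OctP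

open Cfsg Matrix Module Cfsg.Agent.Helper45 Cfsg.Agent.Helper45.AO Cfsg.Agent.Helper45.OO
  Cfsg.Agent.Helper45.Oct

section Generic

variable {ι : Type} [Fintype ι] [DecidableEq ι] {F : Type u} [Field F] [Fintype F]
  (Q : QuadraticForm F (ι → F))

/-- the conjugate of `s` by a semisimilarity lies in the root group of `L'` iff `s` lies in the
root group of `L` -/
theorem semiΩ_mem_XL (g : GL ι F) (σ : F ≃+* F) (hg : IsSemisimilarityPair ⇑Q g σ)
    (L L' : Submodule F (ι → F)) (hLL' : ∀ x, semiMap g σ x ∈ L' ↔ x ∈ L) (s : ↥(Omega F ⇑Q)) :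
    semiΩ ⇑Q g σ hg s ∈ XL Q L' ↔ s ∈ XL Q L := by
  obtain ⟨c, hc⟩ := id hg
  have hS := ss_semi Q c hc
  have hc0 : (c : F) ≠ 0 := c.ne_zero
  rw [mem_XL, mem_XL]
  constructor
  · rintro ⟨h1, h2⟩
    refine ⟨fun x => ?_, fun y hy => ?_⟩
    · rw [← hLL', hS.sub, ← mv_semiΩ Q g σ hg s x]
      exact h1 _
    · have h3 : mv ⇑Q ((semiΩ ⇑Q g σ hg s : ↥(Omega F ⇑Q)) : ↥(isometryGroup F ⇑Q))
          (semiMap g σ y) = semiMap g σ y := by
        apply h2
        intro w' hw'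
        obtain ⟨w, rfl⟩ : ∃ w, semiMap g σ w = w' := ⟨semiInv g σ w', semiMap_semiInv g σ w'⟩
        rw [hS.polar, hy w ((hLL' w).1 hw'), map_zero, mul_zero]
      rw [mv_semiΩ] at h3
      have := congrArg (semiInv g σ) h3
      rwa [semiInv_semiMap, semiInv_semiMap] at this
  · rintro ⟨h1, h2⟩
    refine ⟨fun y => ?_, fun y hy => ?_⟩
    · obtain ⟨x, rfl⟩ : ∃ x, semiMap g σ x = y := ⟨semiInv g σ y, semiMap_semiInv g σ y⟩
      rw [mv_semiΩ, ← hS.sub, hLL']
      exact h1 x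
    · obtain ⟨x, rfl⟩ : ∃ x, semiMap g σ x = y := ⟨semiInv g σ y, semiMap_semiInv g σ y⟩
      rw [mv_semiΩ, h2 x]
      intro w hw
      have h3 := hy (semiMap g σ w) ((hLL' w).2 hw)
      rw [hS.polar] at h3
      rcases mul_eq_zero.mp h3 with h4 | h4
      · exact absurd h4 hc0
      · exact (map_eq_zero_iff σ σ.injective).mp h4

/-- PIECE XS -/
theorem xlb_semi (g : GL ι F) (σ : F ≃+* F) (hg : IsSemisimilarityPair ⇑Q g σ)
    (L L' : Submodule F (ι → F)) (hLL' : ∀ x, semiMap g σ x ∈ L' ↔ x ∈ L) :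
    (XLb Q L).map (semiAut ⇑Q g σ hg).toMonoidHom = XLb Q L' := by
  apply le_antisymm
  · rintro x hx
    obtain ⟨y, hy, rfl⟩ := Subgroup.mem_map.mp hx
    obtain ⟨s, hs, rfl⟩ := Subgroup.mem_map.mp hy
    exact Subgroup.mem_map.mpr ⟨semiΩ ⇑Q g σ hg s, (semiΩ_mem_XL Q g σ hg L L' hLL' s).2 hs, rfl⟩
  · rintro x hx
    obtain ⟨s', hs', rfl⟩ := Subgroup.mem_map.mp hx
    refine Subgroup.mem_map.mpr ⟨piΩ Q ((semiΩ ⇑Q g σ hg).symm s'),
      Subgroup.mem_map.mpr ⟨_, ?_, rfl⟩, ?_⟩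
    · rw [← semiΩ_mem_XL Q g σ hg L L' hLL', MulEquiv.apply_symm_apply]
      exact hs'
    · show QuotientGroup.mk (semiΩ ⇑Q g σ hg ((semiΩ ⇑Q g σ hg).symm s')) = QuotientGroup.mk s'
      rw [MulEquiv.apply_symm_apply]

end Generic

end Cfsg.Agent.Helper33.OctP
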