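-- helper33 library: character idempotents of an abelian subgroup and the modified action on a
-- homogeneous component (linear part of the characteristic 3 analysis).  Add-only once landed.
import Cfsg.Agent.Helper33.HHQuad

set_option autoImplicit false

namespace Cfsg.Agent.Helper33.QI

open Module
open scoped commutatorElement

section Chars

variable {F : Type*} [Field F]

/-- A nontrivial character sums to zero. -/
theorem sum_hom_eq_zero {G : Type*} [Group G] [Fintype G] (φ : G →* Fˣ) (hφ : φ ≠ 1) :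
    ∑ g : G, ((φ g : Fˣ) : F) = 0 := by
  obtain ⟨g0, hg0⟩ : ∃ g0, φ g0 ≠ 1 := by
    by_contra h
    push Not at h
    exact hφ (MonoidHom.ext (fun g => by rw [h g, MonoidHom.one_apply]))
  have h1 : ∑ g : G, ((φ g : Fˣ) : F) = ((φ g0 : Fˣ) : F) * ∑ g : G, ((φ g : Fˣ) : F) := by
    rw [Finset.mul_sum, ← Equiv.sum_comp (Equiv.mulLeft g0) (fun g => ((φ g : Fˣ) : F))]
    apply Finset.sum_congr rfl
    intro g _
    simp only [Equiv.coe_mulLeft, map_mul, Units.val_mul]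
  have h2 : (((φ g0 : Fˣ) : F) - 1) * ∑ g : G, ((φ g : Fˣ) : F) = 0 := by
    rw [sub_mul, one_mul, ← h1, sub_self]
  rcases mul_eq_zero.mp h2 with h | h
  · exfalso
    apply hg0
    apply Units.ext
    rw [Units.val_one]
    exact sub_eq_zero.mp h
  · exact h

end Chars

section Idem

variable {F : Type*} [Field F] {V : Type*} [AddCommGroup V] [Module F V]
variable {H : Type*} [Group H]

section Basic

variable (ρ : H →* Module.End F V) (E : Subgroup H) [Fintype E]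

/-- The idempotent of the character `χ` of `E`. -/
noncomputable def idem (χ : ↥E →* Fˣ) : Module.End F V :=
  ((Fintype.card E : F))⁻¹ • ∑ e : ↥E, ((χ e⁻¹ : Fˣ) : F) • ρ (e : H)

theorem map_mul_idem (χ : ↥E →* Fˣ) (e0 : ↥E) :
    ρ (e0 : H) * idem ρ E χ = ((χ e0 : Fˣ) : F) • idem ρ E χ := by
  unfold idem
  rw [mul_smul_comm, smul_comm ((χ e0 : Fˣ) : F)]
  congr 1
  rw [Finset.mul_sum, Finset.smul_sum]
  rw [← Equiv.sum_comp (Equiv.mulLeft e0)
    (fun e : ↥E => ((χ e0 : Fˣ) : F) • (((χ e⁻¹ : Fˣ) : F) • ρ (e : H)))]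
  apply Finset.sum_congr rfl
  intro e _
  simp only [Equiv.coe_mulLeft]
  rw [mul_smul_comm, smul_smul, ← Units.val_mul, Subgroup.coe_mul, map_mul]
  have h : χ e0 * χ (e0 * e)⁻¹ = χ e⁻¹ := by
    rw [map_inv, map_inv, map_mul, mul_inv_rev, mul_comm (χ e)⁻¹, mul_inv_cancel_left]
  rw [h]

theorem commute_idem (χ : ↥E →* Fˣ) (T : Module.End F V)
    (hT : ∀ e : ↥E, T * ρ (e : H) = ρ (e : H) * T) :
    T * idem ρ E χ = idem ρ E χ * T := by
  unfold idem
  rw [mul_smul_comm, smul_mul_assoc, Finset.mul_sum, Finset.sum_mul]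
  congr 1
  apply Finset.sum_congr rfl
  intro e _
  rw [mul_smul_comm, smul_mul_assoc, hT e]

theorem idem_mul_idem_aux (χ χ' : ↥E →* Fˣ) :
    idem ρ E χ * idem ρ E χ' =
      ((Fintype.card E : F)⁻¹ * ∑ e : ↥E, (((χ⁻¹ * χ') e : Fˣ) : F)) • idem ρ E χ' := by
  have hterm : ∀ e : ↥E, (((χ e⁻¹ : Fˣ) : F) • ρ (e : H)) * idem ρ E χ' =
      (((χ⁻¹ * χ') e : Fˣ) : F) • idem ρ E χ' := by
    intro e
    rw [smul_mul_assoc, map_mul_idem, smul_smul, MonoidHom.mul_apply, MonoidHom.inv_apply,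
      map_inv, Units.val_mul]
  conv_lhs => rw [idem]
  rw [smul_mul_assoc, Finset.sum_mul, Finset.sum_congr rfl (fun e _ => hterm e),
    ← Finset.sum_smul, smul_smul]

theorem idem_idem (hE : (Fintype.card E : F) ≠ 0) (χ : ↥E →* Fˣ) :
    idem ρ E χ * idem ρ E χ = idem ρ E χ := by
  rw [idem_mul_idem_aux, inv_mul_cancel χ]
  simp only [MonoidHom.one_apply, Units.val_one, Finset.sum_const, Finset.card_univ,
    nsmul_eq_mul, mul_one]
  rw [inv_mul_cancel₀ hE, one_smul]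

theorem idem_mul_idem_of_ne {χ χ' : ↥E →* Fˣ} (h : χ ≠ χ') :
    idem ρ E χ * idem ρ E χ' = 0 := by
  rw [idem_mul_idem_aux, sum_hom_eq_zero (χ⁻¹ * χ') (fun h' => h (inv_mul_eq_one.mp h')),
    mul_zero, zero_smul]

/-- An element normalizing `E` either commutes with the idempotent of `χ` or moves it to an
orthogonal idempotent. -/
theorem idem_conj (g : H) (hg : ∀ e ∈ E, g * e * g⁻¹ ∈ E)
    (hg' : ∀ e ∈ E, g⁻¹ * e * g ∈ E) (χ : ↥E →* Fˣ) :
    ρ g * idem ρ E χ = idem ρ E χ * ρ g ∨ idem ρ E χ * ρ g * idem ρ E χ = 0 := by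
  let σ : ↥E ≃* ↥E :=
    { toFun := fun e => ⟨g * e * g⁻¹, hg e e.2⟩
      invFun := fun e => ⟨g⁻¹ * e * g, hg' e e.2⟩
      left_inv := fun e => Subtype.ext (by simp [mul_assoc])
      right_inv := fun e => Subtype.ext (by simp [mul_assoc])
      map_mul' := fun e e' => Subtype.ext (by simp [mul_assoc]) }
  have key : ρ g * idem ρ E χ = idem ρ E (χ.comp σ.symm.toMonoidHom) * ρ g := by
    unfold idem
    rw [mul_smul_comm, smul_mul_assoc]
    congr 1
    rw [Finset.mul_sum, Finset.sum_mul]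
    rw [← Equiv.sum_comp σ.toEquiv (fun e : ↥E =>
      ((((χ.comp σ.symm.toMonoidHom) e⁻¹ : Fˣ) : F) • ρ (e : H)) * ρ g)]
    apply Finset.sum_congr rfl
    intro e _
    have h1 : σ.symm ((σ e)⁻¹) = e⁻¹ := by rw [map_inv, MulEquiv.symm_apply_apply]
    have h2 : ρ ((σ e : ↥E) : H) * ρ g = ρ g * ρ (e : H) := by
      show ρ (g * (e : H) * g⁻¹) * ρ g = ρ g * ρ (e : H)
      rw [← map_mul, ← map_mul]
      congr 1
      group
    show ρ g * ((χ e⁻¹ : Fˣ) : F) • ρ (e : H) =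
      (((χ (σ.symm (σ e)⁻¹) : Fˣ) : F) • ρ ((σ e : ↥E) : H)) * ρ g
    rw [h1, smul_mul_assoc, h2, mul_smul_comm]
  by_cases h : χ.comp σ.symm.toMonoidHom = χ
  · left
    rw [key, h]
  · right
    rw [mul_assoc, key, ← mul_assoc, idem_mul_idem_of_ne ρ E (fun h' => h h'.symm), zero_mul]

/-- An endomorphism fixing all character idempotents is the identity (when characters separate
the points of `E`). -/
theorem eq_one_of_forall_idem (hE : (Fintype.card E : F) ≠ 0) [Fintype (↥E →* Fˣ)]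
    (hX : (Fintype.card (↥E →* Fˣ) : F) ≠ 0)
    (hsep : ∀ e : ↥E, e ≠ 1 → ∃ ψ : ↥E →* Fˣ, ψ e ≠ 1) (T : Module.End F V)
    (hT : ∀ χ : ↥E →* Fˣ, T * idem ρ E χ = idem ρ E χ) : T = 1 := by
  classical
  have h1 : ∀ e : ↥E, ∑ χ : ↥E →* Fˣ, ((χ e⁻¹ : Fˣ) : F) • ρ (e : H) =
      if e = 1 then (Fintype.card (↥E →* Fˣ) : F) • (1 : Module.End F V) else 0 := by
    intro e
    rw [← Finset.sum_smul]
    split_ifs with he
    · subst he
      simp
    · have he' : e⁻¹ ≠ 1 := by simpa using he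
      obtain ⟨ψ, hψ⟩ := hsep e⁻¹ he'
      have h2 := sum_hom_eq_zero (F := F) (MonoidHom.eval e⁻¹ : (↥E →* Fˣ) →* Fˣ) (by
        intro h
        apply hψ
        have := congrArg (fun f => f ψ) h
        simpa using this)
      have h3 : ∑ χ : ↥E →* Fˣ, ((χ e⁻¹ : Fˣ) : F) = 0 := h2
      rw [h3, zero_smul]
  have hsum : ∑ χ : ↥E →* Fˣ, idem ρ E χ =
      ((Fintype.card E : F)⁻¹ * (Fintype.card (↥E →* Fˣ) : F)) • (1 : Module.End F V) := by
    unfold idem
    rw [← Finset.smul_sum, Finset.sum_comm, Finset.sum_congr rfl (fun e _ => h1 e),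
      Finset.sum_ite_eq' Finset.univ (1 : ↥E), if_pos (Finset.mem_univ _), smul_smul]
  have h2 : T * ∑ χ : ↥E →* Fˣ, idem ρ E χ = ∑ χ : ↥E →* Fˣ, idem ρ E χ := by
    rw [Finset.mul_sum]
    exact Finset.sum_congr rfl (fun χ _ => hT χ)
  rw [hsum, mul_smul_comm, mul_one] at h2
  have hc : (Fintype.card E : F)⁻¹ * (Fintype.card (↥E →* Fˣ) : F) ≠ 0 :=
    mul_ne_zero (inv_ne_zero hE) hX
  exact smul_right_injective _ hc h2

end Basic

/-! ### The modified action -/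

/-- The elements of `H` commuting with `ε`. -/
def commSub (ρ : H →* Module.End F V) (ε : Module.End F V) : Subgroup H where
  carrier := {g | ρ g * ε = ε * ρ g}
  mul_mem' := by
    intro a b ha hb
    change ρ a * ε = ε * ρ a at ha
    change ρ b * ε = ε * ρ b at hb
    change ρ (a * b) * ε = ε * ρ (a * b)
    rw [map_mul, mul_assoc, hb, ← mul_assoc, ha, mul_assoc]
  one_mem' := by simp
  inv_mem' := by
    intro a ha
    change ρ a * ε = ε * ρ a at ha
    change ρ a⁻¹ * ε = ε * ρ a⁻¹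
    have h1 : ρ a⁻¹ * ρ a = 1 := by rw [← map_mul, inv_mul_cancel, map_one]
    have h2 : ρ a * ρ a⁻¹ = 1 := by rw [← map_mul, mul_inv_cancel, map_one]
    calc ρ a⁻¹ * ε = ρ a⁻¹ * ε * (ρ a * ρ a⁻¹) := by rw [h2, mul_one]
      _ = ρ a⁻¹ * (ε * ρ a) * ρ a⁻¹ := by simp only [mul_assoc]
      _ = ρ a⁻¹ * (ρ a * ε) * ρ a⁻¹ := by rw [ha]
      _ = (ρ a⁻¹ * ρ a) * ε * ρ a⁻¹ := by simp only [mul_assoc]
      _ = ε * ρ a⁻¹ := by rw [h1, one_mul]

theorem mem_commSub {ρ : H →* Module.End F V} {ε : Module.End F V} {g : H} :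
    g ∈ commSub ρ ε ↔ ρ g * ε = ε * ρ g := Iff.rfl

/-- The elements of `H` acting trivially on the image of `ε`. -/
def fixK (ρ : H →* Module.End F V) (ε : Module.End F V) : Subgroup H where
  carrier := {g | ρ g * ε = ε}
  mul_mem' := by
    intro a b ha hb
    change ρ a * ε = ε at ha
    change ρ b * ε = ε at hb
    change ρ (a * b) * ε = ε
    rw [map_mul, mul_assoc, hb, ha]
  one_mem' := by simp
  inv_mem' := by
    intro a ha
    change ρ a * ε = ε at ha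
    change ρ a⁻¹ * ε = ε
    have h1 : ρ a⁻¹ * ρ a = 1 := by rw [← map_mul, inv_mul_cancel, map_one]
    calc ρ a⁻¹ * ε = ρ a⁻¹ * (ρ a * ε) := by rw [ha]
      _ = (ρ a⁻¹ * ρ a) * ε := by rw [mul_assoc]
      _ = ε := by rw [h1, one_mul]

theorem mem_fixK {ρ : H →* Module.End F V} {ε : Module.End F V} {g : H} :
    g ∈ fixK ρ ε ↔ ρ g * ε = ε := Iff.rfl

variable {ρ : H →* Module.End F V} {ε : Module.End F V}

theorem fixK_conj {g k : H} (hg : g ∈ commSub ρ ε) (hk : k ∈ fixK ρ ε) :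
    g * k * g⁻¹ ∈ fixK ρ ε := by
  have hg1 : ρ g * ε = ε * ρ g := hg
  have hgi : ρ g⁻¹ * ε = ε * ρ g⁻¹ := (commSub ρ ε).inv_mem hg
  have hk1 : ρ k * ε = ε := hk
  show ρ (g * k * g⁻¹) * ε = ε
  calc ρ (g * k * g⁻¹) * ε = ρ g * ρ k * (ρ g⁻¹ * ε) := by rw [map_mul, map_mul, mul_assoc]
    _ = ρ g * (ρ k * ε) * ρ g⁻¹ := by rw [hgi]; simp only [mul_assoc]
    _ = ε * (ρ g * ρ g⁻¹) := by rw [hk1, hg1, mul_assoc]
    _ = ε := by rw [← map_mul, mul_inv_cancel, map_one, mul_one]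

theorem fixK_comm {a x : H} (ha : a ∈ fixK ρ ε) (hx : x ∈ commSub ρ ε) : ⁅a, x⁆ ∈ fixK ρ ε := by
  have e : ⁅a, x⁆ = a * (x * a⁻¹ * x⁻¹) := by rw [commutatorElement_def]; group
  rw [e]
  exact (fixK ρ ε).mul_mem ha (fixK_conj hx ((fixK ρ ε).inv_mem ha))

theorem fixK_mul_left {k g : H} (hk : k ∈ fixK ρ ε) (hg : g ∈ commSub ρ ε) :
    ρ (k * g) * ε = ρ g * ε := by
  have hg1 : ρ g * ε = ε * ρ g := hg
  have hk1 : ρ k * ε = ε := hk
  calc ρ (k * g) * ε = ρ k * (ρ g * ε) := by rw [map_mul, mul_assoc]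
    _ = (ρ k * ε) * ρ g := by rw [hg1, mul_assoc]
    _ = ρ g * ε := by rw [hk1, hg1]

theorem fixK_of_eq {g g' : H} (hg' : g' ∈ commSub ρ ε) (h : ρ g * ε = ρ g' * ε) :
    g * g'⁻¹ ∈ fixK ρ ε := by
  have hi : ρ g'⁻¹ * ε = ε * ρ g'⁻¹ := (commSub ρ ε).inv_mem hg'
  show ρ (g * g'⁻¹) * ε = ε
  calc ρ (g * g'⁻¹) * ε = ρ g * (ρ g'⁻¹ * ε) := by rw [map_mul, mul_assoc]
    _ = (ρ g * ε) * ρ g'⁻¹ := by rw [hi, mul_assoc]
    _ = ρ g' * (ε * ρ g'⁻¹) := by rw [h, mul_assoc]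
    _ = (ρ g' * ρ g'⁻¹) * ε := by rw [← hi, mul_assoc]
    _ = ε := by rw [← map_mul, mul_inv_cancel, map_one, one_mul]

theorem comm_eq_of_comm_fixK {u v : H} (huv : ⁅u, v⁆ ∈ fixK ρ ε) (hvu : v * u ∈ commSub ρ ε) :
    ρ (u * v) * ε = ρ (v * u) * ε := by
  have e : u * v = ⁅u, v⁆ * (v * u) := by rw [commutatorElement_def]; group
  rw [e]
  exact fixK_mul_left huv hvu

variable (ρ ε)

/-- The modified action: `g` acts as `ρ g` on the image of `ε` and trivially on its kernel. -/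
noncomputable def modM (hε : ε * ε = ε) : ↥(commSub ρ ε) →* Module.End F V where
  toFun g := ρ (g : H) * ε + (1 - ε)
  map_one' := by simp
  map_mul' := by
    intro a b
    have hb : ρ (b : H) * ε = ε * ρ (b : H) := b.2
    have e1 : ε * (1 - ε) = 0 := by rw [mul_sub, mul_one, hε, sub_self]
    have e2 : (1 - ε) * ε = 0 := by rw [sub_mul, one_mul, hε, sub_self]
    have t1 : ρ (a : H) * ε * (ρ (b : H) * ε) = ρ (a : H) * ρ (b : H) * ε := by
      calc ρ (a : H) * ε * (ρ (b : H) * ε) = ρ (a : H) * ε * (ε * ρ (b : H)) := by rw [hb]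
        _ = ρ (a : H) * (ε * ε) * ρ (b : H) := by simp only [mul_assoc]
        _ = ρ (a : H) * (ε * ρ (b : H)) := by rw [hε, mul_assoc]
        _ = ρ (a : H) * ρ (b : H) * ε := by rw [← hb, mul_assoc]
    have t2 : ρ (a : H) * ε * (1 - ε) = 0 := by rw [mul_assoc, e1, mul_zero]
    have t3 : (1 - ε) * (ρ (b : H) * ε) = 0 := by rw [hb, ← mul_assoc, e2, zero_mul]
    have t4 : (1 - ε) * (1 - ε) = 1 - ε := by rw [mul_sub, mul_one, e2, sub_zero]
    rw [Subgroup.coe_mul, map_mul, add_mul, mul_add, mul_add, t1, t2, t3, t4, add_zero, zero_add]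

/-- The modified action as a homomorphism to the unit group. -/
noncomputable def modU (hε : ε * ε = ε) : ↥(commSub ρ ε) →* (Module.End F V)ˣ :=
  (modM ρ ε hε).toHomUnits

theorem modU_val (hε : ε * ε = ε) (g : ↥(commSub ρ ε)) :
    ((modU ρ ε hε g : (Module.End F V)ˣ) : Module.End F V) = ρ (g : H) * ε + (1 - ε) := rfl

theorem modU_eq_iff (hε : ε * ε = ε) (g g' : ↥(commSub ρ ε)) :
    modU ρ ε hε g = modU ρ ε hε g' ↔ ρ (g : H) * ε = ρ (g' : H) * ε := by
  rw [Units.ext_iff, modU_val, modU_val]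
  exact add_left_inj _

theorem modU_quad (hε : ε * ε = ε) (g : ↥(commSub ρ ε)) (hq : (ρ (g : H) - 1) ^ 2 = 0) :
    (((modU ρ ε hε g : (Module.End F V)ˣ) : Module.End F V) - 1) ^ 2 = 0 := by
  have hg : ρ (g : H) * ε = ε * ρ (g : H) := g.2
  have e : ((modU ρ ε hε g : (Module.End F V)ˣ) : Module.End F V) - 1 = (ρ (g : H) - 1) * ε := by
    rw [modU_val, sub_mul, one_mul]
    abel
  have hc : ε * (ρ (g : H) - 1) = (ρ (g : H) - 1) * ε := by
    rw [mul_sub, sub_mul, mul_one, one_mul, hg]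
  rw [e, pow_two]
  calc (ρ (g : H) - 1) * ε * ((ρ (g : H) - 1) * ε)
      = (ρ (g : H) - 1) * (ε * (ρ (g : H) - 1)) * ε := by simp only [mul_assoc]
    _ = (ρ (g : H) - 1) * ((ρ (g : H) - 1) * ε) * ε := by rw [hc]
    _ = (ρ (g : H) - 1) ^ 2 * (ε * ε) := by rw [pow_two]; simp only [mul_assoc]
    _ = 0 := by rw [hq, zero_mul]

end Idem

end Cfsg.Agent.Helper33.QI
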