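-- helper33 library: quadratic elements acting on abelian sets via the modified action,
-- group-level form of `quad_centralizes`, separating characters.  Add-only once landed.
import Cfsg.Agent.Helper33.QuadIdem

set_option autoImplicit false

namespace Cfsg.Agent.Helper33.QI

open Module
open scoped commutatorElement

variable {F : Type*} [Field F] {V : Type*} [AddCommGroup V] [Module F V]
variable {H : Type*} [Group H]

/-- Group-level form of `quad_centralizes`. -/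
theorem quad_centralizes_group {p q : ℕ} [Fact p.Prime] [Fact q.Prime] [CharP F p]
    [FiniteDimensional F V] (hp2 : p ≠ 2) (hpq : p ≠ q) (ρ : H →* Module.End F V)
    (hρ : Function.Injective ρ) (R : Subgroup H) [Finite R] (hR : IsPGroup q R) (a : H)
    (ha : (ρ a - 1) ^ 2 = 0) (hnorm : ∀ y ∈ R, a * y * a⁻¹ ∈ R)
    (hex : ¬ (p = 3 ∧ q = 2 ∧ ∃ u ∈ R, ∃ v ∈ R, u * v ≠ v * u)) :
    ∀ y ∈ R, a * y * a⁻¹ = y := by
  classical
  let r : H →* (Module.End F V)ˣ := ρ.toHomUnits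
  have hr : Function.Injective r := by
    intro x y hxy
    apply hρ
    have := congrArg (fun u : (Module.End F V)ˣ => (u : Module.End F V)) hxy
    exact this
  haveI : Finite ↥(R.map r) := Finite.of_surjective
    (fun x : ↥R => (⟨r x, Subgroup.mem_map_of_mem r x.2⟩ : ↥(R.map r))) (by
      rintro ⟨_, x, hx, rfl⟩
      exact ⟨⟨x, hx⟩, rfl⟩)
  have hres := HHQ.quad_centralizes hp2 hpq (R.map r) (hR.map r) (r a) ha
    (by
      rintro _ ⟨y, hy, rfl⟩
      rw [← map_inv, ← map_mul, ← map_mul]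
      exact Subgroup.mem_map_of_mem r (hnorm y hy))
    (by
      rintro ⟨h1, h2, _, ⟨u, hu, rfl⟩, _, ⟨v, hv, rfl⟩, huv⟩
      apply hex
      refine ⟨h1, h2, u, hu, v, hv, ?_⟩
      intro h
      apply huv
      rw [← map_mul, ← map_mul, h])
  intro y hy
  have h := hres (r y) (Subgroup.mem_map_of_mem r hy)
  rw [← map_inv, ← map_mul, ← map_mul] at h
  exact hr h

/-- A quadratic element normalizing a set `S` of elements of a `q`-group which commute in the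
modified action centralizes `S` in the modified action. -/
theorem modU_abelian_centralizes {p q : ℕ} [Fact p.Prime] [Fact q.Prime] [CharP F p]
    [FiniteDimensional F V] (hp2 : p ≠ 2) (hpq : p ≠ q) (ρ : H →* Module.End F V)
    (ε : Module.End F V) (hε : ε * ε = ε) (a : H) (ha : a ∈ commSub ρ ε)
    (hquad : (ρ a - 1) ^ 2 = 0) (Q : Subgroup H) [Finite Q] (hQ : IsPGroup q Q)
    (hQΓ : Q ≤ commSub ρ ε) (S : Set H) (hSQ : S ⊆ Q) (hSa : ∀ u ∈ S, a * u * a⁻¹ ∈ S)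
    (hScomm : ∀ u ∈ S, ∀ v ∈ S, ρ (u * v) * ε = ρ (v * u) * ε) :
    ∀ u ∈ S, ρ (a * u * a⁻¹) * ε = ρ u * ε := by
  classical
  obtain ⟨mU, hmU⟩ : ∃ mU : ↥(commSub ρ ε) →* (Module.End F V)ˣ, mU = modU ρ ε hε := ⟨_, rfl⟩
  have hiff : ∀ g g' : ↥(commSub ρ ε), mU g = mU g' ↔ ρ (g : H) * ε = ρ (g' : H) * ε := by
    intro g g'
    rw [hmU]
    exact modU_eq_iff ρ ε hε g g'
  obtain ⟨Qbig, hQbig⟩ : ∃ Qbig : Subgroup (Module.End F V)ˣ,
      Qbig = (Q.subgroupOf (commSub ρ ε)).map mU := ⟨_, rfl⟩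
  haveI : Finite ↥(Q.subgroupOf (commSub ρ ε)) := Finite.of_injective
    (fun x : ↥(Q.subgroupOf (commSub ρ ε)) =>
      (⟨((x : ↥(commSub ρ ε)) : H), Subgroup.mem_subgroupOf.mp x.2⟩ : ↥Q)) (by
      intro x y hxy
      have h := congrArg Subtype.val hxy
      exact Subtype.ext (Subtype.ext h))
  haveI : Finite ↥Qbig := by
    rw [hQbig]
    exact Finite.of_surjective
      (fun x : ↥(Q.subgroupOf (commSub ρ ε)) =>
        (⟨mU x, Subgroup.mem_map_of_mem mU x.2⟩ : ↥((Q.subgroupOf (commSub ρ ε)).map mU))) (by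
        rintro ⟨_, x, hx, rfl⟩
        exact ⟨⟨x, hx⟩, rfl⟩)
  have hQbigp : IsPGroup q Qbig := by
    rw [hQbig]
    exact (hQ.comap_subtype).map mU
  obtain ⟨Sm, hSm⟩ : ∃ Sm : Set (Module.End F V)ˣ,
      Sm = {w | ∃ u, ∃ hu : u ∈ S, w = mU ⟨u, hQΓ (hSQ hu)⟩} := ⟨_, rfl⟩
  have hSmem : ∀ u (hu : u ∈ S), mU ⟨u, hQΓ (hSQ hu)⟩ ∈ Sm := by
    intro u hu
    rw [hSm]
    exact ⟨u, hu, rfl⟩
  have hSmQ : Sm ⊆ Qbig := by
    rw [hSm, hQbig]
    rintro _ ⟨u, hu, rfl⟩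
    exact Subgroup.mem_map_of_mem mU (Subgroup.mem_subgroupOf.mpr (hSQ hu))
  have hQm_le : Subgroup.closure Sm ≤ Qbig := (Subgroup.closure_le _).mpr hSmQ
  haveI : Finite ↥(Subgroup.closure Sm) :=
    Finite.of_injective _ (Subgroup.inclusion_injective hQm_le)
  have hQm : IsPGroup q (Subgroup.closure Sm) := hQbigp.to_le hQm_le
  have hx : (((mU ⟨a, ha⟩ : (Module.End F V)ˣ) : Module.End F V) - 1) ^ 2 = 0 := by
    rw [hmU]
    exact modU_quad ρ ε hε ⟨a, ha⟩ hquad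
  have hgen : ∀ u ∈ Sm, ∀ v ∈ Sm, u * v = v * u := by
    rw [hSm]
    rintro _ ⟨u, hu, rfl⟩ _ ⟨v, hv, rfl⟩
    rw [← map_mul, ← map_mul, hiff]
    exact hScomm u hu v hv
  have h2 : Subgroup.closure Sm ≤ Subgroup.centralizer Sm := by
    rw [Subgroup.closure_le]
    intro u hu
    exact Subgroup.mem_centralizer_iff.mpr (fun v hv => hgen v hv u hu)
  have hcomm : ∀ u ∈ Subgroup.closure Sm, ∀ v ∈ Subgroup.closure Sm, u * v = v * u := by
    intro u hu v hv
    have h3 : Subgroup.closure Sm ≤ Subgroup.centralizer {u} := by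
      rw [Subgroup.closure_le]
      intro w hw
      refine Subgroup.mem_centralizer_iff.mpr (fun h hh => ?_)
      rw [Set.mem_singleton_iff.mp hh]
      exact (Subgroup.mem_centralizer_iff.mp (h2 hu) w hw).symm
    exact Subgroup.mem_centralizer_iff.mp (h3 hv) u rfl
  have hconjgen : ∀ u (hu : u ∈ S), mU ⟨a, ha⟩ * mU ⟨u, hQΓ (hSQ hu)⟩ * (mU ⟨a, ha⟩)⁻¹ =
      mU ⟨a * u * a⁻¹, hQΓ (hSQ (hSa u hu))⟩ := by
    intro u hu
    rw [← map_inv, ← map_mul, ← map_mul]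
    rfl
  have hnorm : ∀ g ∈ Subgroup.closure Sm, mU ⟨a, ha⟩ * g * (mU ⟨a, ha⟩)⁻¹ ∈
      Subgroup.closure Sm := by
    have h4 : Subgroup.closure Sm ≤
        (Subgroup.closure Sm).comap (MulAut.conj (mU ⟨a, ha⟩)).toMonoidHom := by
      rw [Subgroup.closure_le]
      intro w hw
      have hw' := hw
      rw [hSm] at hw'
      obtain ⟨u, hu, rfl⟩ := hw'
      show mU ⟨a, ha⟩ * mU ⟨u, hQΓ (hSQ hu)⟩ * (mU ⟨a, ha⟩)⁻¹ ∈ Subgroup.closure Sm
      rw [hconjgen u hu]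
      exact Subgroup.subset_closure (hSmem _ (hSa u hu))
    intro g hg
    exact h4 hg
  have hres := HHQ.quad_centralizes hp2 hpq (Subgroup.closure Sm) hQm (mU ⟨a, ha⟩) hx hnorm
    (by
      rintro ⟨_, _, u, hu, v, hv, huv⟩
      exact huv (hcomm u hu v hv))
  intro u hu
  have h5 := hres (mU ⟨u, hQΓ (hSQ hu)⟩) (Subgroup.subset_closure (hSmem u hu))
  rw [hconjgen u hu] at h5
  exact (hiff _ _).mp h5

/-- Characters with values `±1` separate the points of an elementary abelian `2`-subgroup. -/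
theorem exists_char_ne_one {p : ℕ} [CharP F p] (hp2 : p ≠ 2) (E : Subgroup H) [Finite E]
    (hc : ∀ x ∈ E, ∀ y ∈ E, x * y = y * x) (h2 : ∀ e ∈ E, e * e = 1) (e : ↥E) (he : e ≠ 1) :
    ∃ ψ : ↥E →* Fˣ, ψ e ≠ 1 := by
  letI : CommGroup ↥E :=
    { (inferInstance : Group ↥E) with
      mul_comm := fun a b => Subtype.ext (hc a a.2 b b.2) }
  haveI : HasEnoughRootsOfUnity F 2 := ⟨⟨-1, IsPrimitiveRoot.neg_one p hp2⟩, inferInstance⟩
  have hexp : Monoid.exponent ↥E ∣ 2 := Monoid.exponent_dvd_of_forall_pow_eq_one (fun a => by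
    rw [pow_two]
    exact Subtype.ext (h2 a a.2))
  haveI : HasEnoughRootsOfUnity F (Monoid.exponent ↥E) := HasEnoughRootsOfUnity.of_dvd F hexp
  exact CommGroup.exists_apply_ne_one_of_hasEnoughRootsOfUnity ↥E F he

theorem two_ne_zero_of_char {p : ℕ} [hp : Fact p.Prime] [CharP F p] (hp2 : p ≠ 2) :
    (2 : F) ≠ 0 := by
  intro h
  have h1 : ((2 : ℕ) : F) = 0 := by exact_mod_cast h
  have h2 := (CharP.cast_eq_zero_iff F p 2).mp h1
  exact hp2 ((Nat.prime_dvd_prime_iff_eq hp.out Nat.prime_two).mp h2)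

theorem card_ne_zero_of_exp_two {G : Type*} [Group G] [Finite G] (hF2 : (2 : F) ≠ 0)
    (h2 : ∀ g : G, g * g = 1) : (Nat.card G : F) ≠ 0 := by
  have hG : IsPGroup 2 G := fun g => ⟨1, by rw [pow_one, pow_two]; exact h2 g⟩
  obtain ⟨n, hn⟩ := IsPGroup.iff_card.mp hG
  rw [hn]
  push_cast
  exact pow_ne_zero n hF2

/-- Case (II): if some element of the `p`-group `B` moves the idempotent, then an element `a`
commuting with it and satisfying `(a - 1)(b - 1)² = 0` for all `b ∈ B` fixes its image. -/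
theorem fix_of_moved {p : ℕ} [hp : Fact p.Prime] (hp2 : p ≠ 2) (ρ : H →* Module.End F V)
    (E : Subgroup H) [Fintype E] (hE : (Fintype.card E : F) ≠ 0) (B : Subgroup H)
    (hB : IsPGroup p B) (hEB : ∀ b ∈ B, ∀ e ∈ E, b * e * b⁻¹ ∈ E) (χ : ↥E →* Fˣ)
    (hnot : ¬ B ≤ commSub ρ (idem ρ E χ)) (a : H) (haΓ : a ∈ commSub ρ (idem ρ E χ))
    (hq2 : ∀ b ∈ B, (ρ a - 1) * (ρ b - 1) ^ 2 = 0) :
    ρ a * idem ρ E χ = idem ρ E χ := by
  obtain ⟨ε, hεd⟩ : ∃ ε, ε = idem ρ E χ := ⟨_, rfl⟩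
  rw [← hεd] at hnot haΓ ⊢
  have hε : ε * ε = ε := by rw [hεd]; exact idem_idem ρ E hE χ
  obtain ⟨b, hb, hbΓ⟩ := SetLike.not_le_iff_exists.mp hnot
  have hEB' : ∀ b ∈ B, ∀ e ∈ E, b⁻¹ * e * b ∈ E := by
    intro b hb e he
    have := hEB b⁻¹ (B.inv_mem hb) e he
    rwa [inv_inv] at this
  have hbb : b * b ∉ commSub ρ ε := by
    intro h
    apply hbΓ
    obtain ⟨n, hn⟩ := hB ⟨b, hb⟩
    have hn' : b ^ p ^ n = 1 := by
      have := congrArg Subtype.val hn
      simpa using this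
    have hodd : Odd (p ^ n) := Odd.pow (hp.out.odd_of_ne_two hp2)
    obtain ⟨k, hk⟩ := hodd
    have hb2 : b = (b * b) ^ (k + 1) := by
      rw [← pow_two, ← pow_mul]
      have : 2 * (k + 1) = p ^ n + 1 := by omega
      rw [this, pow_succ, hn', one_mul]
    rw [hb2]
    exact Subgroup.pow_mem _ h _
  have h1 : ε * ρ b * ε = 0 := by
    have := idem_conj ρ E b (hEB b hb) (hEB' b hb) χ
    rw [← hεd] at this
    exact this.resolve_left hbΓ
  have h2 : ε * ρ (b * b) * ε = 0 := by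
    have := idem_conj ρ E (b * b) (hEB _ (B.mul_mem hb hb)) (hEB' _ (B.mul_mem hb hb)) χ
    rw [← hεd] at this
    exact this.resolve_left hbb
  have h3 := hq2 b hb
  have h4 : (ρ b - 1) ^ 2 = ρ (b * b) - 2 • ρ b + 1 := by
    rw [map_mul]
    noncomm_ring
  have h5 : ε * (ρ b - 1) ^ 2 * ε = ε := by
    rw [h4, mul_add, add_mul, mul_sub, sub_mul, mul_one, hε, mul_smul_comm, smul_mul_assoc, h1,
      h2, smul_zero, sub_zero, zero_add]
  have hc : (ρ a - 1) * ε = ε * (ρ a - 1) := by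
    have haΓ' : ρ a * ε = ε * ρ a := haΓ
    rw [sub_mul, mul_sub, one_mul, mul_one, haΓ']
  have h6 : (ρ a - 1) * ε = 0 := by
    calc (ρ a - 1) * ε = (ρ a - 1) * (ε * (ρ b - 1) ^ 2 * ε) := by rw [h5]
      _ = (ρ a - 1) * ε * (ρ b - 1) ^ 2 * ε := by simp only [mul_assoc]
      _ = ε * ((ρ a - 1) * (ρ b - 1) ^ 2) * ε := by rw [hc]; simp only [mul_assoc]
      _ = 0 := by rw [h3, mul_zero, zero_mul]
  rw [sub_mul, one_mul, sub_eq_zero] at h6
  exact h6

end Cfsg.Agent.Helper33.QI
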