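-- helper33 library: the minimal configuration for quadratic elements in characteristic 3
-- (pure group theory part).  Add-only once landed.
import Mathlib
import Cfsg.Agent.Helper58.SecRank
import Cfsg.Agent.Helper35.CoprimeGen

set_option autoImplicit false

namespace Cfsg.Agent.Helper33.QS

open scoped commutatorElement

variable {H : Type*} [Group H]

/-! ### Free group identities -/

theorem comm_mul_left (g g' y : H) : ⁅g * g', y⁆ = g * ⁅g', y⁆ * g⁻¹ * ⁅g, y⁆ := by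
  simp only [commutatorElement_def]; group

theorem comm_inv_left (g y : H) : ⁅g⁻¹, y⁆ = g⁻¹ * ⁅g, y⁆⁻¹ * g := by
  simp only [commutatorElement_def]; group

theorem comm_mul_right (g y y' : H) : ⁅g, y * y'⁆ = ⁅g, y⁆ * (y * ⁅g, y'⁆ * y⁻¹) := by
  simp only [commutatorElement_def]; group

theorem comm_inv_right (g y : H) : ⁅g, y⁻¹⁆ = y⁻¹ * ⁅g, y⁆⁻¹ * y := by
  simp only [commutatorElement_def]; group

theorem comm_conj_left (b c y : H) : ⁅b * c * b⁻¹, y⁆ = b * ⁅c, b⁻¹ * y * b⁆ * b⁻¹ := by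
  simp only [commutatorElement_def]; group

theorem comm_conj_right (g b y : H) : ⁅g, b * y * b⁻¹⁆ = b * ⁅b⁻¹ * g * b, y⁆ * b⁻¹ := by
  simp only [commutatorElement_def]; group

theorem comm_conj_both (a u v : H) : ⁅a * u * a⁻¹, a * v * a⁻¹⁆ = a * ⁅u, v⁆ * a⁻¹ := by
  simp only [commutatorElement_def]; group

theorem comm_le_self (B : Subgroup H) : ⁅B, B⁆ ≤ B :=
  Subgroup.commutator_le.mpr (fun _ h₁ _ h₂ =>
    B.mul_mem (B.mul_mem (B.mul_mem h₁ h₂) (B.inv_mem h₁)) (B.inv_mem h₂))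

theorem comm_mem (B : Subgroup H) {g b : H} (hg : g ∈ B) (hb : b ∈ B) : ⁅g, b⁆ ∈ B :=
  B.mul_mem (B.mul_mem (B.mul_mem hg hb) (B.inv_mem hg)) (B.inv_mem hb)

theorem alg4 {p q r s : H} (hqr : q * r = r * q) (hrs : r * s = s * r) (hqq : q * q = 1) :
    p * q * ((r * q) * s) = p * s * r := by
  calc p * q * ((r * q) * s) = p * ((q * r) * q * s) := by group
    _ = p * ((r * q) * q * s) := by rw [hqr]
    _ = p * (r * (q * q) * s) := by group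
    _ = p * (r * s) := by rw [hqq, mul_one]
    _ = p * (s * r) := by rw [hrs]
    _ = p * s * r := by group

/-- The minimal configuration: `B` acts on `Q`, `Z` is a central subgroup of `Q` containing all
commutators and squares, centralized by `⁅B, B⁆`, every `B`-invariant normal subgroup of `Q` lies
in `Z` or equals `Q`, and `⁅B, B⁆` does not act trivially on `Q / Z`. -/
structure MinCfg (B Q Z : Subgroup H) : Prop where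
  hBQ : ∀ b ∈ B, ∀ y ∈ Q, b * y * b⁻¹ ∈ Q
  hBZ : ∀ b ∈ B, ∀ z ∈ Z, b * z * b⁻¹ ∈ Z
  hZQ : Z ≤ Q
  hZc : ∀ z ∈ Z, ∀ y ∈ Q, z * y = y * z
  hEZ : ∀ x ∈ Q, ∀ y ∈ Q, ⁅x, y⁆ ∈ Z
  hsq : ∀ x ∈ Q, x * x ∈ Z
  hAZ : ∀ a ∈ ⁅B, B⁆, ∀ z ∈ Z, a * z = z * a
  hirr : ∀ U : Subgroup H, U ≤ Q → (∀ b ∈ B, ∀ u ∈ U, b * u * b⁻¹ ∈ U) →
    (∀ y ∈ Q, ∀ u ∈ U, y * u * y⁻¹ ∈ U) → U ≤ Z ∨ U = Q
  hne : ∃ a ∈ ⁅B, B⁆, ∃ y ∈ Q, ⁅a, y⁆ ∉ Z

/-- `g` acts trivially on `Q / Z`. -/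
def InK (Q Z : Subgroup H) (g : H) : Prop := ∀ y ∈ Q, ⁅g, y⁆ ∈ Z

namespace MinCfg

variable {B Q Z : Subgroup H}

theorem conj_Z (m : MinCfg B Q Z) {z y : H} (hz : z ∈ Z) (hy : y ∈ Q) : y * z * y⁻¹ = z := by
  rw [← m.hZc z hz y hy, mul_inv_cancel_right]

theorem hBQ' (m : MinCfg B Q Z) {b y : H} (hb : b ∈ B) (hy : y ∈ Q) : b⁻¹ * y * b ∈ Q := by
  have := m.hBQ b⁻¹ (B.inv_mem hb) y hy
  rwa [inv_inv] at this

theorem hBZ' (m : MinCfg B Q Z) {b z : H} (hb : b ∈ B) (hz : z ∈ Z) : b⁻¹ * z * b ∈ Z := by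
  have := m.hBZ b⁻¹ (B.inv_mem hb) z hz
  rwa [inv_inv] at this

theorem inK_one (Q Z : Subgroup H) : InK Q Z 1 := by
  intro y _
  rw [commutatorElement_one_left]
  exact Z.one_mem

theorem inK_mul (m : MinCfg B Q Z) {g g' : H} (hg : g ∈ B) (h1 : InK Q Z g) (h2 : InK Q Z g') :
    InK Q Z (g * g') := by
  intro y hy
  rw [comm_mul_left]
  exact Z.mul_mem (m.hBZ g hg _ (h2 y hy)) (h1 y hy)

theorem inK_inv (m : MinCfg B Q Z) {g : H} (hg : g ∈ B) (h1 : InK Q Z g) : InK Q Z g⁻¹ := by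
  intro y hy
  rw [comm_inv_left]
  exact m.hBZ' hg (Z.inv_mem (h1 y hy))

theorem inK_conj (m : MinCfg B Q Z) {b c : H} (hb : b ∈ B) (hc : InK Q Z c) :
    InK Q Z (b * c * b⁻¹) := by
  intro y hy
  rw [comm_conj_left]
  exact m.hBZ b hb _ (hc _ (m.hBQ' hb hy))

/-- The kernel of the action of `B` on `Q / Z`. -/
def kerSub (m : MinCfg B Q Z) : Subgroup H where
  carrier := {g | g ∈ B ∧ InK Q Z g}
  mul_mem' := fun h1 h2 => ⟨B.mul_mem h1.1 h2.1, m.inK_mul h1.1 h1.2 h2.2⟩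
  one_mem' := ⟨B.one_mem, inK_one Q Z⟩
  inv_mem' := fun h1 => ⟨B.inv_mem h1.1, m.inK_inv h1.1 h1.2⟩

theorem mem_kerSub (m : MinCfg B Q Z) {g : H} : g ∈ m.kerSub ↔ g ∈ B ∧ InK Q Z g := Iff.rfl

/-- The preimage in `Q` of the fixed points of `g` on `Q / Z`. -/
def fixSub (m : MinCfg B Q Z) (g : H) : Subgroup H where
  carrier := {y | y ∈ Q ∧ ⁅g, y⁆ ∈ Z}
  mul_mem' := by
    rintro y y' ⟨h1, h2⟩ ⟨h3, h4⟩
    refine ⟨Q.mul_mem h1 h3, ?_⟩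
    rw [comm_mul_right, m.conj_Z h4 h1]
    exact Z.mul_mem h2 h4
  one_mem' := ⟨Q.one_mem, by rw [commutatorElement_one_right]; exact Z.one_mem⟩
  inv_mem' := by
    rintro y ⟨h1, h2⟩
    refine ⟨Q.inv_mem h1, ?_⟩
    rw [comm_inv_right]
    have := m.conj_Z (Z.inv_mem h2) (Q.inv_mem h1)
    rw [inv_inv] at this
    rw [this]
    exact Z.inv_mem h2

theorem mem_fixSub (m : MinCfg B Q Z) {g y : H} : y ∈ m.fixSub g ↔ y ∈ Q ∧ ⁅g, y⁆ ∈ Z := Iff.rfl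

theorem Z_le_fixSub (m : MinCfg B Q Z) {g : H} (hg : g ∈ B) : Z ≤ m.fixSub g := by
  intro z hz
  refine ⟨m.hZQ hz, ?_⟩
  rw [commutatorElement_def]
  exact Z.mul_mem (m.hBZ g hg z hz) (Z.inv_mem hz)

theorem fix_conj (m : MinCfg B Q Z) {g s : H} (hg : g ∈ B) (hs : s ∈ B)
    (hsg : InK Q Z ⁅s⁻¹, g⁆) {u : H} (hu : u ∈ m.fixSub g) : s * u * s⁻¹ ∈ m.fixSub g := by
  refine ⟨m.hBQ s hs u hu.1, ?_⟩
  have e : ⁅g, s * u * s⁻¹⁆ =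
      s * (⁅s⁻¹, g⁆ * ⁅g, u⁆ * ⁅s⁻¹, g⁆⁻¹ * ⁅⁅s⁻¹, g⁆, u⁆) * s⁻¹ := by
    simp only [commutatorElement_def]; group
  rw [e]
  exact m.hBZ s hs _ (Z.mul_mem (m.hBZ _ (comm_mem B (B.inv_mem hs) hg) _ hu.2) (hsg u hu.1))

/-- There is an element of `⁅B, B⁆` acting nontrivially on `Q / Z` and central modulo the
kernel of this action. -/
theorem exists_central (m : MinCfg B Q Z) [Finite B] {p : ℕ} [Fact p.Prime] (hB : IsPGroup p B) :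
    ∃ a ∈ ⁅B, B⁆, ¬ InK Q Z a ∧ ∀ b ∈ B, InK Q Z ⁅a, b⁆ := by
  let C : Subgroup ↥B := m.kerSub.subgroupOf B
  haveI hCn : C.Normal := by
    refine ⟨fun c hc b => ?_⟩
    have hc' : (c : H) ∈ m.kerSub := Subgroup.mem_subgroupOf.mp hc
    exact Subgroup.mem_subgroupOf.mpr ⟨(b * c * b⁻¹).2, m.inK_conj b.2 hc'.2⟩
  let N : Subgroup (↥B ⧸ C) := (commutator ↥B).map (QuotientGroup.mk' C)
  haveI hNn : N.Normal := Subgroup.Normal.map inferInstance _ (QuotientGroup.mk'_surjective C)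
  have hN : N ≠ ⊥ := by
    obtain ⟨a, ha, y, hy, hay⟩ := m.hne
    rw [← Subgroup.map_subtype_commutator] at ha
    obtain ⟨a', ha', rfl⟩ := ha
    intro hbot
    have h1 : QuotientGroup.mk' C a' ∈ N := Subgroup.mem_map_of_mem _ ha'
    rw [hbot, Subgroup.mem_bot, QuotientGroup.mk'_apply, QuotientGroup.eq_one_iff] at h1
    have h2 : (a' : H) ∈ m.kerSub := Subgroup.mem_subgroupOf.mp h1
    exact hay (h2.2 y hy)
  have hP : IsPGroup p (↥B ⧸ C) := hB.to_quotient C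
  obtain ⟨z, hzN, hz1, hzc⟩ := Cfsg.Agent.Helper58.pgroup_normal_meets_center hP N hN
  obtain ⟨a', ha', rfl⟩ := hzN
  refine ⟨(a' : H), ?_, ?_, ?_⟩
  · rw [← Subgroup.map_subtype_commutator]
    exact Subgroup.mem_map_of_mem _ ha'
  · intro hK
    apply hz1
    rw [QuotientGroup.mk'_apply, QuotientGroup.eq_one_iff]
    exact Subgroup.mem_subgroupOf.mpr ⟨a'.2, hK⟩
  · intro b hb
    have h1 := Subgroup.mem_center_iff.mp hzc (QuotientGroup.mk' C ⟨b, hb⟩)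
    rw [← map_mul, ← map_mul] at h1
    have h2 : ((⟨b, hb⟩ : ↥B) * a')⁻¹ * (a' * ⟨b, hb⟩) ∈ C := QuotientGroup.eq.mp h1
    have h3 : (b * (a' : H))⁻¹ * ((a' : H) * b) ∈ m.kerSub := Subgroup.mem_subgroupOf.mp h2
    have h4 := m.inK_conj (B.mul_mem hb a'.2) h3.2
    have e : ⁅(a' : H), b⁆ = (b * (a' : H)) * ((b * (a' : H))⁻¹ * ((a' : H) * b)) *
        (b * (a' : H))⁻¹ := by
      rw [commutatorElement_def]; group
    rw [e]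
    exact h4

/-- The central element acts fixed-point-freely on `Q / Z`. -/
theorem fpf (m : MinCfg B Q Z) {a : H} (haB : a ∈ B) (hnk : ¬ InK Q Z a)
    (hcen : ∀ b ∈ B, InK Q Z ⁅a, b⁆) : ∀ y ∈ Q, ⁅a, y⁆ ∈ Z → y ∈ Z := by
  have hU := m.hirr (m.fixSub a) (fun y hy => hy.1)
    (fun b hb u hu => by
      refine m.fix_conj haB hb ?_ hu
      have h1 := m.inK_inv (comm_mem B haB (B.inv_mem hb)) (hcen b⁻¹ (B.inv_mem hb))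
      rwa [commutatorElement_inv] at h1)
    (fun y hy u hu => by
      have e : y * u * y⁻¹ = ⁅y, u⁆ * u := by rw [commutatorElement_def]; group
      rw [e]
      exact Subgroup.mul_mem _ (m.Z_le_fixSub haB (m.hEZ y hy u hu.1)) hu)
  rcases hU with h | h
  · intro y hy hay
    exact h ⟨hy, hay⟩
  · exfalso
    apply hnk
    intro y hy
    have : y ∈ m.fixSub a := by rw [h]; exact hy
    exact this.2

theorem triple (m : MinCfg B Q Z) {a : H} (haB : a ∈ B)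
    (hfpf : ∀ y ∈ Q, ⁅a, y⁆ ∈ Z → y ∈ Z) (ha3 : a * a * a = 1) {y : H} (hy : y ∈ Q) :
    y * (a * y * a⁻¹) * (a * (a * y * a⁻¹) * a⁻¹) ∈ Z := by
  have hy1 : a * y * a⁻¹ ∈ Q := m.hBQ a haB y hy
  have hy2 : a * (a * y * a⁻¹) * a⁻¹ ∈ Q := m.hBQ a haB _ hy1
  apply hfpf _ (Q.mul_mem (Q.mul_mem hy hy1) hy2)
  have e3 : a * (a * (a * y * a⁻¹) * a⁻¹) * a⁻¹ = y := by
    have : a * (a * (a * y * a⁻¹) * a⁻¹) * a⁻¹ = (a * a * a) * y * (a * a * a)⁻¹ := by group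
    rw [this, ha3, one_mul, inv_one, mul_one]
  have e1 : ⁅a, y * (a * y * a⁻¹) * (a * (a * y * a⁻¹) * a⁻¹)⁆ =
      (a * y * a⁻¹) * (a * (a * y * a⁻¹) * a⁻¹) * (a * (a * (a * y * a⁻¹) * a⁻¹) * a⁻¹) *
        (y * (a * y * a⁻¹) * (a * (a * y * a⁻¹) * a⁻¹))⁻¹ := by
    rw [commutatorElement_def]; group
  rw [e1, e3]
  have e2 : (a * y * a⁻¹) * (a * (a * y * a⁻¹) * a⁻¹) * y *
      (y * (a * y * a⁻¹) * (a * (a * y * a⁻¹) * a⁻¹))⁻¹ =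
      ⁅(a * y * a⁻¹) * (a * (a * y * a⁻¹) * a⁻¹), y⁆ := by
    rw [commutatorElement_def]; group
  rw [e2]
  exact m.hEZ _ (Q.mul_mem hy1 hy2) y hy

/-! ### Commutator calculus in `Q` -/

theorem c1 (m : MinCfg B Q Z) {u v w : H} (hu : u ∈ Q) (hv : v ∈ Q) (hw : w ∈ Q) :
    ⁅u * v, w⁆ = ⁅u, w⁆ * ⁅v, w⁆ := by
  rw [comm_mul_left, m.conj_Z (m.hEZ v hv w hw) hu]
  exact m.hZc _ (m.hEZ v hv w hw) _ (m.hZQ (m.hEZ u hu w hw))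

theorem c2 (m : MinCfg B Q Z) {u v w : H} (hu : u ∈ Q) (hv : v ∈ Q) (hw : w ∈ Q) :
    ⁅u, v * w⁆ = ⁅u, v⁆ * ⁅u, w⁆ := by
  rw [comm_mul_right, m.conj_Z (m.hEZ u hu w hw) hv]

theorem cz_left (m : MinCfg B Q Z) {z u : H} (hz : z ∈ Z) (hu : u ∈ Q) : ⁅z, u⁆ = 1 :=
  commutatorElement_eq_one_iff_mul_comm.mpr (m.hZc z hz u hu)

theorem cz_right (m : MinCfg B Q Z) {z u : H} (hz : z ∈ Z) (hu : u ∈ Q) : ⁅u, z⁆ = 1 :=
  commutatorElement_eq_one_iff_mul_comm.mpr (m.hZc z hz u hu).symm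

theorem c3 (m : MinCfg B Q Z) {u v : H} (hu : u ∈ Q) (hv : v ∈ Q) : ⁅u, v⁆ * ⁅u, v⁆ = 1 := by
  rw [← m.c1 hu hu hv]
  exact m.cz_left (m.hsq u hu) hv

theorem c4 (m : MinCfg B Q Z) {u v : H} (hu : u ∈ Q) (hv : v ∈ Q) : ⁅v, u⁆ = ⁅u, v⁆ := by
  rw [← commutatorElement_inv u v]
  exact (eq_inv_of_mul_eq_one_left (m.c3 hu hv)).symm

theorem cinv_right (m : MinCfg B Q Z) {u v : H} (hu : u ∈ Q) (hv : v ∈ Q) :
    ⁅u, v⁻¹⁆ = ⁅u, v⁆ := by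
  have h1 := m.c2 hu hv (Q.inv_mem hv)
  rw [mul_inv_cancel, commutatorElement_one_right] at h1
  have h2 : ⁅u, v⁻¹⁆ = ⁅u, v⁆⁻¹ := (inv_eq_of_mul_eq_one_right h1.symm).symm
  rw [h2]
  exact (eq_inv_of_mul_eq_one_left (m.c3 hu hv)).symm

theorem cconj (m : MinCfg B Q Z) {a : H} (ha : a ∈ ⁅B, B⁆) {u v : H} (hu : u ∈ Q) (hv : v ∈ Q) :
    ⁅a * u * a⁻¹, a * v * a⁻¹⁆ = ⁅u, v⁆ := by
  rw [comm_conj_both, m.hAZ a ha _ (m.hEZ u hu v hv), mul_inv_cancel_right]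

theorem kappa_mul (m : MinCfg B Q Z) {a : H} (ha : a ∈ ⁅B, B⁆)
    (htri : ∀ y ∈ Q, y * (a * y * a⁻¹) * (a * (a * y * a⁻¹) * a⁻¹) ∈ Z) {u v : H}
    (hu : u ∈ Q) (hv : v ∈ Q) :
    ⁅u * v, a * (u * v) * a⁻¹⁆ = ⁅u, a * u * a⁻¹⁆ * ⁅v, a * v * a⁻¹⁆ * ⁅u, v⁆ := by
  have haB : a ∈ B := comm_le_self B ha
  have hz0 := htri u hu
  have hcc0 := m.cconj ha hv hu
  have hcc1 := m.cconj ha hv (m.hBQ a haB u hu)
  have hu1 : a * u * a⁻¹ ∈ Q := m.hBQ a haB u hu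
  have hv1 : a * v * a⁻¹ ∈ Q := m.hBQ a haB v hv
  have hu2 : a * (a * u * a⁻¹) * a⁻¹ ∈ Q := m.hBQ a haB _ hu1
  have e0 : a * (u * v) * a⁻¹ = (a * u * a⁻¹) * (a * v * a⁻¹) := by group
  rw [e0]
  obtain ⟨u1, hu1e⟩ : ∃ u1, u1 = a * u * a⁻¹ := ⟨_, rfl⟩
  obtain ⟨v1, hv1e⟩ : ∃ v1, v1 = a * v * a⁻¹ := ⟨_, rfl⟩
  rw [← hu1e] at hz0 hcc0 hcc1 hu1 hu2 ⊢
  rw [← hv1e] at hcc0 hcc1 hv1 ⊢
  obtain ⟨u2, hu2e⟩ : ∃ u2, u2 = a * u1 * a⁻¹ := ⟨_, rfl⟩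
  rw [← hu2e] at hz0 hcc1 hu2
  -- hz0 : u * u1 * u2 ∈ Z, hcc0 : ⁅v1, u1⁆ = ⁅v, u⁆, hcc1 : ⁅v1, u2⁆ = ⁅v, u1⁆
  have key : ⁅v, u1⁆ = ⁅u, v⁆ * ⁅u, v1⁆ := by
    calc ⁅v, u1⁆ = ⁅v1, u2⁆ := hcc1.symm
      _ = ⁅v1, u1⁻¹ * (u⁻¹ * (u * u1 * u2))⁆ := by
          rw [show u1⁻¹ * (u⁻¹ * (u * u1 * u2)) = u2 by group]
      _ = ⁅v1, u1⁻¹⁆ * (⁅v1, u⁻¹⁆ * ⁅v1, u * u1 * u2⁆) := by
          rw [m.c2 hv1 (Q.inv_mem hu1) (Q.mul_mem (Q.inv_mem hu) (m.hZQ hz0)),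
            m.c2 hv1 (Q.inv_mem hu) (m.hZQ hz0)]
      _ = ⁅v1, u1⁆ * ⁅v1, u⁆ := by
          rw [m.cz_right hz0 hv1, mul_one, m.cinv_right hv1 hu1, m.cinv_right hv1 hu]
      _ = ⁅u, v⁆ * ⁅u, v1⁆ := by
          rw [hcc0, m.c4 hu hv, m.c4 hu hv1]
  rw [m.c1 hu hv (Q.mul_mem hu1 hv1), m.c2 hu hu1 hv1, m.c2 hv hu1 hv1, key]
  exact alg4 (m.hZc _ (m.hEZ u hu v1 hv1) _ (m.hZQ (m.hEZ u hu v hv)))
    (m.hZc _ (m.hEZ u hu v hv) _ (m.hZQ (m.hEZ v hv v1 hv1))) (m.c3 hu hv1)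

end MinCfg

end Cfsg.Agent.Helper33.QS
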