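-- helper33 library: the isotropic vector lemma for the minimal configuration
-- (pure group theory part).  Add-only once landed.
import Cfsg.Agent.Helper33.QuadStruct

set_option autoImplicit false

namespace Cfsg.Agent.Helper33.QS

open scoped commutatorElement

variable {H : Type*} [Group H]

namespace MinCfg

variable {B Q Z : Subgroup H}

theorem inK_comm_inv (m : MinCfg B Q Z) {a : H} (haB : a ∈ B)
    (hcen : ∀ b ∈ B, InK Q Z ⁅a, b⁆) {g : H} (hg : g ∈ B) : InK Q Z ⁅a⁻¹, g⁆ := by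
  have h1 := m.inK_conj (B.inv_mem haB) (m.inK_inv (comm_mem B haB hg) (hcen g hg))
  rw [inv_inv] at h1
  rw [comm_inv_left]
  exact h1

/-- **The isotropic vector lemma.**  If `K` is a subgroup such that the product of two
commutators of `Q` outside `K` lies in `K`, then some `y ∈ Q ∖ Z` has `⁅y, a y a⁻¹⁆ ∈ K`. -/
theorem exists_isotropic (m : MinCfg B Q Z) {a : H} (ha : a ∈ ⁅B, B⁆) (hnk : ¬ InK Q Z a)
    (hcen : ∀ b ∈ B, InK Q Z ⁅a, b⁆) (ha3 : a * a * a = 1) (K : Subgroup H)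
    (hK : ∀ x ∈ Q, ∀ y ∈ Q, ∀ x' ∈ Q, ∀ y' ∈ Q, ⁅x, y⁆ ∉ K → ⁅x', y'⁆ ∉ K →
      ⁅x, y⁆ * ⁅x', y'⁆ ∈ K) :
    ∃ y ∈ Q, y ∉ Z ∧ ⁅y, a * y * a⁻¹⁆ ∈ K := by
  have haB : a ∈ B := comm_le_self B ha
  by_contra hcon
  push Not at hcon
  have hfpf := m.fpf haB hnk hcen
  have htri : ∀ y ∈ Q, y * (a * y * a⁻¹) * (a * (a * y * a⁻¹) * a⁻¹) ∈ Z :=
    fun y hy => m.triple haB hfpf ha3 hy
  obtain ⟨x, hx, hxZ⟩ : ∃ x ∈ Q, x ∉ Z := by
    obtain ⟨a0, ha0, y, hy, hay⟩ := m.hne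
    refine ⟨y, hy, fun hyZ => hay ?_⟩
    rw [commutatorElement_def]
    exact Z.mul_mem (m.hBZ a0 (comm_le_self B ha0) y hyZ) (Z.inv_mem hyZ)
  have hz00 := htri x hx
  have hai : a⁻¹ = a * a := inv_eq_of_mul_eq_one_right (by rw [← mul_assoc]; exact ha3)
  have hy00 : a⁻¹ * x * a = a * (a * x * a⁻¹) * a⁻¹ := by
    have : a * (a * x * a⁻¹) * a⁻¹ = (a * a) * x * (a * a)⁻¹ := by group
    rw [this, ← hai, inv_inv]
  obtain ⟨y0, hy0⟩ : ∃ y0, y0 = a * x * a⁻¹ := ⟨_, rfl⟩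
  rw [← hy0] at hz00 hy00
  have hy0Q : y0 ∈ Q := by rw [hy0]; exact m.hBQ a haB x hx
  have hκx : ⁅x, y0⁆ ∉ K := by rw [hy0]; exact hcon x hx hxZ
  -- Claim 1
  have cl1 : ∀ y ∈ Q, y ∉ Z → x * y ∉ Z → ⁅x, y⁆ ∉ K := by
    intro y hy hyZ hxyZ hxyK
    have h1 := hcon (x * y) (Q.mul_mem hx hy) hxyZ
    rw [m.kappa_mul ha htri hx hy, ← hy0] at h1
    exact h1 (K.mul_mem (hK x hx _ hy0Q y hy _ (m.hBQ a haB y hy) hκx (hcon y hy hyZ)) hxyK)
  -- Claim 2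
  have cl2 : ∀ y ∈ Q, y ∈ Z ∨ x * y ∈ Z ∨ y0 * y ∈ Z ∨ x * (y0 * y) ∈ Z := by
    intro y hy
    by_cases h1 : y ∈ Z
    · exact Or.inl h1
    by_cases h2 : x * y ∈ Z
    · exact Or.inr (Or.inl h2)
    by_cases h3 : y0 * y ∈ Z
    · exact Or.inr (Or.inr (Or.inl h3))
    by_cases h4 : x * (y0 * y) ∈ Z
    · exact Or.inr (Or.inr (Or.inr h4))
    exfalso
    have h5 := cl1 (y0 * y) (Q.mul_mem hy0Q hy) h3 h4
    rw [m.c2 hx hy0Q hy] at h5
    exact h5 (hK x hx y0 hy0Q x hx y hy hκx (cl1 y hy h1 h2))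
  -- an element of `B` fixing `x` modulo `Z` acts trivially
  have cS : ∀ g ∈ B, ⁅g, x⁆ ∈ Z → InK Q Z g := by
    intro g hg hgx y hy
    have hxF : x ∈ m.fixSub g := ⟨hx, hgx⟩
    have hy0F : y0 ∈ m.fixSub g := by
      rw [hy0]
      exact m.fix_conj hg haB (m.inK_comm_inv haB hcen hg) hxF
    have hZF : Z ≤ m.fixSub g := m.Z_le_fixSub hg
    have hyF : y ∈ m.fixSub g := by
      rcases cl2 y hy with h | h | h | h
      · exact hZF h
      · have e : y = x⁻¹ * (x * y) := by group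
        rw [e]
        exact Subgroup.mul_mem _ (Subgroup.inv_mem _ hxF) (hZF h)
      · have e : y = y0⁻¹ * (y0 * y) := by group
        rw [e]
        exact Subgroup.mul_mem _ (Subgroup.inv_mem _ hy0F) (hZF h)
      · have e : y = y0⁻¹ * (x⁻¹ * (x * (y0 * y))) := by group
        rw [e]
        exact Subgroup.mul_mem _ (Subgroup.inv_mem _ hy0F)
          (Subgroup.mul_mem _ (Subgroup.inv_mem _ hxF) (hZF h))
    exact hyF.2
  -- Claim 3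
  have cl3 : ∀ g ∈ B, InK Q Z g ∨ InK Q Z (a⁻¹ * g) ∨ InK Q Z (a * g) := by
    intro g hg
    have hwQ : g * x * g⁻¹ ∈ Q := m.hBQ g hg x hx
    have hwZ : g * x * g⁻¹ ∉ Z := by
      intro h
      have h1 := m.hBZ' hg h
      apply hxZ
      have e : g⁻¹ * (g * x * g⁻¹) * g = x := by group
      rwa [e] at h1
    have e1 : ⁅g, x⁆ = g * x * g⁻¹ * x⁻¹ := commutatorElement_def g x
    have e2 : ⁅a⁻¹ * g, x⁆ = a⁻¹ * (g * x * g⁻¹ * (a * x * a⁻¹)⁻¹) * a := by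
      rw [commutatorElement_def]; group
    have e3 : ⁅a * g, x⁆ = a * (g * x * g⁻¹ * (a⁻¹ * x * a)⁻¹) * a⁻¹ := by
      rw [commutatorElement_def]; group
    rw [← hy0] at e2
    rw [hy00] at e3
    have hc2 := cl2 (g * x * g⁻¹) hwQ
    obtain ⟨w, hw⟩ : ∃ w, w = g * x * g⁻¹ := ⟨_, rfl⟩
    rw [← hw] at hwQ hwZ e1 e2 e3 hc2
    obtain ⟨y00, hy00e⟩ : ∃ y00, y00 = a * y0 * a⁻¹ := ⟨_, rfl⟩
    rw [← hy00e] at e3 hz00
    rcases hc2 with h | h | h | h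
    · exact absurd h hwZ
    · left
      apply cS g hg
      have e : w * x⁻¹ = (x⁻¹ * (x * w) * x⁻¹⁻¹) * (x * x)⁻¹ := by group
      rw [e1, e, m.conj_Z h (Q.inv_mem hx)]
      exact Z.mul_mem h (Z.inv_mem (m.hsq x hx))
    · right; left
      apply cS (a⁻¹ * g) (B.mul_mem (B.inv_mem haB) hg)
      have e : w * y0⁻¹ = (y0⁻¹ * (y0 * w) * y0⁻¹⁻¹) * (y0 * y0)⁻¹ := by group
      rw [e2, e, m.conj_Z h (Q.inv_mem hy0Q)]
      exact m.hBZ' haB (Z.mul_mem h (Z.inv_mem (m.hsq y0 hy0Q)))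
    · right; right
      apply cS (a * g) (B.mul_mem haB hg)
      have e : w * y00⁻¹ = (w * (x * y0 * y00)⁻¹ * w⁻¹) *
          ((x * y0)⁻¹ * (x * (y0 * w)) * (x * y0)⁻¹⁻¹) := by group
      rw [e3, e, m.conj_Z (Z.inv_mem hz00) hwQ, m.conj_Z h (Q.inv_mem (Q.mul_mem hx hy0Q))]
      exact m.hBZ a haB _ (Z.mul_mem (Z.inv_mem hz00) h)
  -- every element of `B` is central modulo the kernel
  have hfin : ⁅B, B⁆ ≤ m.kerSub := by
    rw [Subgroup.commutator_le]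
    intro g hg b' hb'
    refine ⟨comm_mem B hg hb', ?_⟩
    have hnorm : ∀ c, c ∈ m.kerSub → ⁅c, b'⁆ ∈ m.kerSub := by
      intro c hc
      have e : ⁅c, b'⁆ = c * (b' * c⁻¹ * b'⁻¹) := by rw [commutatorElement_def]; group
      rw [e]
      exact m.kerSub.mul_mem hc ⟨B.mul_mem (B.mul_mem hb' (B.inv_mem hc.1)) (B.inv_mem hb'),
        m.inK_conj hb' (m.inK_inv hc.1 hc.2)⟩
    rcases cl3 g hg with h | h | h
    · exact (hnorm g ⟨hg, h⟩).2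
    · have hc := hnorm (a⁻¹ * g) ⟨B.mul_mem (B.inv_mem haB) hg, h⟩
      have e : ⁅g, b'⁆ = a * ⁅a⁻¹ * g, b'⁆ * a⁻¹ * ⁅a, b'⁆ := by
        simp only [commutatorElement_def]; group
      rw [e]
      exact m.inK_mul (B.mul_mem (B.mul_mem haB hc.1) (B.inv_mem haB)) (m.inK_conj haB hc.2)
        (hcen b' hb')
    · have hc := hnorm (a * g) ⟨B.mul_mem haB hg, h⟩
      have e : ⁅g, b'⁆ = a⁻¹ * ⁅a * g, b'⁆ * a⁻¹⁻¹ * ⁅a⁻¹, b'⁆ := by
        simp only [commutatorElement_def]; group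
      rw [e]
      exact m.inK_mul (B.mul_mem (B.mul_mem (B.inv_mem haB) hc.1) (B.inv_mem (B.inv_mem haB)))
        (m.inK_conj (B.inv_mem haB) hc.2) (m.inK_comm_inv haB hcen hb')
  exact hnk (hfin ha).2

end MinCfg

end Cfsg.Agent.Helper33.QS
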