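-- helper33 library: existence of the minimal configuration (pure group theory part).
-- Add-only once landed.
import Cfsg.Agent.Helper33.QuadStruct
import Cfsg.Agent.Helper35.CoprimeAbelian

set_option autoImplicit false

namespace Cfsg.Agent.Helper33.QS

open scoped commutatorElement
open Subgroup

variable {H : Type*} [Group H]

/-- **Existence of a minimal configuration.**  If `B` is a `p`-group (`p` odd) acting on a
`2`-group `R` which is not centralized by `⁅B, B⁆`, while `⁅B, B⁆` centralizes every abelian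
`B`-invariant subgroup of `R`, then a minimal configuration exists inside `R`. -/
theorem exists_minCfg [Finite H] {p : ℕ} [hp : Fact p.Prime] (hp2 : p ≠ 2) {B R : Subgroup H}
    (hB : IsPGroup p B) (hR : IsPGroup 2 R) (hBR : ∀ b ∈ B, ∀ y ∈ R, b * y * b⁻¹ ∈ R)
    (hne : ¬ (⁅R, ⁅B, B⁆⁆ = ⊥))
    (hquad : ∀ Q' : Subgroup H, Q' ≤ R → (∀ b ∈ B, ∀ y ∈ Q', b * y * b⁻¹ ∈ Q') →
      (∀ x ∈ Q', ∀ y ∈ Q', x * y = y * x) → ⁅Q', ⁅B, B⁆⁆ = ⊥) :
    ∃ Q Z : Subgroup H, Q ≤ R ∧ MinCfg B Q Z := by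
  classical
  obtain ⟨A, hA⟩ : ∃ A : Subgroup H, A = ⁅B, B⁆ := ⟨_, rfl⟩
  rw [← hA] at hne hquad
  have hAB : A ≤ B := by rw [hA]; exact comm_le_self B
  have hBA : ∀ b ∈ B, ∀ a ∈ A, b * a * b⁻¹ ∈ A := by
    intro b hb a ha
    have e : b * a * b⁻¹ = ⁅b, a⁆ * a := by rw [commutatorElement_def]; group
    rw [e]
    refine A.mul_mem ?_ ha
    rw [hA]
    exact Subgroup.commutator_mem_commutator hb (hAB ha)
  have hcop : ∀ Q' : Subgroup H, Q' ≤ R → (Nat.card A).Coprime (Nat.card Q') := by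
    intro Q' hQ'
    obtain ⟨n, hn⟩ := IsPGroup.iff_card.mp (hB.to_le hAB)
    obtain ⟨k, hk⟩ := IsPGroup.iff_card.mp (hR.to_le hQ')
    rw [hn, hk]
    exact Nat.Coprime.pow _ _ ((Nat.coprime_primes hp.out Nat.prime_two).mpr hp2)
  have hsolA : Group.IsSolvable A := by
    haveI := (hB.to_le hAB).isNilpotent
    infer_instance
  obtain ⟨Q, ⟨hQR, hBQ, hQA⟩, hmin⟩ := Set.exists_min_image
    {Q : Subgroup H | Q ≤ R ∧ (∀ b ∈ B, ∀ y ∈ Q, b * y * b⁻¹ ∈ Q) ∧ ¬ ⁅Q, A⁆ = ⊥}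
    (fun Q => Nat.card Q) (Set.toFinite _) ⟨R, le_rfl, hBR, hne⟩
  have hmin' : ∀ U : Subgroup H, U ≤ Q → U ≠ Q → (∀ b ∈ B, ∀ y ∈ U, b * y * b⁻¹ ∈ U) →
      ⁅U, A⁆ = ⊥ := by
    intro U hUQ hUne hBU
    by_contra h
    exact hUne (Subgroup.eq_of_le_of_card_ge hUQ (hmin U ⟨hUQ.trans hQR, hBU, h⟩))
  have hAQn : A ≤ normalizer (Q : Set H) :=
    Cfsg.Agent.Helper35.le_normalizer_of_forall_conj_mem (fun a ha y hy => hBQ a (hAB ha) y hy)
  have hBQn : B ≤ normalizer (Q : Set H) :=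
    Cfsg.Agent.Helper35.le_normalizer_of_forall_conj_mem hBQ
  have hBAn : B ≤ normalizer (A : Set H) :=
    Cfsg.Agent.Helper35.le_normalizer_of_forall_conj_mem hBA
  have hQQn : Q ≤ normalizer (Q : Set H) := Subgroup.le_normalizer
  -- `⁅Q, A⁆ = Q`
  have hQA1 : ⁅Q, A⁆ = Q := by
    by_contra h
    have h1 : ⁅Q, A⁆ ≤ Q := Cfsg.Agent.Helper35.commutator_le_of_le_normalizer hAQn
    have h2 : B ≤ normalizer ((⁅Q, A⁆ : Subgroup H) : Set H) :=
      Cfsg.Agent.Helper35.le_normalizer_commutator' hBQn hBAn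
    have h3 := hmin' _ h1 h (fun b hb y hy => (Subgroup.mem_normalizer_iff.mp (h2 hb) y).mp hy)
    rw [Cfsg.Agent.Helper35.commutator_commutator_eq_of_coprime hAQn (hcop Q hQR)
      (Or.inl hsolA)] at h3
    exact hQA h3
  -- the centre of `Q`
  obtain ⟨Z, hZ⟩ : ∃ Z : Subgroup H, Z = Q ⊓ centralizer (Q : Set H) := ⟨_, rfl⟩
  have hZQ : Z ≤ Q := by rw [hZ]; exact inf_le_left
  have hZc : ∀ z ∈ Z, ∀ y ∈ Q, z * y = y * z := by
    intro z hz y hy
    rw [hZ] at hz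
    exact (Subgroup.mem_centralizer_iff.mp hz.2 y hy).symm
  have hZmem : ∀ z, z ∈ Q → (∀ y ∈ Q, z * y = y * z) → z ∈ Z := by
    intro z hz h
    rw [hZ]
    exact ⟨hz, Subgroup.mem_centralizer_iff.mpr (fun y hy => (h y hy).symm)⟩
  have hBZ : ∀ b ∈ B, ∀ z ∈ Z, b * z * b⁻¹ ∈ Z := by
    intro b hb z hz
    apply hZmem _ (hBQ b hb z (hZQ hz))
    intro y hy
    have h1 : b⁻¹ * y * b ∈ Q := by
      have := hBQ b⁻¹ (B.inv_mem hb) y hy
      rwa [inv_inv] at this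
    have h2 := hZc z hz _ h1
    calc b * z * b⁻¹ * y = b * (z * (b⁻¹ * y * b)) * b⁻¹ := by group
      _ = b * ((b⁻¹ * y * b) * z) * b⁻¹ := by rw [h2]
      _ = y * (b * z * b⁻¹) := by group
  have hZne : Z ≠ Q := by
    intro h
    apply hQA
    apply hquad Q hQR hBQ
    intro x hx y hy
    exact hZc x (by rw [h]; exact hx) y hy
  have hZA : ⁅Z, A⁆ = ⊥ := hmin' Z hZQ hZne hBZ
  -- irreducibility
  have hirr : ∀ U : Subgroup H, U ≤ Q → (∀ b ∈ B, ∀ u ∈ U, b * u * b⁻¹ ∈ U) →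
      (∀ y ∈ Q, ∀ u ∈ U, y * u * y⁻¹ ∈ U) → U ≤ Z ∨ U = Q := by
    intro U hUQ hBU hQU
    by_cases hUe : U = Q
    · exact Or.inr hUe
    left
    have hUA : ⁅U, A⁆ = ⊥ := hmin' U hUQ hUe hBU
    have h1 : ⁅⁅A, U⁆, Q⁆ = ⊥ := by
      rw [Subgroup.commutator_comm A U, hUA]
      exact Subgroup.commutator_bot_left Q
    have h2 : ⁅⁅U, Q⁆, A⁆ = ⊥ := by
      have h3 : ⁅U, Q⁆ ≤ U := Cfsg.Agent.Helper35.commutator_le_of_le_normalizer
        (Cfsg.Agent.Helper35.le_normalizer_of_forall_conj_mem hQU)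
      have h4 : ⁅⁅U, Q⁆, A⁆ ≤ ⁅U, A⁆ := Subgroup.commutator_mono h3 le_rfl
      rw [hUA] at h4
      exact le_bot_iff.mp h4
    have h4 := Subgroup.commutator_commutator_eq_bot_of_rotate h1 h2
    rw [hQA1] at h4
    intro u hu
    apply hZmem u (hUQ hu)
    intro y hy
    have h5 : ⁅y, u⁆ ∈ (⁅Q, U⁆ : Subgroup H) := Subgroup.commutator_mem_commutator hy hu
    rw [h4, Subgroup.mem_bot] at h5
    exact (commutatorElement_eq_one_iff_mul_comm.mp h5).symm
  -- commutators lie in `Z`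
  have hQnontriv : Q ≠ ⊥ := by
    rintro rfl
    exact hQA (Subgroup.commutator_bot_left A)
  have hEZ : ∀ x ∈ Q, ∀ y ∈ Q, ⁅x, y⁆ ∈ Z := by
    have hE : ⁅Q, Q⁆ ≤ Z := by
      have h1 : ⁅Q, Q⁆ ≤ Q := comm_le_self Q
      have hBE : B ≤ normalizer ((⁅Q, Q⁆ : Subgroup H) : Set H) :=
        Cfsg.Agent.Helper35.le_normalizer_commutator' hBQn hBQn
      have hQE : Q ≤ normalizer ((⁅Q, Q⁆ : Subgroup H) : Set H) :=
        Cfsg.Agent.Helper35.le_normalizer_commutator' hQQn hQQn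
      rcases hirr ⁅Q, Q⁆ h1
        (fun b hb y hy => (Subgroup.mem_normalizer_iff.mp (hBE hb) y).mp hy)
        (fun b hb y hy => (Subgroup.mem_normalizer_iff.mp (hQE hb) y).mp hy) with h | h
      · exact h
      · exfalso
        haveI : Nontrivial ↥Q := (Subgroup.nontrivial_iff_ne_bot Q).mpr hQnontriv
        haveI : Group.IsSolvable ↥Q := by
          haveI := (hR.to_le hQR).isNilpotent
          infer_instance
        have h2 := Group.IsSolvable.commutator_lt_top_of_nontrivial ↥Q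
        have h3 : (commutator ↥Q).map Q.subtype = ⁅Q, Q⁆ := Subgroup.map_subtype_commutator Q
        rw [h] at h3
        apply h2.ne
        rw [eq_top_iff]
        intro x _
        have h4 : (x : H) ∈ (commutator ↥Q).map Q.subtype := by rw [h3]; exact x.2
        obtain ⟨x', hx', hxx⟩ := h4
        have h5 : x' = x := Subtype.ext hxx
        rwa [h5] at hx'
    intro x hx y hy
    exact hE (Subgroup.commutator_mem_commutator hx hy)
  -- squares lie in `Z`
  have hsq : ∀ x ∈ Q, x * x ∈ Z := by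
    let U : Subgroup H :=
      { carrier := {x | x ∈ Q ∧ x * x ∈ Z}
        mul_mem' := by
          rintro x y ⟨hx, hxx⟩ ⟨hy, hyy⟩
          refine ⟨Q.mul_mem hx hy, ?_⟩
          have e : (x * y) * (x * y) = (x * x) * ⁅x⁻¹, y⁆ * (y * y) := by
            rw [commutatorElement_def]; group
          rw [e]
          exact Z.mul_mem (Z.mul_mem hxx (hEZ _ (Q.inv_mem hx) y hy)) hyy
        one_mem' := ⟨Q.one_mem, by rw [mul_one]; exact Z.one_mem⟩
        inv_mem' := by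
          rintro x ⟨hx, hxx⟩
          refine ⟨Q.inv_mem hx, ?_⟩
          have e : x⁻¹ * x⁻¹ = (x * x)⁻¹ := by group
          rw [e]
          exact Z.inv_mem hxx }
    rcases hirr U (fun x hx => hx.1)
      (fun b hb x hx => by
        refine ⟨hBQ b hb x hx.1, ?_⟩
        have e : (b * x * b⁻¹) * (b * x * b⁻¹) = b * (x * x) * b⁻¹ := by group
        rw [e]
        exact hBZ b hb _ hx.2)
      (fun y hy x hx => by
        refine ⟨Q.mul_mem (Q.mul_mem hy hx.1) (Q.inv_mem hy), ?_⟩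
        have e : (y * x * y⁻¹) * (y * x * y⁻¹) = y * (x * x) * y⁻¹ := by group
        rw [e, ← hZc _ hx.2 y hy, mul_inv_cancel_right]
        exact hx.2) with h | h
    · exfalso
      obtain ⟨x0, hx0, hx0Z⟩ : ∃ x ∈ Q, x ∉ Z := by
        by_contra hcon
        push Not at hcon
        exact hZne (le_antisymm hZQ hcon)
      obtain ⟨k, hk⟩ := (hR.to_le hQR) ⟨x0, hx0⟩
      have hk' : x0 ^ 2 ^ k = 1 := by
        have := congrArg Subtype.val hk
        simpa using this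
      have hex : ∃ j, x0 ^ 2 ^ j ∈ Z := ⟨k, by rw [hk']; exact Z.one_mem⟩
      have hj := Nat.find_spec hex
      have hj0 : Nat.find hex ≠ 0 := by
        intro h0
        rw [h0, pow_zero, pow_one] at hj
        exact hx0Z hj
      obtain ⟨j, hjs⟩ := Nat.exists_eq_succ_of_ne_zero hj0
      have hjm : x0 ^ 2 ^ j ∉ Z := Nat.find_min hex (by omega)
      apply hjm
      apply h
      refine ⟨Q.pow_mem hx0 _, ?_⟩
      rw [hjs, pow_succ, pow_mul, pow_two] at hj
      exact hj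
    · intro x hx
      have : x ∈ U := by rw [h]; exact hx
      exact this.2
  have hAZ : ∀ a ∈ A, ∀ z ∈ Z, a * z = z * a := by
    intro a ha z hz
    have h5 : ⁅z, a⁆ ∈ (⁅Z, A⁆ : Subgroup H) := Subgroup.commutator_mem_commutator hz ha
    rw [hZA, Subgroup.mem_bot] at h5
    exact (commutatorElement_eq_one_iff_mul_comm.mp h5).symm
  have hne' : ∃ a ∈ A, ∃ y ∈ Q, ⁅a, y⁆ ∉ Z := by
    by_contra hcon
    push Not at hcon
    apply hZne
    apply le_antisymm hZQ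
    have h1 : ⁅Q, A⁆ ≤ Z := by
      rw [Subgroup.commutator_le]
      intro y hy a ha
      rw [← commutatorElement_inv a y]
      exact Z.inv_mem (hcon a ha y hy)
    rwa [hQA1] at h1
  refine ⟨Q, Z, hQR, ?_⟩
  subst hA
  exact ⟨hBQ, hBZ, hZQ, hZc, hEZ, hsq, hAZ, hirr, hne'⟩

end Cfsg.Agent.Helper33.QS
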