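-- helper33 library: a faithful `p`-solvable linear group with trivial `O_p` has no `p`-subgroup
-- `B` such that `⁅B, B⁆ ≠ 1` acts quadratically and `(a - 1)(b - 1)² = 0`.  Add-only once landed.
import Cfsg.Agent.Helper33.QuadAct
import Cfsg.Agent.Helper33.QuadIso
import Cfsg.Agent.Helper33.QuadMin
import Cfsg.Agent.Helper63.HHPSol

set_option autoImplicit false

namespace Cfsg.Agent.Helper33.QI

open Module
open scoped commutatorElement

variable {F : Type*} [Field F] {V : Type*} [AddCommGroup V] [Module F V]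
variable {H : Type*} [Group H]

/-- In the minimal configuration (characteristic 3), every commutator `⁅a', x⁆` with
`a' ∈ ⁅B, B⁆`, `x ∈ Q` fixes the image of each character idempotent of `E`. -/
theorem idem_fix [CharP F 3] [FiniteDimensional F V] [Finite H] (ρ : H →* Module.End F V)
    (hρ : Function.Injective ρ) {B Q Z : Subgroup H} (m : QS.MinCfg B Q Z) (hB : IsPGroup 3 B)
    (hQ : IsPGroup 2 Q)
    (hq1 : ∀ a ∈ ⁅B, B⁆, (ρ a - 1) ^ 2 = 0)
    (hq2 : ∀ a ∈ ⁅B, B⁆, ∀ b ∈ B, (ρ a - 1) * (ρ b - 1) ^ 2 = 0)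
    (E : Subgroup H) [Fintype E] (hEZ : E ≤ Z) (hE2 : ∀ e ∈ E, e * e = 1)
    (hEc : ∀ x ∈ Q, ∀ y ∈ Q, ⁅x, y⁆ ∈ E) (hEB : ∀ b ∈ B, ∀ e ∈ E, b * e * b⁻¹ ∈ E)
    (χ : ↥E →* Fˣ) : ∀ a' ∈ ⁅B, B⁆, ∀ x ∈ Q, ρ ⁅a', x⁆ * idem ρ E χ = idem ρ E χ := by
  classical
  have hF2 : (2 : F) ≠ 0 := two_ne_zero_of_char (p := 3) (by norm_num)
  have hE : (Fintype.card E : F) ≠ 0 := by
    have := card_ne_zero_of_exp_two (F := F) (G := ↥E) hF2 (fun g => Subtype.ext (hE2 g g.2))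
    rwa [Nat.card_eq_fintype_card] at this
  have hidem : idem ρ E χ * idem ρ E χ = idem ρ E χ := idem_idem ρ E hE χ
  have hχE0 : ∀ e : ↥E, ρ (e : H) * idem ρ E χ = ((χ e : Fˣ) : F) • idem ρ E χ :=
    fun e => map_mul_idem ρ E χ e
  have hAB : ⁅B, B⁆ ≤ B := QS.comm_le_self B
  have hQΓ0 : Q ≤ commSub ρ (idem ρ E χ) := by
    intro y hy
    apply commute_idem
    intro e
    rw [← map_mul, ← map_mul, m.hZc e (hEZ e.2) y hy]
  have hAΓ0 : ⁅B, B⁆ ≤ commSub ρ (idem ρ E χ) := by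
    intro a' ha'
    apply commute_idem
    intro e
    rw [← map_mul, ← map_mul, m.hAZ a' ha' e (hEZ e.2)]
  have hII : ¬ B ≤ commSub ρ (idem ρ E χ) → ∀ a'' ∈ ⁅B, B⁆, a'' ∈ fixK ρ (idem ρ E χ) := by
    intro hBΓ a'' ha''
    exact fix_of_moved (p := 3) (by norm_num) ρ E hE B hB hEB χ hBΓ a'' (hAΓ0 ha'') (hq2 a'' ha'')
  obtain ⟨ε, hεd⟩ : ∃ ε, ε = idem ρ E χ := ⟨_, rfl⟩
  rw [← hεd] at hidem hχE0 hQΓ0 hAΓ0 hII ⊢
  by_cases hBΓ : B ≤ commSub ρ ε
  swap
  · intro a' ha' x hx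
    exact fixK_comm (hII hBΓ a' ha') (hQΓ0 hx)
  by_cases hε0 : ε = 0
  · intro a' ha' x hx
    rw [hε0, mul_zero]
  by_cases hχ1 : ∀ e : ↥E, χ e = 1
  · intro a' ha' x hx
    have hEK : ∀ e ∈ E, e ∈ fixK ρ ε := by
      intro e he
      show ρ e * ε = ε
      have := hχE0 ⟨e, he⟩
      rw [hχ1, Units.val_one, one_smul] at this
      exact this
    have h := modU_abelian_centralizes (p := 3) (q := 2) (by norm_num) (by norm_num) ρ ε hidem a'
      (hAΓ0 ha') (hq1 a' ha') Q hQ hQΓ0 (Q : Set H) (fun _ h => h)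
      (fun u hu => m.hBQ a' (hAB ha') u hu)
      (fun u hu v hv => comm_eq_of_comm_fixK (hEK _ (hEc u hu v hv)) (hQΓ0 (Q.mul_mem hv hu)))
      x hx
    exact fixK_of_eq (hQΓ0 hx) h
  · exfalso
    push Not at hχ1
    obtain ⟨e1, he1⟩ := hχ1
    have hD : ∀ u ∈ Q, u ∈ fixK ρ ε → u ∈ Z := by
      rcases m.hirr (Q ⊓ fixK ρ ε) inf_le_left
        (fun b hb u hu => ⟨m.hBQ b hb u hu.1, fixK_conj (hBΓ hb) hu.2⟩)
        (fun y hy u hu => ⟨Q.mul_mem (Q.mul_mem hy hu.1) (Q.inv_mem hy),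
          fixK_conj (hQΓ0 hy) hu.2⟩) with h | h
      · intro u hu hu'
        exact h ⟨hu, hu'⟩
      · exfalso
        have h1 : (e1 : H) ∈ Q ⊓ fixK ρ ε := by rw [h]; exact m.hZQ (hEZ e1.2)
        have h2 : ρ (e1 : H) * ε = ε := h1.2
        rw [hχE0 e1] at h2
        have h3 : (((χ e1 : Fˣ) : F) - 1) • ε = 0 := by rw [sub_smul, one_smul, h2, sub_self]
        rcases smul_eq_zero.mp h3 with h4 | h4
        · exact he1 (Units.ext (by rw [Units.val_one]; exact sub_eq_zero.mp h4))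
        · exact hε0 h4
    have hval : ∀ e : ↥E, (e : H) ∉ fixK ρ ε → ((χ e : Fˣ) : F) = -1 := by
      intro e he
      have hsq : ((χ e : Fˣ) : F) * ((χ e : Fˣ) : F) = 1 := by
        rw [← Units.val_mul, ← map_mul]
        have : e * e = 1 := Subtype.ext (hE2 e e.2)
        rw [this, map_one, Units.val_one]
      rcases mul_self_eq_one_iff.mp hsq with h | h
      · exfalso
        apply he
        show ρ (e : H) * ε = ε
        rw [hχE0 e, h, one_smul]
      · exact h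
    have hK : ∀ x ∈ Q, ∀ y ∈ Q, ∀ x' ∈ Q, ∀ y' ∈ Q, ⁅x, y⁆ ∉ fixK ρ ε → ⁅x', y'⁆ ∉ fixK ρ ε →
        ⁅x, y⁆ * ⁅x', y'⁆ ∈ fixK ρ ε := by
      intro x hx y hy x' hx' y' hy' h1 h2
      have e1' := hval ⟨⁅x, y⁆, hEc x hx y hy⟩ h1
      have e2' := hval ⟨⁅x', y'⁆, hEc x' hx' y' hy'⟩ h2
      have h3 := hχE0 (⟨⁅x, y⁆, hEc x hx y hy⟩ * ⟨⁅x', y'⁆, hEc x' hx' y' hy'⟩)
      rw [map_mul, Units.val_mul, e1', e2'] at h3
      show ρ (⁅x, y⁆ * ⁅x', y'⁆) * ε = ε
      simpa using h3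
    obtain ⟨a, ha, hnk, hcen⟩ := m.exists_central hB
    have haB := hAB ha
    have ha3 : a * a * a = 1 := by
      apply hρ
      have h := HHQ.pow_char_eq_one_of_quad (p := 3) (ρ a) (hq1 a ha)
      rw [pow_succ, pow_two] at h
      rw [map_one, map_mul, map_mul]
      exact h
    have hfpf := m.fpf haB hnk hcen
    obtain ⟨y, hy, hyZ, hyK⟩ := m.exists_isotropic ha hnk hcen ha3 (fixK ρ ε) hK
    have hy1 : a * y * a⁻¹ ∈ Q := m.hBQ a haB y hy
    have hy2 : a * (a * y * a⁻¹) * a⁻¹ ∈ Q := m.hBQ a haB _ hy1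
    have e3 : a * (a * (a * y * a⁻¹) * a⁻¹) * a⁻¹ = y := by
      have : a * (a * (a * y * a⁻¹) * a⁻¹) * a⁻¹ = (a * a * a) * y * (a * a * a)⁻¹ := by group
      rw [this, ha3, one_mul, inv_one, mul_one]
    have hk12 : ⁅a * y * a⁻¹, a * (a * y * a⁻¹) * a⁻¹⁆ ∈ fixK ρ ε := by
      rw [m.cconj ha hy hy1]
      exact hyK
    have hk20 : ⁅a * (a * y * a⁻¹) * a⁻¹, y⁆ ∈ fixK ρ ε := by
      have h := m.cconj ha hy1 hy2
      rw [e3] at h
      rw [h]
      exact hk12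
    have hsymm : ∀ u v : H, ⁅u, v⁆ ∈ fixK ρ ε → ⁅v, u⁆ ∈ fixK ρ ε := by
      intro u v h
      rw [← commutatorElement_inv]
      exact Subgroup.inv_mem _ h
    have hself : ∀ u : H, ⁅u, u⁆ ∈ fixK ρ ε := by
      intro u
      rw [commutatorElement_self]
      exact Subgroup.one_mem _
    obtain ⟨y1, hy1e⟩ : ∃ y1, y1 = a * y * a⁻¹ := ⟨_, rfl⟩
    rw [← hy1e] at hy1 hy2 e3 hk12 hk20 hyK
    obtain ⟨y2, hy2e⟩ : ∃ y2, y2 = a * y1 * a⁻¹ := ⟨_, rfl⟩
    rw [← hy2e] at hy2 e3 hk12 hk20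
    have hSQ : ∀ u, (u = y ∨ u = y1 ∨ u = y2) → u ∈ Q := by
      rintro u (rfl | rfl | rfl)
      · exact hy
      · exact hy1
      · exact hy2
    have hS : ∀ u, (u = y ∨ u = y1 ∨ u = y2) → ∀ v, (v = y ∨ v = y1 ∨ v = y2) →
        ⁅u, v⁆ ∈ fixK ρ ε := by
      intro u hu v hv
      rcases hu with h | h | h <;> rcases hv with h' | h' | h' <;> rw [h, h']
      · exact hself _
      · exact hyK
      · exact hsymm _ _ hk20
      · exact hsymm _ _ hyK
      · exact hself _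
      · exact hk12
      · exact hk20
      · exact hsymm _ _ hk12
      · exact hself _
    have h := modU_abelian_centralizes (p := 3) (q := 2) (by norm_num) (by norm_num) ρ ε hidem a
      (hAΓ0 ha) (hq1 a ha) Q hQ hQΓ0 {u | u = y ∨ u = y1 ∨ u = y2} (fun u hu => hSQ u hu)
      (by
        intro u hu
        rcases hu with h | h | h
        · right; left
          rw [h, hy1e]
        · right; right
          rw [h, hy2e]
        · left
          rw [h]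
          exact e3)
      (fun u hu v hv => comm_eq_of_comm_fixK (hS u hu v hv)
        (hQΓ0 (Q.mul_mem (hSQ v hv) (hSQ u hu)))) y (Or.inl rfl)
    rw [← hy1e] at h
    have h2 : y1 * y⁻¹ ∈ fixK ρ ε := fixK_of_eq (hQΓ0 hy) h
    have h3 : ⁅a, y⁆ = y1 * y⁻¹ := by rw [commutatorElement_def, hy1e]
    have h4 : ⁅a, y⁆ ∈ Z := by
      rw [h3]
      exact hD _ (Q.mul_mem hy1 (Q.inv_mem hy)) h2
    exact hyZ (hfpf y hy h4)

/-- **The key linear lemma.**  Let `H` be a finite `p`-solvable group (`p` odd) with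
`O_p(H) = 1`, acting faithfully on a finite-dimensional vector space in characteristic `p`.  If
`B` is a `p`-subgroup such that every `a ∈ ⁅B, B⁆` satisfies `(a - 1)² = 0` and
`(a - 1)(b - 1)² = 0` for all `b ∈ B`, then `B` is abelian. -/
theorem star {p : ℕ} [hp : Fact p.Prime] (hp2 : p ≠ 2) [Finite F] [CharP F p]
    [FiniteDimensional F V] [Finite H] (ρ : H →* Module.End F V) (hρ : Function.Injective ρ)
    (hsol : Cfsg.IsPSolvable p H) (hOp : Cfsg.pCore p H = ⊥) (B : Subgroup H)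
    (hB : IsPGroup p B)
    (hq1 : ∀ a ∈ ⁅B, B⁆, (ρ a - 1) ^ 2 = 0)
    (hq2 : ∀ a ∈ ⁅B, B⁆, ∀ b ∈ B, (ρ a - 1) * (ρ b - 1) ^ 2 = 0) :
    ⁅B, B⁆ = ⊥ := by
  classical
  by_contra hA
  have hAB : ⁅B, B⁆ ≤ B := QS.comm_le_self B
  have hCK := Cfsg.Agent.Helper63.HHP.centralizer_pPrimeCore_le hsol hOp
  have hKcop : (Nat.card (Cfsg.pPrimeCore p H)).Coprime p :=
    Cfsg.Agent.Helper24.coprime_card_pPrimeCore p
  have hKn : (Cfsg.pPrimeCore p H).Normal := inferInstance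
  obtain ⟨K, hKd⟩ : ∃ K, K = Cfsg.pPrimeCore p H := ⟨_, rfl⟩
  rw [← hKd] at hCK hKcop hKn
  have hBK : B ≤ Subgroup.normalizer (K : Set H) :=
    Cfsg.Agent.Helper35.le_normalizer_of_forall_conj_mem (fun b _ k hk => hKn.conj_mem k hk b)
  have hcopBK : (Nat.card B).Coprime (Nat.card K) := by
    obtain ⟨n, hn⟩ := IsPGroup.iff_card.mp hB
    rw [hn]
    exact Nat.Coprime.pow_left n hKcop.symm
  have hsolB : Group.IsSolvable B := by
    haveI := hB.isNilpotent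
    infer_instance
  have step1 : ∃ (q : ℕ) (_ : Fact q.Prime) (R : Subgroup H),
      R ∈ Cfsg.Agent.Helper35.sylowSet q K ∧ B ≤ Subgroup.normalizer (R : Set H) ∧
        ¬ ⁅R, ⁅B, B⁆⁆ = ⊥ := by
    by_contra hcon
    have hC : Nat.card K ∣
        Nat.card (K ⊓ Subgroup.centralizer ((⁅B, B⁆ : Subgroup H) : Set H) : Subgroup H) := by
      rw [Nat.dvd_iff_prime_pow_dvd_dvd]
      intro q j hq hdvd
      haveI : Fact q.Prime := ⟨hq⟩
      obtain ⟨R, hR, hBR⟩ :=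
        Cfsg.Agent.Helper35.exists_invariant_sylow hBK hcopBK (Or.inl hsolB) q
      have hRA : ⁅R, ⁅B, B⁆⁆ = ⊥ := by
        by_contra h
        exact hcon ⟨q, ⟨hq⟩, R, hR, hBR, h⟩
      have hRC : R ≤ K ⊓ Subgroup.centralizer ((⁅B, B⁆ : Subgroup H) : Set H) :=
        le_inf hR.1 (Subgroup.commutator_eq_bot_iff_le_centralizer.mp hRA)
      have h1 : q ^ j ∣ Nat.card R := by
        rw [hR.2]
        apply pow_dvd_pow
        exact (Nat.Prime.pow_dvd_iff_le_factorization hq Nat.card_pos.ne').mp hdvd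
      exact h1.trans (Subgroup.card_dvd_of_le hRC)
    have heq : K ⊓ Subgroup.centralizer ((⁅B, B⁆ : Subgroup H) : Set H) = K :=
      Subgroup.eq_of_le_of_card_ge inf_le_left (Nat.le_of_dvd Nat.card_pos hC)
    have hKC : K ≤ Subgroup.centralizer ((⁅B, B⁆ : Subgroup H) : Set H) := by
      rw [← heq]
      exact inf_le_right
    have hAK : ⁅B, B⁆ ≤ K := by
      intro a ha
      apply hCK
      rw [Subgroup.mem_centralizer_iff]
      intro k hk
      exact (Subgroup.mem_centralizer_iff.mp (hKC hk) a ha).symm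
    apply hA
    have hAp : IsPGroup p (⁅B, B⁆ : Subgroup H) := hB.to_le hAB
    obtain ⟨n, hn⟩ := IsPGroup.iff_card.mp hAp
    have hdvd : Nat.card (⁅B, B⁆ : Subgroup H) ∣ Nat.card K := Subgroup.card_dvd_of_le hAK
    have h1 : (Nat.card (⁅B, B⁆ : Subgroup H)).Coprime p :=
      Nat.Coprime.coprime_dvd_left hdvd hKcop
    rw [hn] at h1
    have hn0 : n = 0 := by
      by_contra h0
      have h2 : p ∣ Nat.gcd (p ^ n) p := Nat.dvd_gcd (dvd_pow_self p h0) (dvd_refl p)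
      rw [Nat.Coprime.gcd_eq_one h1] at h2
      exact hp.out.one_lt.ne' (Nat.dvd_one.mp h2)
    rw [hn0, pow_zero] at hn
    exact Subgroup.card_eq_one.mp hn
  obtain ⟨q, hqF, R, hR, hBR, hRA⟩ := step1
  have hRq : IsPGroup q R := Cfsg.Agent.Helper35.isPGroup_of_mem_sylowSet hR
  have hpq : p ≠ q := by
    rintro rfl
    apply hRA
    have h0 : (Nat.card K).factorization p = 0 :=
      Nat.factorization_eq_zero_of_not_dvd
        ((Nat.Prime.coprime_iff_not_dvd hp.out).mp hKcop.symm)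
    have h1 : Nat.card R = 1 := by rw [hR.2, h0, pow_zero]
    rw [Subgroup.card_eq_one.mp h1]
    exact Subgroup.commutator_bot_left _
  have hBRel : ∀ b ∈ B, ∀ y ∈ R, b * y * b⁻¹ ∈ R :=
    fun b hb y hy => (Subgroup.mem_normalizer_iff.mp (hBR hb) y).mp hy
  have hp3q2 : p = 3 ∧ q = 2 := by
    by_contra hnot
    apply hRA
    rw [Subgroup.commutator_eq_bot_iff_le_centralizer]
    intro y hy
    rw [Subgroup.mem_centralizer_iff]
    intro a ha
    have h := quad_centralizes_group hp2 hpq ρ hρ R hRq a (hq1 a ha)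
      (fun y hy => hBRel a (hAB ha) y hy) (fun h => hnot ⟨h.1, h.2.1⟩) y hy
    exact mul_inv_eq_iff_eq_mul.mp h
  obtain ⟨rfl, rfl⟩ := hp3q2
  obtain ⟨Q, Z, hQR, m⟩ := QS.exists_minCfg (p := 3) (by norm_num) hB hRq hBRel hRA (by
    intro Q' hQ'R hBQ' hab
    rw [Subgroup.commutator_eq_bot_iff_le_centralizer]
    intro y hy
    rw [Subgroup.mem_centralizer_iff]
    intro a ha
    have h := quad_centralizes_group (p := 3) (q := 2) (by norm_num) (by norm_num) ρ hρ Q'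
      (hRq.to_le hQ'R) a (hq1 a ha) (fun y hy => hBQ' a (hAB ha) y hy)
      (fun h => by
        obtain ⟨_, _, u, hu, v, hv, huv⟩ := h
        exact huv (hab u hu v hv)) y hy
    exact mul_inv_eq_iff_eq_mul.mp h)
  have hQ2 : IsPGroup 2 Q := hRq.to_le hQR
  let E : Subgroup H :=
    { carrier := {z | z ∈ Z ∧ z * z = 1}
      mul_mem' := by
        rintro x y ⟨hx, hxx⟩ ⟨hy, hyy⟩
        refine ⟨Z.mul_mem hx hy, ?_⟩
        have hc : x * y = y * x := m.hZc x hx y (m.hZQ hy)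
        calc x * y * (x * y) = x * (y * x) * y := by group
          _ = x * (x * y) * y := by rw [hc]
          _ = (x * x) * (y * y) := by group
          _ = 1 := by rw [hxx, hyy, one_mul]
      one_mem' := ⟨Z.one_mem, by rw [mul_one]⟩
      inv_mem' := by
        rintro x ⟨hx, hxx⟩
        refine ⟨Z.inv_mem hx, ?_⟩
        rw [← mul_inv_rev, hxx, inv_one] }
  letI : Fintype ↥E := Fintype.ofFinite ↥E
  have hEZ : E ≤ Z := fun z hz => hz.1
  have hE2 : ∀ e ∈ E, e * e = 1 := fun e he => he.2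
  have hEc : ∀ x ∈ Q, ∀ y ∈ Q, ⁅x, y⁆ ∈ E := fun x hx y hy => ⟨m.hEZ x hx y hy, m.c3 hx hy⟩
  have hEB : ∀ b ∈ B, ∀ e ∈ E, b * e * b⁻¹ ∈ E := by
    intro b hb e he
    refine ⟨m.hBZ b hb e he.1, ?_⟩
    have h1 : b * e * b⁻¹ * (b * e * b⁻¹) = b * (e * e) * b⁻¹ := by group
    rw [h1, he.2, mul_one, mul_inv_cancel]
  have hmain := fun χ => idem_fix ρ hρ m hB hQ2 hq1 hq2 E hEZ hE2 hEc hEB χ
  obtain ⟨a, ha, y, hy, hay⟩ := m.hne
  apply hay
  have hF2 : (2 : F) ≠ 0 := two_ne_zero_of_char (p := 3) (by norm_num)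
  have hEcard : (Fintype.card E : F) ≠ 0 := by
    have := card_ne_zero_of_exp_two (F := F) (G := ↥E) hF2 (fun g => Subtype.ext (hE2 g g.2))
    rwa [Nat.card_eq_fintype_card] at this
  haveI : Finite (↥E →* Fˣ) :=
    Finite.of_injective (fun f : ↥E →* Fˣ => (f : ↥E → Fˣ)) DFunLike.coe_injective
  letI : Fintype (↥E →* Fˣ) := Fintype.ofFinite _
  have hXcard : (Fintype.card (↥E →* Fˣ) : F) ≠ 0 := by
    have := card_ne_zero_of_exp_two (F := F) (G := ↥E →* Fˣ) hF2 (fun χ => by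
      ext e
      rw [MonoidHom.mul_apply, ← map_mul]
      have : e * e = 1 := Subtype.ext (hE2 e e.2)
      rw [this, map_one, MonoidHom.one_apply])
    rwa [Nat.card_eq_fintype_card] at this
  have hT := eq_one_of_forall_idem ρ E hEcard hXcard
    (fun e he => exists_char_ne_one (p := 3) (by norm_num) E
      (fun x hx y hy => m.hZc x hx.1 y (m.hZQ hy.1)) hE2 e he)
    (ρ ⁅a, y⁆) (fun χ => hmain χ a ha y hy)
  have h1 : ⁅a, y⁆ = 1 := hρ (by rw [hT, map_one])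
  rw [h1]
  exact Z.one_mem

end Cfsg.Agent.Helper33.QI
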