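-- helper33 library: the key lemma for "p-length ≤ derived length" in a group with a
-- self-centralizing elementary abelian normal `p`-subgroup `V = O_p(E)`.  Add-only once landed.
import Cfsg.Agent.Helper33.QuadStar
import Cfsg.Agent.Helper32.WreathB
import Cfsg.Agent.Helper32.PSolvable

set_option autoImplicit false

namespace Cfsg.Agent.Helper33.QK

open Cfsg.Agent.Helper32.HH
open scoped commutatorElement

universe u

variable {E : Type u} [Group E]

/-- The conjugation representation of `E` on an elementary abelian normal `p`-subgroup. -/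
noncomputable def conjRep (V : Subgroup E) [hVn : V.Normal] (p : ℕ)
    (hc : ∀ a ∈ V, ∀ b ∈ V, a * b = b * a) (he : ∀ a ∈ V, a ^ p = 1) :
    E →* Module.End (ZMod p) (Additive (AbSub V p hc he)) where
  toFun x := AddMonoidHom.toZModLinearMap p (MonoidHom.toAdditive (AbSub.conj x))
  map_one' := by
    apply LinearMap.ext
    intro m
    show Additive.ofMul (AbSub.conj 1 (Additive.toMul m)) = m
    have h : AbSub.conj (1 : E) (Additive.toMul m) = Additive.toMul m := by
      apply AbSub.ext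
      rw [AbSub.val_conj]
      group
    rw [h]
    rfl
  map_mul' := by
    intro x y
    apply LinearMap.ext
    intro m
    show Additive.ofMul (AbSub.conj (x * y) (Additive.toMul m)) =
      Additive.ofMul (AbSub.conj x (AbSub.conj y (Additive.toMul m)))
    congr 1
    apply AbSub.ext
    rw [AbSub.val_conj, AbSub.val_conj, AbSub.val_conj]
    group

variable {V : Subgroup E} [hVn : V.Normal] {p : ℕ} {hc : ∀ a ∈ V, ∀ b ∈ V, a * b = b * a}
  {he : ∀ a ∈ V, a ^ p = 1}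

theorem conjRep_apply (x : E) (v : AbSub V p hc he) :
    conjRep V p hc he x (Additive.ofMul v) = Additive.ofMul (AbSub.conj x v) := rfl

theorem comm_mem_normal (x : E) {v : E} (hv : v ∈ V) : ⁅x, v⁆ ∈ V := by
  rw [commutatorElement_def]
  exact V.mul_mem (hVn.conj_mem v hv x) (V.inv_mem hv)

/-- `ρ x - 1` sends `v` to the commutator `⁅x, v⁆`. -/
theorem conjRep_sub_one_apply (x : E) (v : E) (hv : v ∈ V) :
    (conjRep V p hc he x - 1) (Additive.ofMul (AbSub.mk v hv)) =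
      Additive.ofMul (AbSub.mk ⁅x, v⁆ (comm_mem_normal x hv)) := by
  rw [LinearMap.sub_apply, Module.End.one_apply, conjRep_apply, ← ofMul_div]
  congr 1
  apply AbSub.ext
  show x * v * x⁻¹ / v = ⁅x, v⁆
  rw [commutatorElement_def, div_eq_mul_inv]

theorem ofMul_mk_eq_zero {v : E} (hv : v ∈ V) (h1 : v = 1) :
    Additive.ofMul (AbSub.mk v hv : AbSub V p hc he) = 0 := by
  subst h1
  rfl

theorem exists_mk (m : Additive (AbSub V p hc he)) :
    ∃ v, ∃ hv : v ∈ V, m = Additive.ofMul (AbSub.mk v hv) :=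
  ⟨(Additive.toMul m).val, (Additive.toMul m).val_mem, rfl⟩

theorem pCore_quotient_eq_bot [Finite E] (p : ℕ) [Fact p.Prime] (V : Subgroup E) [V.Normal]
    (hV : V = Cfsg.pCore p E) : Cfsg.pCore p (E ⧸ V) = ⊥ := by
  subst hV
  exact Cfsg.Agent.Helper63.HHP.pCore_quotient_pCore_eq_bot p

/-- **Key lemma.**  Let `E` be a finite `p`-solvable group (`p` odd) whose largest normal
`p`-subgroup `V` is elementary abelian and self-centralizing.  If `B` is a `p`-subgroup
normalized by `V` with `⁅B, B⁆` abelian, then `⁅B, B⁆ ≤ V`. -/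
theorem comm_le_of_abelian [Finite E] {p : ℕ} [hp : Fact p.Prime] (hp2 : p ≠ 2)
    (hE : Cfsg.IsPSolvable p E) (V : Subgroup E) [hVn : V.Normal]
    (hVc : ∀ a ∈ V, ∀ b ∈ V, a * b = b * a) (hVe : ∀ a ∈ V, a ^ p = 1)
    (hCV : ∀ e : E, (∀ v ∈ V, e * v = v * e) → e ∈ V)
    (hVmax : ∀ N : Subgroup E, N.Normal → IsPGroup p N → N ≤ V)
    (B : Subgroup E) (hB : IsPGroup p B) (hVB : ∀ v ∈ V, ∀ b ∈ B, v * b * v⁻¹ ∈ B)
    (hab : ∀ x ∈ ⁅B, B⁆, ∀ y ∈ ⁅B, B⁆, x * y = y * x) : ⁅B, B⁆ ≤ V := by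
  classical
  have hVp : IsPGroup p V := fun v => ⟨1, Subtype.ext (by
    rw [pow_one, Subgroup.coe_pow]
    exact hVe v v.2)⟩
  have hVeq : V = Cfsg.pCore p E :=
    le_antisymm (Cfsg.Agent.Helper24.le_pCore hVn hVp)
      (hVmax _ (Cfsg.pCore_normal p E) (Cfsg.Agent.Helper24.isPGroup_pCore p E))
  have hOpq : Cfsg.pCore p (E ⧸ V) = ⊥ := pCore_quotient_eq_bot p V hVeq
  have hsolq : Cfsg.IsPSolvable p (E ⧸ V) :=
    Cfsg.Agent.Helper32.isPSolvable_quotient hp.out hE V
  obtain ⟨ρ, hρd⟩ : ∃ ρ : E →* Module.End (ZMod p) (Additive (AbSub V p hVc hVe)),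
      ρ = conjRep V p hVc hVe := ⟨_, rfl⟩
  have hsub : ∀ (x v : E) (hv : v ∈ V), (ρ x - 1) (Additive.ofMul (AbSub.mk v hv)) =
      Additive.ofMul (AbSub.mk ⁅x, v⁆ (comm_mem_normal x hv)) := by
    intro x v hv
    rw [hρd]
    exact conjRep_sub_one_apply x v hv
  have hker : V ≤ ρ.ker := by
    intro x hx
    rw [MonoidHom.mem_ker]
    apply LinearMap.ext
    intro m
    obtain ⟨v, hv, rfl⟩ := exists_mk m
    have h1 := hsub x v hv
    rw [LinearMap.sub_apply, Module.End.one_apply, sub_eq_iff_eq_add] at h1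
    rw [h1, ofMul_mk_eq_zero _ (commutatorElement_eq_one_iff_mul_comm.mpr (hVc x hx v hv)),
      zero_add]
    rfl
  have hρ1 : ∀ x : E, ρ x = 1 → x ∈ V := by
    intro x hx
    apply hCV
    intro v hv
    have h1 := hsub x v hv
    rw [hx, sub_self, LinearMap.zero_apply] at h1
    have h2 : (AbSub.mk ⁅x, v⁆ (comm_mem_normal x hv) : AbSub V p hVc hVe) = 1 :=
      Additive.ofMul.injective h1.symm
    have h3 : ⁅x, v⁆ = 1 := congrArg AbSub.val h2
    exact commutatorElement_eq_one_iff_mul_comm.mp h3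
  obtain ⟨ρb, hρbd⟩ : ∃ ρb : E ⧸ V →* Module.End (ZMod p) (Additive (AbSub V p hVc hVe)),
      ρb = QuotientGroup.lift V ρ hker := ⟨_, rfl⟩
  have hρb_mk : ∀ x : E, ρb (QuotientGroup.mk' V x) = ρ x := by
    intro x
    rw [hρbd]
    rfl
  have hρb : Function.Injective ρb := by
    rw [injective_iff_map_eq_one]
    intro a ha
    obtain ⟨x, rfl⟩ := QuotientGroup.mk'_surjective V a
    rw [hρb_mk] at ha
    exact (QuotientGroup.eq_one_iff x).mpr (hρ1 x ha)
  -- `V` normalizes `⁅B, B⁆`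
  have hcommV : ∀ a ∈ ⁅B, B⁆, ∀ v ∈ V, ⁅a, v⁆ ∈ (⁅B, B⁆ : Subgroup E) := by
    intro a ha v hv
    have hn : B ≤ Subgroup.normalizer ((⁅B, B⁆ : Subgroup E) : Set E) → True := fun _ => trivial
    have hVn' : V ≤ Subgroup.normalizer ((⁅B, B⁆ : Subgroup E) : Set E) := by
      have h1 : V ≤ Subgroup.normalizer (B : Set E) :=
        Cfsg.Agent.Helper35.le_normalizer_of_forall_conj_mem hVB
      exact Cfsg.Agent.Helper35.le_normalizer_commutator' h1 h1
    have h2 : v * a⁻¹ * v⁻¹ ∈ (⁅B, B⁆ : Subgroup E) :=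
      (Subgroup.mem_normalizer_iff.mp (hVn' hv) a⁻¹).mp (Subgroup.inv_mem _ ha)
    have e : ⁅a, v⁆ = a * (v * a⁻¹ * v⁻¹) := by rw [commutatorElement_def]; group
    rw [e]
    exact Subgroup.mul_mem _ ha h2
  have hBV : ∀ b ∈ B, ∀ v ∈ V, ⁅b, v⁆ ∈ B := by
    intro b hb v hv
    have e : ⁅b, v⁆ = b * (v * b⁻¹ * v⁻¹) := by rw [commutatorElement_def]; group
    rw [e]
    exact B.mul_mem hb (hVB v hv _ (B.inv_mem hb))
  have hq1 : ∀ a ∈ ⁅B, B⁆, (ρ a - 1) ^ 2 = 0 := by
    intro a ha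
    apply LinearMap.ext
    intro m
    obtain ⟨v, hv, rfl⟩ := exists_mk m
    rw [pow_two, Module.End.mul_apply, hsub, hsub, LinearMap.zero_apply]
    apply ofMul_mk_eq_zero
    exact commutatorElement_eq_one_iff_mul_comm.mpr (hab a ha _ (hcommV a ha v hv))
  have hq2 : ∀ a ∈ ⁅B, B⁆, ∀ b ∈ B, (ρ a - 1) * (ρ b - 1) ^ 2 = 0 := by
    intro a ha b hb
    apply LinearMap.ext
    intro m
    obtain ⟨v, hv, rfl⟩ := exists_mk m
    rw [pow_two, Module.End.mul_apply, Module.End.mul_apply, hsub, hsub, hsub,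
      LinearMap.zero_apply]
    apply ofMul_mk_eq_zero
    exact commutatorElement_eq_one_iff_mul_comm.mpr
      (hab a ha _ (Subgroup.commutator_mem_commutator hb (hBV b hb v hv)))
  -- apply the linear lemma to the image of `B` in `E ⧸ V`
  haveI : Finite (AbSub V p hVc hVe) := (inferInstance : Finite ↥V)
  haveI : Finite (Additive (AbSub V p hVc hVe)) := (inferInstance : Finite (AbSub V p hVc hVe))
  have hmap : (⁅B.map (QuotientGroup.mk' V), B.map (QuotientGroup.mk' V)⁆ : Subgroup (E ⧸ V)) =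
      (⁅B, B⁆ : Subgroup E).map (QuotientGroup.mk' V) :=
    (Subgroup.map_commutator B B (QuotientGroup.mk' V)).symm
  have hstar := Cfsg.Agent.Helper33.QI.star hp2 ρb hρb hsolq hOpq (B.map (QuotientGroup.mk' V))
    (hB.map _)
    (by
      rw [hmap]
      rintro _ ⟨a, ha, rfl⟩
      rw [hρb_mk]
      exact hq1 a ha)
    (by
      rw [hmap]
      rintro _ ⟨a, ha, rfl⟩ _ ⟨b, hb, rfl⟩
      rw [hρb_mk, hρb_mk]
      exact hq2 a ha b hb)
  rw [hmap] at hstar
  intro a ha
  have h1 : QuotientGroup.mk' V a ∈ (⁅B, B⁆ : Subgroup E).map (QuotientGroup.mk' V) :=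
    Subgroup.mem_map_of_mem _ ha
  rw [hstar, Subgroup.mem_bot] at h1
  exact (QuotientGroup.eq_one_iff a).mp h1

end Cfsg.Agent.Helper33.QK
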