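-- helper33 library: for odd `p`, the `p`-length of a `p`-solvable group is at most the derived
-- length of its Sylow `p`-subgroups (Hall–Higman, Theorem A (ii)).  Add-only once landed.
import Cfsg.Agent.Helper33.QuadKL
import Cfsg.Agent.Helper63.PLength
import Cfsg.Agent.Helper55.TwoClosed
import Cfsg.Agent.Helper32.HallHigman
import Cfsg.Agent.Helper24.PLen
import Cfsg.Agent.Helper2.PGroup
import Cfsg.Agent.Helper47.Coprime
import Cfsg.Agent.Helper51.PCore
import Cfsg.Agent.S4218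

set_option autoImplicit false

namespace Cfsg.Agent.Helper33.QP

open Cfsg
open Cfsg.Agent.Helper63.PLen
open scoped commutatorElement

universe u

/-- The key lemma in a `p`-solvable group with `O_{p'}(H) = 1` (`p` odd): if `B` is a
`p`-subgroup normalized by `O_p(H)` and `⁅B, B⁆` is abelian, then `⁅B, B⁆ ≤ O_p(H)`. -/
theorem comm_le_pCore {H : Type u} [Group H] [Finite H] {p : ℕ} [hpF : Fact p.Prime]
    (hp2 : p ≠ 2) (hH : Cfsg.IsPSolvable p H) (hred : Cfsg.pPrimeCore p H = ⊥)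
    (B : Subgroup H) (hB : IsPGroup p B)
    (hPB : ∀ v ∈ Cfsg.pCore p H, ∀ b ∈ B, v * b * v⁻¹ ∈ B)
    (hab : ∀ x ∈ ⁅B, B⁆, ∀ y ∈ ⁅B, B⁆, x * y = y * x) : ⁅B, B⁆ ≤ Cfsg.pCore p H := by
  classical
  have hp : p.Prime := hpF.out
  have hPn : (Cfsg.pCore p H).Normal := Cfsg.pCore_normal p H
  have hPp : IsPGroup p (Cfsg.pCore p H) := Cfsg.Agent.Helper51.pCore_isPGroup p H
  have hNtop : Subgroup.normalizer ((Cfsg.pCore p H : Subgroup H) : Set H) = ⊤ :=
    Subgroup.normalizer_eq_top_iff.mpr hPn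
  haveI hFn : ((frattini ↥(Cfsg.pCore p H)).map (Cfsg.pCore p H).subtype).Normal := by
    rw [← Subgroup.normalizer_eq_top_iff, eq_top_iff, ← hNtop]
    exact Cfsg.Agent.Helper47.normalizer_le_normalizer_map_of_characteristic _ _
  obtain ⟨Φ, hΦdef⟩ : ∃ Φ : Subgroup H,
      Φ = (frattini ↥(Cfsg.pCore p H)).map (Cfsg.pCore p H).subtype := ⟨_, rfl⟩
  rw [← hΦdef] at hFn
  have hΦle : Φ ≤ Cfsg.pCore p H := by
    rw [hΦdef]
    exact Subgroup.map_subtype_le _
  have hπ : Function.Surjective (QuotientGroup.mk' Φ) := QuotientGroup.mk'_surjective Φ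
  have hcommΦ : ∀ a ∈ Cfsg.pCore p H, ∀ b ∈ Cfsg.pCore p H, a * b * a⁻¹ * b⁻¹ ∈ Φ := by
    intro a ha b hb
    have h1 : ⁅(⟨a, ha⟩ : ↥(Cfsg.pCore p H)), ⟨b, hb⟩⁆ ∈ frattini ↥(Cfsg.pCore p H) := by
      apply Cfsg.Agent.Helper2.commutator_le_frattini_of_isPGroup hPp
      rw [commutator_def]
      exact Subgroup.commutator_mem_commutator (Subgroup.mem_top _) (Subgroup.mem_top _)
    rw [hΦdef]
    exact ⟨_, h1, rfl⟩
  have hpowΦ : ∀ a ∈ Cfsg.pCore p H, a ^ p ∈ Φ := by
    intro a ha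
    have h1 := Cfsg.Agent.Helper2.pow_mem_frattini_of_isPGroup hPp (⟨a, ha⟩ : ↥(Cfsg.pCore p H))
    rw [hΦdef]
    exact ⟨_, h1, rfl⟩
  have hE : Cfsg.IsPSolvable p (H ⧸ Φ) := Cfsg.Agent.Helper32.isPSolvable_quotient hp hH Φ
  haveI hVn : ((Cfsg.pCore p H).map (QuotientGroup.mk' Φ)).Normal := hPn.map _ hπ
  have hmemV : ∀ h : H, QuotientGroup.mk' Φ h ∈ (Cfsg.pCore p H).map (QuotientGroup.mk' Φ) →
      h ∈ Cfsg.pCore p H := by
    rintro h ⟨y, hy, hyh⟩
    have h1 : y⁻¹ * h ∈ Φ := by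
      rw [← QuotientGroup.eq]
      exact hyh
    have h2 : h = y * (y⁻¹ * h) := by group
    rw [h2]
    exact (Cfsg.pCore p H).mul_mem hy (hΦle h1)
  have hVc : ∀ a ∈ (Cfsg.pCore p H).map (QuotientGroup.mk' Φ),
      ∀ b ∈ (Cfsg.pCore p H).map (QuotientGroup.mk' Φ), a * b = b * a := by
    rintro a ⟨a₀, ha₀, rfl⟩ b ⟨b₀, hb₀, rfl⟩
    rw [← map_mul, ← map_mul]
    show ((a₀ * b₀ : H) : H ⧸ Φ) = ((b₀ * a₀ : H) : H ⧸ Φ)
    rw [QuotientGroup.eq]
    have h1 := hcommΦ b₀⁻¹ ((Cfsg.pCore p H).inv_mem hb₀) a₀⁻¹ ((Cfsg.pCore p H).inv_mem ha₀)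
    have h2 : (a₀ * b₀)⁻¹ * (b₀ * a₀) = b₀⁻¹ * a₀⁻¹ * b₀⁻¹⁻¹ * a₀⁻¹⁻¹ := by group
    rw [h2]
    exact h1
  have hVe : ∀ a ∈ (Cfsg.pCore p H).map (QuotientGroup.mk' Φ), a ^ p = 1 := by
    rintro a ⟨a₀, ha₀, rfl⟩
    rw [← map_pow]
    exact (QuotientGroup.eq_one_iff _).mpr (hpowΦ a₀ ha₀)
  have hCV : ∀ e : H ⧸ Φ, (∀ v ∈ (Cfsg.pCore p H).map (QuotientGroup.mk' Φ), e * v = v * e) →
      e ∈ (Cfsg.pCore p H).map (QuotientGroup.mk' Φ) := by
    intro e he
    obtain ⟨h, rfl⟩ := hπ e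
    refine ⟨h, ?_, rfl⟩
    apply Cfsg.Agent.S4218.mem_pCore_of_frattini hH hred h
    intro y hy
    rw [← hΦdef]
    have h1 := he _ ⟨y, hy, rfl⟩
    have h2 : QuotientGroup.mk' Φ (h * y * h⁻¹ * y⁻¹) = 1 := by
      rw [map_mul, map_mul, map_mul, h1, map_inv, map_inv]
      group
    exact (QuotientGroup.eq_one_iff _).mp h2
  have hVmax : ∀ N : Subgroup (H ⧸ Φ), N.Normal → IsPGroup p N →
      N ≤ (Cfsg.pCore p H).map (QuotientGroup.mk' Φ) := by
    intro N hNn hNp
    have hM : IsPGroup p (N.comap (QuotientGroup.mk' Φ)) := by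
      rintro ⟨m, hm⟩
      obtain ⟨k, hk⟩ := hNp ⟨QuotientGroup.mk' Φ m, hm⟩
      have h1 : (QuotientGroup.mk' Φ m) ^ p ^ k = 1 := congrArg Subtype.val hk
      rw [← map_pow] at h1
      have h2 : m ^ p ^ k ∈ Cfsg.pCore p H := hΦle ((QuotientGroup.eq_one_iff _).mp h1)
      obtain ⟨j, hj⟩ := hPp ⟨m ^ p ^ k, h2⟩
      have h3 : (m ^ p ^ k) ^ p ^ j = 1 := congrArg Subtype.val hj
      refine ⟨k + j, Subtype.ext ?_⟩
      show m ^ p ^ (k + j) = 1
      rw [pow_add, pow_mul]
      exact h3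
    have hle : N.comap (QuotientGroup.mk' Φ) ≤ Cfsg.pCore p H :=
      Cfsg.Agent.Helper24.le_pCore (hNn.comap _) hM
    intro y hy
    obtain ⟨h, rfl⟩ := hπ y
    exact ⟨h, hle hy, rfl⟩
  -- apply the key lemma in `H ⧸ Φ`
  have hmap : (⁅B.map (QuotientGroup.mk' Φ), B.map (QuotientGroup.mk' Φ)⁆ : Subgroup (H ⧸ Φ)) =
      (⁅B, B⁆ : Subgroup H).map (QuotientGroup.mk' Φ) :=
    (Subgroup.map_commutator B B (QuotientGroup.mk' Φ)).symm
  have hkey := Cfsg.Agent.Helper33.QK.comm_le_of_abelian hp2 hE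
    ((Cfsg.pCore p H).map (QuotientGroup.mk' Φ)) hVc hVe hCV hVmax
    (B.map (QuotientGroup.mk' Φ)) (hB.map _)
    (by
      rintro _ ⟨y, hy, rfl⟩ _ ⟨b, hb, rfl⟩
      rw [← map_inv, ← map_mul, ← map_mul]
      exact Subgroup.mem_map_of_mem _ (hPB y hy b hb))
    (by
      rw [hmap]
      rintro _ ⟨x, hx, rfl⟩ _ ⟨y, hy, rfl⟩
      rw [← map_mul, ← map_mul, hab x hx y hy])
  rw [hmap] at hkey
  intro a ha
  exact hmemV a (hkey (Subgroup.mem_map_of_mem _ ha))

/-! ### The derived series of a subgroup, inside the ambient group -/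

/-- The derived series of the subgroup `S`, as subgroups of the ambient group. -/
def dser {G : Type*} [Group G] (S : Subgroup G) : ℕ → Subgroup G
  | 0 => S
  | n + 1 => ⁅dser S n, dser S n⁆

theorem dser_zero {G : Type*} [Group G] (S : Subgroup G) : dser S 0 = S := rfl

theorem dser_succ {G : Type*} [Group G] (S : Subgroup G) (n : ℕ) :
    dser S (n + 1) = ⁅dser S n, dser S n⁆ := rfl

theorem dser_map {G G' : Type*} [Group G] [Group G'] (f : G →* G') (S : Subgroup G) (n : ℕ) :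
    (dser S n).map f = dser (S.map f) n := by
  induction n with
  | zero => rfl
  | succ n ih => rw [dser_succ, dser_succ, Subgroup.map_commutator, ih]

theorem dser_le {G : Type*} [Group G] (S : Subgroup G) (n : ℕ) : dser S n ≤ S := by
  induction n with
  | zero => exact le_rfl
  | succ n ih =>
    rw [dser_succ]
    exact (Cfsg.Agent.Helper33.QS.comm_le_self _).trans ih

theorem le_normalizer_dser {G : Type*} [Group G] (S : Subgroup G) (n : ℕ) :
    S ≤ Subgroup.normalizer ((dser S n : Subgroup G) : Set G) := by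
  induction n with
  | zero => exact Subgroup.le_normalizer
  | succ n ih =>
    rw [dser_succ]
    exact Cfsg.Agent.Helper35.le_normalizer_commutator' ih ih

theorem derivedSeries_map_subtype {G : Type*} [Group G] (S : Subgroup G) (n : ℕ) :
    (derivedSeries ↥S n).map S.subtype = dser S n := by
  induction n with
  | zero =>
    rw [derivedSeries_zero, dser_zero, ← MonoidHom.range_eq_map, Subgroup.range_subtype]
  | succ n ih =>
    rw [derivedSeries_succ, dser_succ, Subgroup.map_commutator, ih]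

/-- **Hall–Higman, Theorem A (ii)**, inductive form. -/
theorem pLengthLE_of_dser (p : ℕ) [hp : Fact p.Prime] (hp2 : p ≠ 2) :
    ∀ (d : ℕ) (G : Type u) [Group G] [Finite G], Cfsg.IsPSolvable p G →
      ∀ S : Sylow p G, dser (S : Subgroup G) d = ⊥ → Cfsg.PLengthLE p d G := by
  intro d
  induction d with
  | zero =>
    intro G _ _ _ S hS
    have hbot : (S : Subgroup G) = ⊥ := hS
    apply pLengthLE_of_coprime
    rw [Nat.coprime_comm, Nat.Prime.coprime_iff_not_dvd hp.out]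
    intro hdvd
    exact S.ne_bot_of_dvd_card hdvd hbot
  | succ d ih =>
    intro G _ _ hsol S hS
    have hf : Function.Surjective (QuotientGroup.mk' (pPrimeCore p G)) :=
      QuotientGroup.mk'_surjective _
    have hsol1 : Cfsg.IsPSolvable p (G ⧸ pPrimeCore p G) :=
      Cfsg.Agent.Helper32.isPSolvable_quotient hp.out hsol _
    have hred : pPrimeCore p (G ⧸ pPrimeCore p G) = ⊥ :=
      Cfsg.Agent.Helper55.pPrimeCore_quotient_eq_bot p G
    have hC := Cfsg.Agent.Helper32.centralizer_pCore_le_of_isPSolvable hsol1 hred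
    have hQS : pCore p (G ⧸ pPrimeCore p G) ≤ (S : Subgroup G).map (QuotientGroup.mk' _) := by
      have := Cfsg.Agent.Helper24.normal_isPGroup_le_sylow
        (inferInstance : (pCore p (G ⧸ pPrimeCore p G)).Normal)
        (Cfsg.Agent.Helper24.isPGroup_pCore p _) (S.mapSurjective hf)
      rwa [Sylow.coe_mapSurjective] at this
    have hS1 : dser ((S : Subgroup G).map (QuotientGroup.mk' (pPrimeCore p G))) (d + 1) = ⊥ := by
      rw [← dser_map, hS, Subgroup.map_bot]
    have hS1p : IsPGroup p ((S : Subgroup G).map (QuotientGroup.mk' (pPrimeCore p G))) :=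
      S.isPGroup'.map _
    have hKL : dser ((S : Subgroup G).map (QuotientGroup.mk' (pPrimeCore p G))) d ≤
        pCore p (G ⧸ pPrimeCore p G) := by
      cases d with
      | zero =>
        intro x hx
        have hx' : x ∈ (S : Subgroup G).map (QuotientGroup.mk' (pPrimeCore p G)) := hx
        apply hC
        rw [Subgroup.mem_centralizer_iff]
        intro q hq
        have h1 : ⁅q, x⁆ ∈ dser ((S : Subgroup G).map (QuotientGroup.mk' (pPrimeCore p G))) 1 :=
          Subgroup.commutator_mem_commutator (hQS hq) hx'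
        rw [hS1, Subgroup.mem_bot] at h1
        exact commutatorElement_eq_one_iff_mul_comm.mp h1
      | succ d' =>
        have hBn := le_normalizer_dser
          ((S : Subgroup G).map (QuotientGroup.mk' (pPrimeCore p G))) d'
        exact comm_le_pCore hp2 hsol1 hred _ (hS1p.to_le (dser_le _ d'))
          (fun v hv b hb => (Subgroup.mem_normalizer_iff.mp (hBn (hQS hv)) b).mp hb)
          (fun x hx y hy => by
            have h1 : ⁅x, y⁆ ∈
                dser ((S : Subgroup G).map (QuotientGroup.mk' (pPrimeCore p G))) (d' + 1 + 1) :=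
              Subgroup.commutator_mem_commutator hx hy
            rw [hS1, Subgroup.mem_bot] at h1
            exact commutatorElement_eq_one_iff_mul_comm.mp h1)
    -- second quotient
    have hg : Function.Surjective (QuotientGroup.mk' (pCore p (G ⧸ pPrimeCore p G))) :=
      QuotientGroup.mk'_surjective _
    have hgf : Function.Surjective ((QuotientGroup.mk' (pCore p (G ⧸ pPrimeCore p G))).comp
        (QuotientGroup.mk' (pPrimeCore p G))) := hg.comp hf
    have hsol2 : Cfsg.IsPSolvable p ((G ⧸ pPrimeCore p G) ⧸ pCore p (G ⧸ pPrimeCore p G)) :=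
      Cfsg.Agent.Helper32.isPSolvable_quotient hp.out hsol1 _
    obtain ⟨T, hT⟩ : ∃ T : Sylow p ((G ⧸ pPrimeCore p G) ⧸ pCore p (G ⧸ pPrimeCore p G)),
        (T : Subgroup ((G ⧸ pPrimeCore p G) ⧸ pCore p (G ⧸ pPrimeCore p G))) =
          (S : Subgroup G).map ((QuotientGroup.mk' (pCore p (G ⧸ pPrimeCore p G))).comp
            (QuotientGroup.mk' (pPrimeCore p G))) :=
      ⟨S.mapSurjective hgf, Sylow.coe_mapSurjective hgf S⟩
    have hT' : dser (T : Subgroup ((G ⧸ pPrimeCore p G) ⧸ pCore p (G ⧸ pPrimeCore p G))) d = ⊥ := by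
      rw [hT, ← Subgroup.map_map, ← dser_map, eq_bot_iff]
      rintro _ ⟨x, hx, rfl⟩
      exact Subgroup.mem_bot.mpr ((QuotientGroup.eq_one_iff x).mpr (hKL hx))
    have ih' := ih _ hsol2 T hT'
    have h1 : PLengthLE p 1 ↥(pCore p (G ⧸ pPrimeCore p G)) :=
      pLengthLE_one_of_isPGroup p (Cfsg.Agent.Helper24.isPGroup_pCore p _)
    have h2 := pLengthLE_extension p (pCore p (G ⧸ pPrimeCore p G)) h1 ih'
    have h3 : PLengthLE p 0 ↥(pPrimeCore p G) :=
      pLengthLE_of_coprime p (Cfsg.Agent.Helper24.coprime_card_pPrimeCore p)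
    have h4 := pLengthLE_extension p (pPrimeCore p G) h3 h2
    have e : 0 + (1 + d) = d + 1 := by omega
    rw [e] at h4
    exact h4

end Cfsg.Agent.Helper33.QP
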