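import Mathlib
import Cfsg.Agent.Helper87.SFDefs
import Cfsg.Agent.Helper21.Four
import Cfsg.Agent.S0808

/-!
# Helper33: PIECE L4T of CALL S2752 (helper87): core, with the model (L4M) as a hypothesis.
-/

set_option autoImplicit false

namespace Cfsg.Agent.Helper33

open Cfsg.Agent.Helper87.SF Cfsg.Agent.Helper21.Four

/-- L4T with the model four-group as a hypothesis. -/
theorem sf_l_four_core {F : Type} [Field F] [Fintype F] (n : ℕ)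
    (hF : Fintype.card F = 3 ^ (2 * n + 1))
    (hM : ∃ v w x₀ : Matrix.ProjectiveSpecialLinearGroup (Fin 2) F, v ≠ 1 ∧ w ≠ 1 ∧ v ≠ w ∧
      v * v = 1 ∧ w * w = 1 ∧ v * w = w * v ∧ x₀ ≠ 1 ∧ Odd (orderOf x₀) ∧ v * x₀ = x₀ * v ∧
      w * x₀ * w⁻¹ = x₀⁻¹)
    (E : Subgroup (Matrix.ProjectiveSpecialLinearGroup (Fin 2) F)) (hE : EA2 E)
    (h4 : Nat.card E = 4) :
    ∃ v w x₀ : Matrix.ProjectiveSpecialLinearGroup (Fin 2) F, v ∈ E ∧ w ∈ E ∧ v ≠ 1 ∧ w ≠ 1 ∧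
      v ≠ w ∧ x₀ ≠ 1 ∧ Odd (orderOf x₀) ∧ v * x₀ = x₀ * v ∧ w * x₀ * w⁻¹ = x₀⁻¹ := by
  obtain ⟨v, w, x₀, hv1, hw1, hvw, hvv, hww, hcomm, hx1, hxodd, hvx, hwx⟩ := hM
  have hKV : IsKleinFour (fourSub v w hvv hww hcomm) :=
    isKleinFour_fourSub hvv hww hcomm hv1 hw1 hvw
  have hKE : IsKleinFour E := isKleinFour_of h4 hE.2
  have hq : (3 ^ (2 * n + 1)) % 8 = 3 := by
    rw [pow_succ, pow_mul]
    norm_num [Nat.mul_mod, Nat.pow_mod]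
  have hodd : Odd (3 ^ (2 * n + 1)) := Odd.pow (by decide)
  obtain ⟨g, hg⟩ := (Cfsg.Agent.S0808.result hF hodd).1 (Or.inl hq)
    (fourSub v w hvv hww hcomm) E hKV hKE
  have hinj : ∀ z : Matrix.ProjectiveSpecialLinearGroup (Fin 2) F, g * z * g⁻¹ = 1 → z = 1 := by
    intro z h
    have h1 : z = g⁻¹ * (g * z * g⁻¹) * g := by group
    rw [h1, h]
    group
  refine ⟨g * v * g⁻¹, g * w * g⁻¹, g * x₀ * g⁻¹, ?_, ?_, ?_, ?_, ?_, ?_, ?_, ?_, ?_⟩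
  · rw [hg]
    exact Subgroup.mem_map.mpr ⟨v, left_mem hvv hww hcomm, rfl⟩
  · rw [hg]
    exact Subgroup.mem_map.mpr ⟨w, right_mem hvv hww hcomm, rfl⟩
  · exact fun h => hv1 (hinj v h)
  · exact fun h => hw1 (hinj w h)
  · intro h
    apply hvw
    have h1 : v = g⁻¹ * (g * v * g⁻¹) * g := by group
    rw [h1, h]
    group
  · exact fun h => hx1 (hinj x₀ h)
  · have h1 : orderOf (g * x₀ * g⁻¹) = orderOf x₀ := (MulAut.conj g).orderOf_eq x₀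
    rw [h1]
    exact hxodd
  · have h1 : g * v * g⁻¹ * (g * x₀ * g⁻¹) = g * (v * x₀) * g⁻¹ := by group
    rw [h1, hvx]
    group
  · have h1 : g * w * g⁻¹ * (g * x₀ * g⁻¹) * (g * w * g⁻¹)⁻¹ = g * (w * x₀ * w⁻¹) * g⁻¹ := by
      group
    rw [h1, hwx]
    group

end Cfsg.Agent.Helper33
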