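import Mathlib
import Cfsg.Agent.Helper87.SFDefs
import Cfsg.Agent.Helper3.SFL4M
import Cfsg.Agent.Helper33.SFL4TCore

/-!
# Helper33: PIECE L4T of CALL S2752 (helper87).
-/

set_option autoImplicit false

namespace Cfsg.Agent.Helper33

open Cfsg.Agent.Helper87.SF

/-- L4T -/
theorem sf_l_four {F : Type} [Field F] [Fintype F] (n : ℕ) (hn : 1 ≤ n)
    (hF : Fintype.card F = 3 ^ (2 * n + 1))
    (E : Subgroup (Matrix.ProjectiveSpecialLinearGroup (Fin 2) F)) (hE : EA2 E)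
    (h4 : Nat.card E = 4) :
    ∃ v w x₀ : Matrix.ProjectiveSpecialLinearGroup (Fin 2) F, v ∈ E ∧ w ∈ E ∧ v ≠ 1 ∧ w ≠ 1 ∧
      v ≠ w ∧ x₀ ≠ 1 ∧ Odd (orderOf x₀) ∧ v * x₀ = x₀ * v ∧ w * x₀ * w⁻¹ = x₀⁻¹ :=
  sf_l_four_core n hF (Cfsg.Agent.Helper3.sf_l_four_model n hn hF) E hE h4

end Cfsg.Agent.Helper33
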