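import Mathlib
import Cfsg.Agent.Helper87.SFDefs
import Cfsg.Agent.Helper44.PSL2E

/-!
# Helper33: PIECE LAC of CALL S2752 (helper87).
-/

set_option autoImplicit false

namespace Cfsg.Agent.Helper33

open Cfsg.Agent.Helper87.SF Cfsg.Agent.Helper44

/-- The nilpotent matrix `w (J w)ᵀ` for `w = (x, y)`. -/
def sfNil2 {F : Type} [Field F] (x y : F) : Matrix (Fin 2) (Fin 2) F :=
  !![x * y, -(x * x); y * y, -(x * y)]

theorem sfNil2_sq {F : Type} [Field F] (x y : F) : sfNil2 x y * sfNil2 x y = 0 := by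
  ext i j
  fin_cases i <;> fin_cases j <;> simp [sfNil2, Matrix.mul_apply, Fin.sum_univ_two] <;> ring

theorem sfNil2_det {F : Type} [Field F] (x y : F) : (1 + sfNil2 x y).det = 1 := by
  rw [Matrix.det_fin_two]
  simp [sfNil2]
  ring

theorem sfNil2_ne_zero {F : Type} [Field F] (x y : F) (h : x ≠ 0 ∨ y ≠ 0) : sfNil2 x y ≠ 0 := by
  intro h0
  have h01 := congrFun (congrFun h0 0) 1
  have h10 := congrFun (congrFun h0 1) 0
  simp [sfNil2] at h01 h10
  rcases h with h | h
  · exact h h01
  · exact h h10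

theorem sfNil2_mul_left {F : Type} [Field F] (p q r μ x y : F) (h1 : p * x + q * y = μ * x)
    (h2 : r * x - p * y = μ * y) :
    !![p, q; r, -p] * sfNil2 x y = μ • sfNil2 x y := by
  ext i j
  fin_cases i <;> fin_cases j <;> simp [sfNil2, Matrix.mul_apply, Fin.sum_univ_two] <;>
    first
      | linear_combination y * h1
      | linear_combination (-x) * h1
      | linear_combination y * h2
      | linear_combination (-x) * h2

theorem sfNil2_mul_right {F : Type} [Field F] (p q r μ x y : F) (h1 : p * x + q * y = μ * x)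
    (h2 : r * x - p * y = μ * y) :
    sfNil2 x y * !![p, q; r, -p] = -(μ • sfNil2 x y) := by
  ext i j
  fin_cases i <;> fin_cases j <;> simp [sfNil2, Matrix.mul_apply, Fin.sum_univ_two] <;>
    first
      | linear_combination (-x) * h2
      | linear_combination x * h1
      | linear_combination (-y) * h2
      | linear_combination y * h1

/-- LAC -/
theorem sf_l_aut_outer {F : Type} [Field F] [Fintype F] (n : ℕ)
    (hF : Fintype.card F = 3 ^ (2 * n + 1)) (g : GL (Fin 2) F) (a : F)
    (hg : ((g * g : GL (Fin 2) F) : Matrix (Fin 2) (Fin 2) F) =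
      a • (1 : Matrix (Fin 2) (Fin 2) F))
    (hdet : ¬ IsSquare ((g : Matrix (Fin 2) (Fin 2) F).det)) :
    ∃ u : PSL2 F, orderOf u = 3 ∧ dAut g u = u⁻¹ := by
  haveI : Fact (Nat.Prime 3) := ⟨Nat.prime_three⟩
  haveI hchar : CharP F 3 := charP_of_card 3 (2 * n + 1) hF
  have h3 : (3 : F) = 0 := by exact_mod_cast CharP.cast_eq_zero F 3
  have h2ne : (2 : F) ≠ 0 := by
    intro h
    have : (1 : F) = 0 := by linear_combination h3 - h
    exact one_ne_zero this
  obtain ⟨p, q, r, s, hgm⟩ : ∃ p q r s : F, (g : Matrix (Fin 2) (Fin 2) F) = !![p, q; r, s] :=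
    ⟨_, _, _, _, Matrix.eta_fin_two _⟩
  have hgg : (g : Matrix (Fin 2) (Fin 2) F) * (g : Matrix (Fin 2) (Fin 2) F) = a • 1 := by
    rw [← hg]
    rfl
  rw [hgm] at hgg hdet
  have e00 := congrFun (congrFun hgg 0) 0
  have e01 := congrFun (congrFun hgg 0) 1
  have e10 := congrFun (congrFun hgg 1) 0
  have e11 := congrFun (congrFun hgg 1) 1
  simp [Matrix.mul_apply, Fin.sum_univ_two] at e00 e01 e10 e11
  rw [Matrix.det_fin_two_of] at hdet
  have hs : s = -p := by
    by_contra hne
    have hps : p + s ≠ 0 := fun h => hne (by linear_combination h)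
    have hq : q = 0 := by
      have h5 : q * (p + s) = 0 := by linear_combination e01
      exact (mul_eq_zero.mp h5).resolve_right hps
    have hr : r = 0 := by
      have h5 : r * (p + s) = 0 := by linear_combination e10
      exact (mul_eq_zero.mp h5).resolve_right hps
    have hpe : p = s := by
      have h5 : (p - s) * (p + s) = 0 := by
        rw [hq] at e00
        rw [hr] at e11
        linear_combination e00 - e11
      have h6 := (mul_eq_zero.mp h5).resolve_right hps
      linear_combination h6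
    apply hdet
    exact ⟨p, by rw [hq, ← hpe]; ring⟩
  subst hs
  have hdet' : ¬ IsSquare (-a) := by
    intro h
    apply hdet
    have h5 : p * -p - q * r = -a := by linear_combination -e00
    rw [h5]
    exact h
  have hneg1 : ¬ IsSquare (-1 : F) := by
    rw [FiniteField.isSquare_neg_one_iff, hF]
    have h5 : 3 ^ (2 * n + 1) % 4 = 3 := by
      rw [pow_succ, pow_mul]
      norm_num [Nat.mul_mod, Nat.pow_mod]
    omega
  have hrc : ringChar F ≠ 2 := by
    rw [ringChar.eq F 3]
    norm_num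
  obtain ⟨μ, hμ⟩ := isSquare_mul_of_not_isSquare hrc hneg1 hdet'
  have hμ' : a = μ * μ := by linear_combination hμ
  have hμ0 : μ ≠ 0 := by
    rintro rfl
    apply hdet'
    exact ⟨0, by rw [hμ']; ring⟩
  have hrel : p * p + q * r = μ * μ := by
    rw [← hμ']
    exact e00
  obtain ⟨x, y, hxy, h1, h2⟩ : ∃ x y : F, (x ≠ 0 ∨ y ≠ 0) ∧ p * x + q * y = μ * x ∧
      r * x - p * y = μ * y := by
    by_cases hc : p + μ ≠ 0 ∨ r ≠ 0
    · exact ⟨p + μ, r, hc, by linear_combination hrel, by ring⟩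
    · push Not at hc
      refine ⟨q, μ - p, Or.inr ?_, by ring, by linear_combination hrel⟩
      intro h
      apply hμ0
      have h5 : (2 : F) * μ = 0 := by linear_combination hc.1 + h
      exact (mul_eq_zero.mp h5).resolve_left h2ne
  obtain ⟨Nm, hNm⟩ : ∃ Nm : Matrix (Fin 2) (Fin 2) F, Nm = sfNil2 x y := ⟨_, rfl⟩
  have hN2 : Nm * Nm = 0 := by
    rw [hNm]
    exact sfNil2_sq x y
  have hNne : Nm ≠ 0 := by
    rw [hNm]
    exact sfNil2_ne_zero x y hxy
  have hgN : (g : Matrix (Fin 2) (Fin 2) F) * Nm = μ • Nm := by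
    rw [hgm, hNm]
    exact sfNil2_mul_left p q r μ x y h1 h2
  have hNg : Nm * (g : Matrix (Fin 2) (Fin 2) F) = -(μ • Nm) := by
    rw [hgm, hNm]
    exact sfNil2_mul_right p q r μ x y h1 h2
  have hNdet : (1 + Nm).det = 1 := by
    rw [hNm]
    exact sfNil2_det x y
  obtain ⟨s₀, hs₀⟩ : ∃ s₀ : SL2 F, (s₀ : Matrix (Fin 2) (Fin 2) F) = 1 + Nm :=
    ⟨⟨1 + Nm, hNdet⟩, rfl⟩
  have hNNN : Nm + Nm + Nm = 0 := by
    have h5 : (3 : F) • Nm = 0 := by rw [h3, zero_smul]
    rw [← h5, show (3 : F) = 1 + 1 + 1 by norm_num, add_smul, add_smul, one_smul]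
  refine ⟨pr s₀, ?_, ?_⟩
  · have hpow : s₀ ^ 3 = 1 := by
      apply Subtype.ext
      show ((s₀ ^ 3 : SL2 F) : Matrix (Fin 2) (Fin 2) F) = 1
      rw [Matrix.SpecialLinearGroup.coe_pow, hs₀]
      have key : (1 + Nm) ^ 3 = 1 + (Nm + Nm + Nm) + (Nm * Nm) * ((3 : ℕ) • (1 : Matrix (Fin 2) (Fin 2) F) + Nm) := by
        noncomm_ring
      rw [key, hNNN, hN2, Matrix.zero_mul, add_zero, add_zero]
    have hne1 : pr s₀ ≠ 1 := by
      intro h1'
      rw [← map_one pr] at h1'
      obtain ⟨c, hc, hc1⟩ := (pr_eq_iff s₀ 1).mp h1'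
      rw [Matrix.SpecialLinearGroup.coe_one, hs₀] at hc1
      have h5 : Nm = c • Nm := by
        have h6 := congrArg (fun Z : Matrix (Fin 2) (Fin 2) F => Z * Nm) hc1
        simp only [Matrix.one_mul, Matrix.smul_mul, Matrix.add_mul, hN2, add_zero] at h6
        exact h6
      have hc1' : c = 1 := by
        have h6 : (1 - c) • Nm = 0 := by rw [sub_smul, one_smul, ← h5, sub_self]
        rcases smul_eq_zero.mp h6 with h | h
        · linear_combination -h
        · exact absurd h hNne
      rw [hc1', one_smul] at hc1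
      exact hNne (by simpa using hc1.symm)
    have hpow' : (pr s₀) ^ 3 = 1 := by rw [← map_pow, hpow, map_one]
    exact orderOf_eq_prime hpow' hne1
  · rw [dAut_pr, ← map_inv]
    congr 1
    apply eq_inv_of_mul_eq_one_right
    apply Subtype.ext
    show (s₀ : Matrix (Fin 2) (Fin 2) F) * (conjFun g s₀ : Matrix (Fin 2) (Fin 2) F) = 1
    rw [conjFun_coe, hs₀]
    have h7 : (g : Matrix (Fin 2) (Fin 2) F) * (1 + Nm) = (1 - Nm) * (g : Matrix (Fin 2) (Fin 2) F) := by
      rw [Matrix.mul_add, Matrix.mul_one, hgN, Matrix.sub_mul, Matrix.one_mul, hNg, sub_neg_eq_add]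
    rw [h7, Matrix.mul_assoc (1 - Nm), Units.mul_inv, Matrix.mul_one, Matrix.add_mul,
      Matrix.one_mul, Matrix.mul_sub, Matrix.mul_one, hN2]
    abel

end Cfsg.Agent.Helper33
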