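import Mathlib
import Cfsg.Agent.Helper37.S2788O
import Cfsg.Agent.Helper37.S2788XC
import Cfsg.Agent.Helper58.PGroupFix
import Cfsg.Agent.Helper87.SFDefs

/-!
# Helper33: PIECE MSTEP of CALL S2752 (helper87).
-/

set_option autoImplicit false

namespace Cfsg.Agent.Helper33

open Cfsg.Agent.Helper87.SF

/-- The fixed points of the subgroup `B`. -/
def sfFixW {Γ M : Type*} [Group Γ] [AddCommGroup M] [DistribMulAction Γ M] (B : Subgroup Γ) :
    AddSubgroup M where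
  carrier := {m | ∀ b ∈ B, b • m = m}
  add_mem' := by
    intro u v hu hv b hb
    rw [smul_add, hu b hb, hv b hb]
  zero_mem' := fun b _ => smul_zero b
  neg_mem' := by
    intro u hu b hb
    rw [smul_neg, hu b hb]

/-- The fixed points of `B` and `s`. -/
def sfFixWs {Γ M : Type*} [Group Γ] [AddCommGroup M] [DistribMulAction Γ M] (B : Subgroup Γ)
    (s : Γ) : AddSubgroup M where
  carrier := {m | (∀ b ∈ B, b • m = m) ∧ s • m = m}
  add_mem' := by
    rintro u v ⟨hu1, hu2⟩ ⟨hv1, hv2⟩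
    exact ⟨fun b hb => by rw [smul_add, hu1 b hb, hv1 b hb], by rw [smul_add, hu2, hv2]⟩
  zero_mem' := ⟨fun b _ => smul_zero b, smul_zero s⟩
  neg_mem' := by
    rintro u ⟨hu1, hu2⟩
    exact ⟨fun b hb => by rw [smul_neg, hu1 b hb], by rw [smul_neg, hu2]⟩

/-- The index inequality inside a subgroup `W`. -/
theorem sf_rel_index_le {M : Type*} [AddCommGroup M] [Finite M] (W A₁ A₂ : AddSubgroup M)
    (h1 : A₁ ≤ W) (h2 : A₂ ≤ W) :
    Nat.card A₁ * Nat.card A₂ ≤ Nat.card W * Nat.card (A₁ ⊓ A₂ : AddSubgroup M) := by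
  have h := Cfsg.Agent.Helper37.s2788_index (A₁.addSubgroupOf W) (A₂.addSubgroupOf W)
  have e1 : Nat.card (A₁.addSubgroupOf W) = Nat.card A₁ :=
    Nat.card_congr (AddSubgroup.addSubgroupOfEquivOfLe h1).toEquiv
  have e2 : Nat.card (A₂.addSubgroupOf W) = Nat.card A₂ :=
    Nat.card_congr (AddSubgroup.addSubgroupOfEquivOfLe h2).toEquiv
  have e3 : (A₁.addSubgroupOf W ⊓ A₂.addSubgroupOf W) = (A₁ ⊓ A₂).addSubgroupOf W := by
    ext x
    simp [AddSubgroup.mem_addSubgroupOf]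
  have e4 : Nat.card ((A₁ ⊓ A₂).addSubgroupOf W) = Nat.card (A₁ ⊓ A₂ : AddSubgroup M) :=
    Nat.card_congr (AddSubgroup.addSubgroupOfEquivOfLe (inf_le_left.trans h1)).toEquiv
  rw [e1, e2, e3, e4] at h
  exact h

/-- (`A × B`-lemma, elementary form) an element `y` of odd order commuting with the `2`-group `B`
and acting non-trivially on the elementary abelian `2`-group `M` moves a fixed point of `B`. -/
theorem sf_exists_moved_fixed {Γ M : Type*} [Group Γ] [AddCommGroup M] [Finite M]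
    [DistribMulAction Γ M] (h2 : ∀ m : M, 2 • m = 0) (B : Subgroup Γ) (hB : IsPGroup 2 B)
    (y : Γ) (hyB : ∀ b ∈ B, y * b = b * y) (r : ℕ) (hrodd : Odd r) (hyr : y ^ r = 1)
    (hnt : ∃ m : M, y • m ≠ m) :
    ∃ w : M, (∀ b ∈ B, b • w = w) ∧ y • w ≠ w := by
  classical
  haveI : Fact (Nat.Prime 2) := ⟨Nat.prime_two⟩
  obtain ⟨D, hDmem⟩ : ∃ D : AddSubgroup M, ∀ d, d ∈ D ↔ ∃ m, y • m - m = d :=
    ⟨(DistribMulAction.toAddMonoidHom M y - AddMonoidHom.id M).range, fun d => Iff.rfl⟩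
  have hDinv : ∀ b ∈ B, ∀ d ∈ D, b • d ∈ D := by
    intro b hb d hd
    obtain ⟨m, rfl⟩ := (hDmem d).mp hd
    refine (hDmem _).mpr ⟨b • m, ?_⟩
    rw [smul_sub, ← mul_smul, ← mul_smul, hyB b hb]
  letI inst : MulAction ↥B ↥D :=
    { smul := fun b d => ⟨(b : Γ) • (d : M), hDinv b b.2 d d.2⟩
      one_smul := fun d => Subtype.ext (one_smul Γ (d : M))
      mul_smul := fun b c d => Subtype.ext (mul_smul (b : Γ) (c : Γ) (d : M)) }
  obtain ⟨m0, hm0⟩ := hnt
  have hd0 : (⟨y • m0 - m0, (hDmem _).mpr ⟨m0, rfl⟩⟩ : ↥D) ≠ 0 := by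
    intro h
    have := congrArg Subtype.val h
    exact hm0 (sub_eq_zero.mp this)
  have h2D : 2 ∣ Nat.card ↥D := by
    have h3 : addOrderOf (⟨y • m0 - m0, (hDmem _).mpr ⟨m0, rfl⟩⟩ : ↥D) = 2 :=
      addOrderOf_eq_prime (Subtype.ext (h2 _)) hd0
    rw [← h3]
    exact addOrderOf_dvd_natCard _
  obtain ⟨d, hdne, hdfix⟩ := Cfsg.Agent.Helper58.exists_fixed_ne_zero_of_pgroup 2 hB (M := ↥D)
    (fun b => Subtype.ext (smul_zero (b : Γ))) h2D
  refine ⟨(d : M), fun b hb => ?_, ?_⟩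
  · exact congrArg Subtype.val (hdfix ⟨b, hb⟩)
  · intro hfix
    obtain ⟨m, hm⟩ := (hDmem _).mp d.2
    have hyn : ∀ n : ℕ, y ^ n • (d : M) = d := by
      intro n
      induction n with
      | zero => simp
      | succ k ihk => rw [pow_succ, mul_smul, hfix, ihk]
    have hym : y • m = (d : M) + m := by
      rw [← hm]
      abel
    have htel : ∀ n : ℕ, n • (d : M) = y ^ n • m - m := by
      intro n
      induction n with
      | zero => simp
      | succ n ih =>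
        rw [succ_nsmul, ih, pow_succ, mul_smul, hym, smul_add, hyn]
        abel
    have hrd : r • (d : M) = 0 := by rw [htel, hyr, one_smul, sub_self]
    obtain ⟨k, hk⟩ := hrodd
    have hd : (d : M) = 0 := by
      rw [hk, add_smul, mul_nsmul', one_smul, h2, zero_add] at hrd
      exact hrd
    exact hdne (Subtype.ext hd)

/-- MSTEP -/
theorem sf_mstep {Γ M : Type*} [Group Γ] [AddCommGroup M] [Finite M] [DistribMulAction Γ M]
    (h2 : ∀ m : M, 2 • m = 0) (B : Subgroup Γ) [Finite B] (hB : IsPGroup 2 B) (a g : Γ)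
    (haB : ∀ b ∈ B, a * b = b * a) (hgB : ∀ b ∈ B, g * b = b * g)
    (r N : ℕ) (hr : r.Prime) (hr2 : r ≠ 2) (hy : orderOf (a * g⁻¹ * a * g) = r)
    (hnt : ∃ m : M, (a * g⁻¹ * a * g) • m ≠ m)
    (hprim : ∀ k : ℕ, 0 < k → k < N → ¬ r ∣ 2 ^ k - 1) :
    2 ^ N * Nat.card {m : M // (∀ b ∈ B, b • m = m) ∧ a • m = m} ^ 2 ≤
      Nat.card {m : M // ∀ b ∈ B, b • m = m} ^ 2 := by
  classical
  haveI : Fact (Nat.Prime 2) := ⟨Nat.prime_two⟩
  obtain ⟨y, hydef⟩ : ∃ y : Γ, y = a * g⁻¹ * a * g := ⟨_, rfl⟩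
  rw [← hydef] at hy hnt
  have hyB : ∀ b ∈ B, y * b = b * y := by
    intro b hb
    have ha : Commute a b := haB b hb
    have hg : Commute g b := hgB b hb
    have h3 := ((ha.mul_left hg.inv_left).mul_left ha).mul_left hg
    rw [hydef]
    exact h3.eq
  have hWy : ∀ m ∈ (sfFixW B : AddSubgroup M), y • m ∈ (sfFixW B : AddSubgroup M) := by
    intro m hm b hb
    rw [← mul_smul, ← hyB b hb, mul_smul, hm b hb]
  have hyr1 : y ^ r = 1 := by
    rw [← hy]
    exact pow_orderOf_eq_one y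
  have hyr : y ^ r ^ 1 = 1 := by rw [pow_one, hyr1]
  obtain ⟨j, hjcard, hjdvd⟩ := Cfsg.Agent.Helper37.s2788_orbit 2 h2 (sfFixW B : AddSubgroup M) y
    hWy r 1 hr hr2 one_pos hyr
  simp only [Nat.sub_self, pow_zero, pow_one] at hjcard hjdvd
  have hU : Nat.card {m : M // m ∈ (sfFixW B : AddSubgroup M) ∧ y • m = m}
      = Nat.card (sfFixWs B y : AddSubgroup M) := rfl
  rw [hU] at hjcard
  obtain ⟨w, hwW, hwy⟩ := sf_exists_moved_fixed h2 B hB y hyB r (hr.odd_of_ne_two hr2) hyr1 hnt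
  have hj0 : j ≠ 0 := by
    rintro rfl
    rw [pow_zero, one_mul] at hjcard
    have hinj : Function.Injective
        (fun x : (sfFixWs B y : AddSubgroup M) => (⟨(x : M), x.2.1⟩ : (sfFixW B : AddSubgroup M))) := by
      intro u v huv
      have h5 : (u : M) = (v : M) :=
        congrArg (fun z : (sfFixW B : AddSubgroup M) => (z : M)) huv
      exact Subtype.ext h5
    have hbij := hinj.bijective_of_nat_card_le (le_of_eq hjcard)
    obtain ⟨x, hx⟩ := hbij.2 ⟨w, hwW⟩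
    have hx' : (x : M) = w := congrArg Subtype.val hx
    exact hwy (hx' ▸ x.2.2)
  have hjN : N ≤ j := by
    by_contra hlt
    exact hprim j (Nat.pos_of_ne_zero hj0) (by omega) hjdvd
  have hginv : ∀ b ∈ B, g⁻¹ * b = b * g⁻¹ := by
    intro b hb
    have hg : Commute g b := hgB b hb
    exact hg.inv_left.eq
  have hconj : Nat.card (sfFixWs B (g⁻¹ * a * g) : AddSubgroup M)
      = Nat.card (sfFixWs B a : AddSubgroup M) := by
    apply Nat.card_congr
    refine ⟨fun x => ⟨g • (x : M), ?_, ?_⟩, fun x => ⟨g⁻¹ • (x : M), ?_, ?_⟩, ?_, ?_⟩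
    · intro b hb
      rw [← mul_smul, ← hgB b hb, mul_smul, x.2.1 b hb]
    · have hx : (g⁻¹ * a * g) • (x : M) = x := x.2.2
      have h3 : a • g • (x : M) = g • ((g⁻¹ * a * g) • (x : M)) := by
        simp only [← mul_smul]
        congr 1
        group
      rw [h3, hx]
    · intro b hb
      rw [← mul_smul, ← hginv b hb, mul_smul, x.2.1 b hb]
    · have hx : a • (x : M) = x := x.2.2
      have h3 : (g⁻¹ * a * g) • g⁻¹ • (x : M) = g⁻¹ • (a • (x : M)) := by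
        simp only [← mul_smul]
        congr 1
        group
      rw [h3, hx]
    · intro x
      apply Subtype.ext
      exact inv_smul_smul g (x : M)
    · intro x
      apply Subtype.ext
      exact smul_inv_smul g (x : M)
  have hle : (sfFixWs B a ⊓ sfFixWs B (g⁻¹ * a * g) : AddSubgroup M) ≤ sfFixWs B y := by
    intro m hm
    obtain ⟨h1, h3⟩ := AddSubgroup.mem_inf.1 hm
    refine ⟨h1.1, ?_⟩
    have h4 : y = a * (g⁻¹ * a * g) := by
      rw [hydef]
      group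
    rw [h4, mul_smul, h3.2, h1.2]
  have hinf := AddSubgroup.card_le_of_le hle
  have hi := sf_rel_index_le (sfFixW B : AddSubgroup M) (sfFixWs B a) (sfFixWs B (g⁻¹ * a * g))
    (fun m hm => hm.1) (fun m hm => hm.1)
  have hBeq : Nat.card {m : M // (∀ b ∈ B, b • m = m) ∧ a • m = m}
      = Nat.card (sfFixWs B a : AddSubgroup M) := rfl
  have hWeq : Nat.card {m : M // ∀ b ∈ B, b • m = m} = Nat.card (sfFixW B : AddSubgroup M) := rfl
  rw [hBeq, hWeq]
  rw [hconj] at hi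
  obtain ⟨b, hb⟩ : ∃ b : ℕ, b = Nat.card (sfFixWs B a : AddSubgroup M) := ⟨_, rfl⟩
  obtain ⟨f, hf⟩ : ∃ f : ℕ, f = Nat.card (sfFixWs B y : AddSubgroup M) := ⟨_, rfl⟩
  obtain ⟨μ, hμ⟩ : ∃ μ : ℕ, μ = Nat.card (sfFixW B : AddSubgroup M) := ⟨_, rfl⟩
  obtain ⟨i₁, hi₁⟩ : ∃ i : ℕ,
      i = Nat.card (sfFixWs B a ⊓ sfFixWs B (g⁻¹ * a * g) : AddSubgroup M) := ⟨_, rfl⟩
  rw [← hb, ← hμ, ← hi₁] at hi
  rw [← hi₁, ← hf] at hinf
  rw [← hf, ← hμ] at hjcard
  rw [← hb, ← hμ]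
  have h1 : b ^ 2 ≤ μ * f := by
    calc b ^ 2 = b * b := by ring
      _ ≤ μ * i₁ := hi
      _ ≤ μ * f := Nat.mul_le_mul_left _ hinf
  calc 2 ^ N * b ^ 2 ≤ 2 ^ j * (μ * f) :=
        Nat.mul_le_mul (Nat.pow_le_pow_right (by norm_num) hjN) h1
    _ = μ * (2 ^ j * f) := by ring
    _ = μ ^ 2 := by rw [← hjcard]; ring

end Cfsg.Agent.Helper33
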