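import Mathlib
import Cfsg.Agent.Helper71.SODefs
import Cfsg.Agent.Helper96.T5Defs

/-!
# Helper33: PIECE V3 of CALL S5843 (helper71): the centres of transvections are everything.
-/

set_option autoImplicit false
set_option linter.unusedVariables false
set_option linter.unusedSimpArgs false

namespace Cfsg.Agent.Helper33.SOV3

open Matrix Cfsg.Agent.Helper71.T4 Cfsg.Agent.Helper71.SO
open scoped Kronecker

variable {F : Type*} [Field F] {n : ℕ}

open Cfsg.Agent.Helper96.T5 in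
/-- PIECE V3 -/
theorem centres_all (h2 : (2 : F) ≠ 0) (hn : 3 ≤ n) (S : Matrix (Fin n) (Fin n) F)
    (hS : Sᵀ = S) (hdet : S.det ≠ 0) (s₀ : Fin n → F) (hs₀ : s₀ ≠ 0) (hs₀s₀ : bl S s₀ s₀ = 0)
    (C : Set (Fin 2 × Fin n → F))
    (h1 : ∀ (a : Fin 2 → F) (s : Fin n → F), bl S s s = 0 → pt a s ∈ C)
    (h3 : ∀ v v' : Fin 2 × Fin n → F, v ∈ C → v' ∈ C → v ⬝ᵥ Om S *ᵥ v' ≠ 0 → v + v' ∈ C) :
    ∀ v : Fin 2 × Fin n → F, v ∈ C := by
  have h1' : ∀ (a : Fin 2 → F) (s : Fin n → F), bf S s s = 0 → pt a s ∈ C := h1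
  have h3' : ∀ v v' : Fin 2 × Fin n → F, v ∈ C → v' ∈ C → bf (J2 F ⊗ₖ S) v v' ≠ 0 →
      v + v' ∈ C := h3
  have h00 : bf S s₀ s₀ = 0 := hs₀s₀
  have hsym : ∀ x y : Fin n → F, bf S y x = bf S x y := by
    intro x y
    simp only [bf]
    rw [Matrix.dotProduct_mulVec, ← Matrix.mulVec_transpose, hS, dotProduct_comm]
  have h2' : (2 : F)⁻¹ * 2 = 1 := inv_mul_cancel₀ h2
  -- the partner of `s₀`
  obtain ⟨y₀, hy₀⟩ := exists_bf_eq_one S hdet s₀ hs₀
  obtain ⟨s₁, hs₁⟩ : ∃ s₁ : Fin n → F, s₁ = y₀ - (2⁻¹ * bf S y₀ y₀) • s₀ := ⟨_, rfl⟩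
  have h01 : bf S s₀ s₁ = 1 := by
    rw [hs₁, bf_sub_right, bf_smul_right, hy₀, h00]; ring
  have h10 : bf S s₁ s₀ = 1 := by rw [hsym s₀ s₁, h01]
  have h11 : bf S s₁ s₁ = 0 := by
    rw [hs₁]
    simp only [bf_sub_left, bf_sub_right, bf_smul_left, bf_smul_right, hy₀, hsym s₀ y₀, h00]
    linear_combination (-(bf S y₀ y₀)) * h2'
  -- every non-zero vector is non-orthogonal to some singular vector
  have N1 : ∀ x : Fin n → F, x ≠ 0 → ∃ s : Fin n → F, bf S s s = 0 ∧ bf S x s ≠ 0 := by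
    intro x hx
    by_contra hno
    push Not at hno
    have hx0 : bf S x s₀ = 0 := hno s₀ h00
    have hx1 : bf S x s₁ = 0 := hno s₁ h11
    obtain ⟨z, hz⟩ := exists_bf_eq_one S hdet x hx
    obtain ⟨w, hw⟩ : ∃ w : Fin n → F, w = z - bf S z s₁ • s₀ - bf S z s₀ • s₁ := ⟨_, rfl⟩
    have hw0 : bf S w s₀ = 0 := by
      rw [hw]
      simp only [bf_sub_left, bf_smul_left, h00, h10]
      ring
    have hw1 : bf S w s₁ = 0 := by
      rw [hw]
      simp only [bf_sub_left, bf_smul_left, h01, h11]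
      ring
    have ht : bf S (s₁ + w - (2⁻¹ * bf S w w) • s₀) (s₁ + w - (2⁻¹ * bf S w w) • s₀) = 0 := by
      simp only [bf_sub_left, bf_sub_right, bf_add_left, bf_add_right, bf_smul_left,
        bf_smul_right, h11, hw0, hw1, hsym w s₁, hsym w s₀, h10, h01, h00]
      linear_combination (-(bf S w w)) * h2'
    have hxt := hno _ ht
    rw [bf_sub_right, bf_add_right, bf_smul_right, hx0, hx1] at hxt
    have hxw : bf S x w = 0 := by linear_combination hxt
    rw [hw, bf_sub_right, bf_sub_right, bf_smul_right, bf_smul_right, hx0, hx1, hz] at hxw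
    have h10' : (1 : F) = 0 := by linear_combination hxw
    exact one_ne_zero h10'
  have J2aa : ∀ a : Fin 2 → F, bf (J2 F) a a = 0 := by
    intro a
    simp only [bf, J2, dotProduct, Matrix.mulVec, Fin.sum_univ_two, Matrix.of_apply,
      Matrix.cons_val_zero, Matrix.cons_val_one, Matrix.cons_val', Matrix.empty_val',
      Matrix.cons_val_fin_one]
    ring
  have hpure : ∀ a a' : Fin 2 → F, bf (J2 F) a a' ≠ 0 → ∀ x : Fin n → F, pt a x ∈ C := by
    intro a a' haa x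
    by_cases hx : x = 0
    · subst hx
      exact h1' a 0 (bf_zero_left S 0)
    obtain ⟨s, hss, hxs⟩ := N1 x hx
    obtain ⟨γ, hγ⟩ : ∃ γ : F, γ = bf S x x * (2 * bf S x s)⁻¹ := ⟨_, rfl⟩
    obtain ⟨t, ht⟩ : ∃ t : Fin n → F, t = x - γ • s := ⟨_, rfl⟩
    have hγ' : γ * (2 * bf S x s) = bf S x x := by
      rw [hγ, mul_assoc, inv_mul_cancel₀ (mul_ne_zero h2 hxs), mul_one]
    have htt : bf S t t = 0 := by
      rw [ht]
      simp only [bf_sub_left, bf_sub_right, bf_smul_left, bf_smul_right, hss, hsym x s]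
      linear_combination (-1 : F) * hγ'
    have hts : bf S t s = bf S x s := by
      rw [ht, bf_sub_left, bf_smul_left, hss]; ring
    have hu1 : pt a t ∈ C := h1' a t htt
    have hu2 : pt a' s ∈ C := h1' a' s hss
    have hu12 : pt a t + pt a' s ∈ C := by
      refine h3' _ _ hu1 hu2 ?_
      rw [bf_kron_pt, hts]
      exact mul_ne_zero haa hxs
    have hu3 : pt (γ • a - a') s ∈ C := h1' _ s hss
    have hfin : pt a t + pt a' s + pt (γ • a - a') s ∈ C := by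
      refine h3' _ _ hu12 hu3 ?_
      rw [bf_add_left, bf_kron_pt, bf_kron_pt, hss, hts, mul_zero, add_zero, bf_sub_right,
        bf_smul_right, J2aa, mul_zero, zero_sub]
      exact mul_ne_zero (neg_ne_zero.mpr haa) hxs
    have heq : pt a t + pt a' s + pt (γ • a - a') s = pt a x := by
      rw [ht]
      ext ⟨i, k⟩
      simp only [pt, Pi.add_apply, Pi.sub_apply, Pi.smul_apply, smul_eq_mul]
      ring
    rw [← heq]
    exact hfin
  intro v
  obtain ⟨e₀, he₀⟩ : ∃ e₀ : Fin 2 → F, e₀ = ![1, 0] := ⟨_, rfl⟩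
  obtain ⟨e₁, he₁⟩ : ∃ e₁ : Fin 2 → F, e₁ = ![0, 1] := ⟨_, rfl⟩
  have g01 : bf (J2 F) e₀ e₁ = 1 := by
    rw [he₀, he₁]
    simp [bf, J2, dotProduct, Matrix.mulVec, Fin.sum_univ_two]
  have g10 : bf (J2 F) e₁ e₀ = -1 := by
    rw [he₀, he₁]
    simp [bf, J2, dotProduct, Matrix.mulVec, Fin.sum_univ_two]
  have g11 : bf (J2 F) e₁ e₁ = 0 := J2aa e₁
  obtain ⟨x, hxdef⟩ : ∃ x : Fin n → F, x = fun l => v (0, l) := ⟨_, rfl⟩
  obtain ⟨y, hydef⟩ : ∃ y : Fin n → F, y = fun l => v (1, l) := ⟨_, rfl⟩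
  have hv : v = pt e₀ x + pt e₁ y := by
    ext ⟨i, k⟩
    fin_cases i <;> simp [pt, he₀, he₁, hxdef, hydef]
  have hpx : ∀ x : Fin n → F, pt e₀ x ∈ C :=
    hpure e₀ e₁ (by rw [g01]; exact one_ne_zero)
  have hpy : ∀ y : Fin n → F, pt e₁ y ∈ C :=
    hpure e₁ e₀ (by rw [g10]; exact neg_ne_zero.mpr one_ne_zero)
  have hgen : ∀ x y : Fin n → F, bf S x y ≠ 0 → pt e₀ x + pt e₁ y ∈ C := by
    intro x y hxy
    refine h3' _ _ (hpx x) (hpy y) ?_
    rw [bf_kron_pt, g01, one_mul]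
    exact hxy
  rw [hv]
  by_cases hxy : bf S x y = 0
  · by_cases hx0 : x = 0
    · rw [hx0, pt_zero_right, zero_add]
      exact hpy y
    · obtain ⟨s, hss, hxs⟩ := N1 x hx0
      have h4 : pt e₀ x + pt e₁ (y - s) ∈ C := by
        apply hgen
        rw [bf_sub_right, hxy, zero_sub]
        exact neg_ne_zero.mpr hxs
      have h5 : pt e₀ x + pt e₁ (y - s) + pt e₁ s ∈ C := by
        refine h3' _ _ h4 (h1' e₁ s hss) ?_
        rw [bf_add_left, bf_kron_pt, bf_kron_pt, g01, g11, zero_mul, add_zero, one_mul]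
        exact hxs
      have h6 : pt e₀ x + pt e₁ (y - s) + pt e₁ s = pt e₀ x + pt e₁ y := by
        rw [add_assoc, ← pt_add_right, sub_add_cancel]
      rw [← h6]
      exact h5
  · exact hgen x y hxy

end Cfsg.Agent.Helper33.SOV3
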