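-- helper33 library: piece E5c of the S5778 call: in SU_3(5) the subfield group in standard position
-- (scalars times SO_3(5)) is not maximal, being properly contained in the stabiliser 3.A_7 of
-- helper64's 105 points.
import Cfsg.Agent.Helper33.SU3E5cData
import Cfsg.Agent.Helper97.OSubfield
import Cfsg.Agent.Helper97.SFBasic

set_option autoImplicit false
open Cfsg Cfsg.Geo Matrix
open Cfsg.Agent.Helper97

namespace Cfsg.Agent.Helper33

open Cfsg.Agent.Helper64.SU3 Cfsg.Agent.Helper33.SO3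

variable {F : Type*} [Field F]

/-- Every element of the list `so3L`, transferred to `F`, stabilises the 105 points. -/
theorem so3_mem_stab (ψ : K25 →+* F) : ∀ k < 120, ∀ g : GL (Fin 3) F,
    (g : Matrix (Fin 3) (Fin 3) F) = (so3L.getD k 1).map ψ →
    g ∈ su3Stab (su3Pts ψ D25.sig 105) := by
  intro k
  induction k using Nat.strong_induction_on with
  | _ k ih =>
    intro hk g hg
    rcases so3_tree k hk with rfl | ⟨hp, hL⟩
    · rw [so3_zero, su3_map_one] at hg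
      have h1 : g = 1 := Units.ext hg
      rw [h1]
      exact Subgroup.one_mem _
    · obtain ⟨γ, hγL, hγ⟩ : ∃ γ : GL (Fin 3) F, γ ∈ su3Stab (su3Pts ψ D25.sig 105) ∧
          (γ : Matrix (Fin 3) (Fin 3) F) = (so3Gen (so3Lab.getD k true)).map ψ := by
        generalize so3Lab.getD k true = bb
        cases bb with
        | true =>
          exact ⟨su3GL ψ D25.a4 D25.a4_i D25.a4_inv,
            su3GL_mem_stab ψ _ _ _ D25.sig 105 D25.a4_p D25.a4_c D25.a4_sig 4 (by norm_num)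
              D25.a4_pow, rfl⟩
        | false =>
          exact ⟨su3GL ψ D25.b5 D25.b5_i D25.b5_inv,
            su3GL_mem_stab ψ _ _ _ D25.sig 105 D25.b5_p D25.b5_c D25.b5_sig 5 (by norm_num)
              D25.b5_pow, rfl⟩
      have h1 : ((γ⁻¹ * g : GL (Fin 3) F) : Matrix (Fin 3) (Fin 3) F)
          = (so3L.getD (so3Par.getD k 0) 1).map ψ := by
        rw [Units.val_mul, hg, hL, su3_map_mul, ← hγ, ← Matrix.mul_assoc, ← Units.val_mul,
          inv_mul_cancel, Units.val_one, Matrix.one_mul]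
      have h2 := ih _ hp (hp.trans hk) _ h1
      have h3 := Subgroup.mul_mem _ hγL h2
      rwa [mul_inv_cancel_left] at h3

/-- The elements of a subfield of order 5 of a field of order 25 are fixed by the fifth power. -/
theorem sub5_pow [Fintype F] (hF : Fintype.card F = 5 ^ 2) (F₀ : Subfield F)
    (hcard : Fintype.card F = Nat.card F₀ ^ 2) (x : F) (hx : x ∈ F₀) : x ^ 5 = x := by
  classical
  have h5 : Nat.card F₀ = 5 := by
    rw [hF] at hcard
    exact (Nat.pow_left_injective (by norm_num : 2 ≠ 0) hcard).symm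
  have : Fintype F₀ := Fintype.ofFinite F₀
  have h := FiniteField.pow_card (⟨x, hx⟩ : F₀)
  rw [← Nat.card_eq_fintype_card, h5] at h
  have h2 := congrArg (fun y : F₀ => (y : F)) h
  simpa using h2

theorem k25_fixed : ∀ y : K25, y ^ 5 = y → y.im = 0 := by decide

theorem d1_not_fixed : (D25.d1 0 0) ^ 5 ≠ D25.d1 0 0 := by decide

theorem d1_entry : D25.d1 2 2 = 1 := by decide

/-- Membership in a subfield subgroup, in terms of the standard position. -/
theorem mem_subfieldSubgroup_conj (F₀ : Subfield F) (P x : GL (Fin 3) F) :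
    x ∈ subfieldSubgroup F₀ P ↔ P⁻¹ * x * P ∈ subfieldSubgroup F₀ (1 : GL (Fin 3) F) := by
  have h2 : subfieldSubgroup F₀ (1 : GL (Fin 3) F)
      = (Matrix.GeneralLinearGroup.map (F₀.subtype : F₀ →+* F)).range ⊔ scalars (Fin 3) F := by
    rw [subfieldSubgroup, map_one]
    exact Subgroup.map_id _
  rw [h2, subfieldSubgroup, Subgroup.mem_map]
  constructor
  · rintro ⟨y, hy, rfl⟩
    have e : P⁻¹ * ((MulAut.conj P).toMonoidHom y) * P = y := by
      simp [MulAut.conj_apply, mul_assoc]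
    rw [e]
    exact hy
  · intro h
    exact ⟨_, h, by simp [MulAut.conj_apply, mul_assoc]⟩

/-- The core of piece E5c: a special unitary matrix that is a scalar multiple of a matrix over the
subfield of order 5 stabilises the 105 points. -/
theorem su3_five_sub_le_stab [Fintype F] (hF : Fintype.card F = 5 ^ 2) {σ : F ≃+* F}
    (hσ : IsSigma 5 σ) (ψe : K25 ≃+* F) (F₀ : Subfield F)
    (hcard : Fintype.card F = Nat.card F₀ ^ 2)
    (y : GL (Fin 3) F) (hyU : y ∈ GU 3 F 5) (hyS : y ∈ specialLinear (Fin 3) F)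
    (c : F) (hc : c ≠ 0) (hrat : ∀ i j, c * (y : Matrix (Fin 3) (Fin 3) F) i j ∈ F₀) :
    y ∈ su3Stab (su3Pts ψe.toRingHom D25.sig 105) := by
  classical
  have hU := hσ.GU_matrix y hyU
  have hdet : (y : Matrix (Fin 3) (Fin 3) F).det = 1 := by
    have h1 := hyS
    rw [specialLinear, MonoidHom.mem_ker] at h1
    have h2 := congrArg Units.val h1
    rwa [Matrix.GeneralLinearGroup.val_det_apply, Units.val_one] at h2
  have hX5 : ∀ i j, (c * (y : Matrix (Fin 3) (Fin 3) F) i j) ^ 5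
      = c * (y : Matrix (Fin 3) (Fin 3) F) i j :=
    fun i j => sub5_pow hF F₀ hcard _ (hrat i j)
  have hXσ : (c • (y : Matrix (Fin 3) (Fin 3) F)).map σ = c • (y : Matrix (Fin 3) (Fin 3) F) := by
    ext i j
    rw [Matrix.map_apply, Matrix.smul_apply, smul_eq_mul, hσ.pow]
    exact hX5 i j
  have hdetX : (c • (y : Matrix (Fin 3) (Fin 3) F)).det = c ^ 3 := by
    rw [Matrix.det_smul, hdet, mul_one, Fintype.card_fin]
  have h15 : (c ^ 3) ^ 5 = c ^ 3 := by
    have h1 : σ ((c • (y : Matrix (Fin 3) (Fin 3) F)).det)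
        = ((c • (y : Matrix (Fin 3) (Fin 3) F)).map σ).det :=
      RingHom.map_det (σ : F →+* F) _
    rw [hXσ, hdetX, hσ.pow] at h1
    exact h1
  have hc12 : c ^ 12 = 1 := by
    have h1 : c ^ 3 * c ^ 12 = c ^ 3 * 1 := by
      rw [mul_one, ← pow_add]
      rw [← pow_mul] at h15
      exact h15
    exact mul_left_cancel₀ (pow_ne_zero 3 hc) h1
  obtain ⟨Y, hY⟩ : ∃ Y : Matrix (Fin 3) (Fin 3) F, Y = c ^ 4 • (y : Matrix (Fin 3) (Fin 3) F) :=
    ⟨_, rfl⟩
  have hYfix : ∀ i j, Y i j ^ 5 = Y i j := by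
    intro i j
    have e : Y i j = c ^ 3 * (c * (y : Matrix (Fin 3) (Fin 3) F) i j) := by
      rw [hY, Matrix.smul_apply, smul_eq_mul]
      ring
    rw [e, mul_pow, hX5, h15]
  have hYσ : Y.map σ = Y := by
    ext i j
    rw [Matrix.map_apply, hσ.pow]
    exact hYfix i j
  have hYY : Yᵀ * Y = 1 := by
    have h1 : Yᵀ * Y.map σ = 1 := by
      have e : Y.map σ = σ (c ^ 4) • (y : Matrix (Fin 3) (Fin 3) F).map σ := by
        rw [hY]
        ext i j
        simp [Matrix.map_apply]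
      have e2 : c ^ 4 * (c ^ 4) ^ 5 = 1 := by
        have e3 : c ^ 4 * (c ^ 4) ^ 5 = (c ^ 12) ^ 2 := by ring
        rw [e3, hc12, one_pow]
      rw [e, hY, Matrix.transpose_smul, Matrix.smul_mul, Matrix.mul_smul, hU, smul_smul, hσ.pow, e2,
        one_smul]
    rwa [hYσ] at h1
  have hYdet : Y.det = 1 := by
    rw [hY, Matrix.det_smul, hdet, mul_one, Fintype.card_fin, ← pow_mul]
    exact hc12
  -- pull back to the prime field
  obtain ⟨M, hM⟩ : ∃ M : Matrix (Fin 3) (Fin 3) (ZMod 5),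
      M = fun i j => (ψe.symm (Y i j)).re := ⟨_, rfl⟩
  have hYM : ∀ i j, Y i j = ψe (algebraMap (ZMod 5) K25 (M i j)) := by
    intro i j
    have h1 : (ψe.symm (Y i j)) ^ 5 = ψe.symm (Y i j) := by rw [← map_pow, hYfix]
    have h2 := k25_fixed _ h1
    have h3 : ψe.symm (Y i j) = algebraMap (ZMod 5) K25 (M i j) := by
      rw [hM]
      apply QuadraticAlgebra.ext
      · rfl
      · exact h2
    rw [← h3, RingEquiv.apply_symm_apply]
  obtain ⟨φ, hφ⟩ : ∃ φ : ZMod 5 →+* F, φ = ψe.toRingHom.comp (algebraMap (ZMod 5) K25) :=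
    ⟨_, rfl⟩
  have hYφ : Y = M.map φ := by
    ext i j
    rw [Matrix.map_apply, hYM i j, hφ]
    rfl
  have hMM : Mᵀ * M = 1 := by
    apply Matrix.map_injective φ.injective
    show (Mᵀ * M).map φ = (1 : Matrix (Fin 3) (Fin 3) (ZMod 5)).map φ
    rw [Matrix.map_mul, Matrix.transpose_map, ← hYφ, hYY, Matrix.map_one φ (map_zero φ) (map_one φ)]
  have hMdet : M.det = 1 := by
    apply φ.injective
    have h1 : φ M.det = (M.map φ).det := RingHom.map_det φ M
    rw [h1, map_one, ← hYφ, hYdet]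
  have hent : ∀ i j : Fin 3,
      M 0 i * M 0 j + M 1 i * M 1 j + M 2 i * M 2 j = if i = j then 1 else 0 := by
    intro i j
    have h1 := congrFun (congrFun hMM i) j
    rw [Matrix.mul_apply, Fin.sum_univ_three, Matrix.one_apply] at h1
    exact h1
  have hdet3 := hMdet
  rw [Matrix.det_fin_three] at hdet3
  obtain ⟨k, hk, hkL⟩ := so3_enum (M 0 0) (M 1 0) (M 2 0) ((hent 0 0).trans (if_pos rfl))
    (M 0 1) (M 1 1) (M 2 1) ((hent 0 1).trans (if_neg (by decide)))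
    ((hent 1 1).trans (if_pos rfl))
    (M 0 2) (M 1 2) (M 2 2) ((hent 0 2).trans (if_neg (by decide)))
    ((hent 1 2).trans (if_neg (by decide))) ((hent 2 2).trans (if_pos rfl)) hdet3
  have hmat : so3Mat (M 0 0) (M 1 0) (M 2 0) (M 0 1) (M 1 1) (M 2 1) (M 0 2) (M 1 2) (M 2 2)
      = M.map (algebraMap (ZMod 5) K25) := by
    apply Matrix.ext
    intro i j
    fin_cases i <;> fin_cases j <;> rfl
  have hc4 : c ^ 4 ≠ 0 := pow_ne_zero 4 hc
  obtain ⟨s, hs⟩ : ∃ s : GL (Fin 3) F, s = Gen.scalarGL (c ^ 4) hc4 := ⟨_, rfl⟩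
  have hsval : (s : Matrix (Fin 3) (Fin 3) F) = c ^ 4 • (1 : Matrix (Fin 3) (Fin 3) F) := by
    rw [hs, Gen.scalarGL_val]
  have hg : ((s * y : GL (Fin 3) F) : Matrix (Fin 3) (Fin 3) F)
      = (so3L.getD k 1).map ψe.toRingHom := by
    rw [Units.val_mul, hsval, Matrix.smul_mul, Matrix.one_mul, ← hY, hYφ, hkL, hmat, Matrix.map_map,
      hφ]
    rfl
  have h1 := so3_mem_stab ψe.toRingHom k hk (s * y) hg
  have h2 := su3_scalar_mem_stab ψe.toRingHom D25.sig 105 s (c ^ 4) hc4 hsval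
  have h3 := Subgroup.mul_mem _ (Subgroup.inv_mem _ h2) h1
  rwa [inv_mul_cancel_left] at h3

/-- **Piece E5c of the S5778 call.**  In `SU_3(5)` the subfield group in standard position is not
maximal. -/
theorem su3_five_subfield_std_false [Fintype F] (hF : Fintype.card F = 5 ^ 2)
    (H : Subgroup (GL (Fin 3) F)) (hH : IsMaximalIn (GU 3 F 5 ⊓ specialLinear (Fin 3) F) H)
    (F₀ : Subfield F) (hcard : Fintype.card F = Nat.card F₀ ^ 2) (P : GL (Fin 3) F)
    (hP : P ∈ GU 3 F 5)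
    (hHeq : H = subfieldSubgroup F₀ P ⊓ (GU 3 F 5 ⊓ specialLinear (Fin 3) F)) : False := by
  classical
  obtain ⟨σ, hσ⟩ := exists_sigma hF
  have hc : Fintype.card K25 = Fintype.card F := by rw [hF]; exact su3_card_K25
  obtain ⟨ψe, -⟩ : ∃ ψe : K25 ≃+* F, True := ⟨FiniteField.ringEquivOfCardEq hc, trivial⟩
  obtain ⟨ψ, hψdef⟩ : ∃ ψ : K25 →+* F, ψ = ψe.toRingHom := ⟨_, rfl⟩
  have hψ : Function.Surjective ψ := hψdef ▸ ψe.surjective
  obtain ⟨L, hL⟩ : ∃ L : Subgroup (GL (Fin 3) F), L = su3Stab (su3Pts ψ D25.sig 105) := ⟨_, rfl⟩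
  have hSUc : ∀ x ∈ GU 3 F 5 ⊓ specialLinear (Fin 3) F,
      P⁻¹ * x * P ∈ GU 3 F 5 ⊓ specialLinear (Fin 3) F := by
    intro x hx
    have h1 := su3_conj_mem_SU P⁻¹ ((GU 3 F 5).inv_mem hP) x hx
    rwa [inv_inv] at h1
  have hSUc' : ∀ x ∈ GU 3 F 5 ⊓ specialLinear (Fin 3) F,
      P * x * P⁻¹ ∈ GU 3 F 5 ⊓ specialLinear (Fin 3) F :=
    fun x hx => su3_conj_mem_SU P hP x hx
  have hcore : ∀ y : GL (Fin 3) F, y ∈ subfieldSubgroup F₀ (1 : GL (Fin 3) F) →
      y ∈ GU 3 F 5 ⊓ specialLinear (Fin 3) F → y ∈ L := by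
    intro y hy1 hy2
    obtain ⟨c, hc0, hrat⟩ := (SF.mem_subfieldSubgroup_one F₀ y).mp hy1
    rw [hL, hψdef]
    exact su3_five_sub_le_stab hF hσ ψe F₀ hcard y hy2.1 hy2.2 c hc0 (fun i j => hrat i j)
  obtain ⟨z, hz⟩ : ∃ z : GL (Fin 3) F, z = su3GL ψ D25.d1 D25.d1_i D25.d1_inv := ⟨_, rfl⟩
  obtain ⟨w, hw⟩ : ∃ w : GL (Fin 3) F, w = su3GL ψ D25.w2 D25.w2_i D25.w2_inv := ⟨_, rfl⟩
  have hzSU : z ∈ GU 3 F 5 ⊓ specialLinear (Fin 3) F :=
    hz ▸ ⟨su3GL_mem_GU ψ hσ _ _ _ D25.d1_unitary, su3GL_mem_SL ψ _ _ _ D25.d1_det⟩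
  have hwSU : w ∈ GU 3 F 5 ⊓ specialLinear (Fin 3) F :=
    hw ▸ ⟨su3GL_mem_GU ψ hσ _ _ _ D25.w2_unitary, su3GL_mem_SL ψ _ _ _ D25.w2_det⟩
  have hzL : z ∈ L := by
    rw [hz, hL]
    exact su3GL_mem_stab ψ _ _ _ D25.sig 105 D25.d1_p D25.d1_c D25.d1_sig 6 (by norm_num) D25.d1_pow
  have hwL : w ∉ L := by
    rw [hw, hL]
    exact su3GL_not_mem_stab ψ hψ _ _ D25.w2_inv D25.sig 105 0 (by norm_num) D25.w2_not
  have hz1 : z ∉ subfieldSubgroup F₀ (1 : GL (Fin 3) F) := by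
    intro hmem
    obtain ⟨c, hc0, hrat⟩ := (SF.mem_subfieldSubgroup_one F₀ z).mp hmem
    have h22 : c * ψ (D25.d1 2 2) ∈ F₀ := by
      have h := hrat 2 2
      rw [hz] at h
      exact h
    have h00 : c * ψ (D25.d1 0 0) ∈ F₀ := by
      have h := hrat 0 0
      rw [hz] at h
      exact h
    rw [d1_entry, map_one, mul_one] at h22
    have h3 : ψ (D25.d1 0 0) ∈ F₀ := by
      have h := F₀.mul_mem (F₀.inv_mem h22) h00
      rwa [inv_mul_cancel_left₀ hc0] at h
    have h4 := sub5_pow hF F₀ hcard _ h3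
    rw [← map_pow] at h4
    exact d1_not_fixed (ψ.injective h4)
  refine su3_not_max (GU 3 F 5 ⊓ specialLinear (Fin 3) F) H (L.map (MulAut.conj P).toMonoidHom) hH
    ?_ (P * z * P⁻¹) (hSUc' z hzSU) ?_ ?_ (P * w * P⁻¹) (hSUc' w hwSU) ?_
  · intro x hx
    rw [hHeq] at hx
    have h1 := (mem_subfieldSubgroup_conj F₀ P x).mp hx.1
    have h2 := hSUc x hx.2
    refine ⟨P⁻¹ * x * P, hcore _ h1 h2, ?_⟩
    simp [MulAut.conj_apply, mul_assoc]
  · exact ⟨z, hzL, by simp [MulAut.conj_apply]⟩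
  · intro hzH
    rw [hHeq] at hzH
    have h1 := (mem_subfieldSubgroup_conj F₀ P _).mp hzH.1
    have e : P⁻¹ * (P * z * P⁻¹) * P = z := by group
    rw [e] at h1
    exact hz1 h1
  · rintro ⟨v, hvL, hv⟩
    have e : v = w := by
      simp only [MulEquiv.coe_toMonoidHom, MulAut.conj_apply] at hv
      exact mul_left_cancel (mul_right_cancel hv)
    exact hwL (e ▸ hvL)

end Cfsg.Agent.Helper33
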