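-- helper33 library: piece G1 of the S5778 call (the special unitary group of degree 3 is not
-- contained in the stabiliser of a decomposition into three non-degenerate lines, for q at least 3).
import Cfsg.Agent.Helper97.UPrimeDim

set_option autoImplicit false
open Cfsg Cfsg.Geo Matrix
open Cfsg.Agent.Helper97

namespace Cfsg.Agent.Helper33

variable {F : Type*} [Field F]

/-- For `q` at least 3 there is a non-zero fixed element of the involution different from a given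
element. -/
theorem sigma_exists_fixed_ne [Fintype F] {q : ℕ} {σ : F ≃+* F} (h : IsSigma q σ)
    (hF : Fintype.card F = q ^ 2) (hq : 3 ≤ q) (b : F) :
    ∃ a : F, σ a = a ∧ a ≠ 0 ∧ a ≠ b := by
  obtain ⟨g, hg⟩ := IsCyclic.exists_monoid_generator (α := Fˣ)
  have hord : orderOf g = q ^ 2 - 1 := by
    rw [orderOf_eq_card_of_forall_mem_zpowers, Nat.card_units, Nat.card_eq_fintype_card, hF]
    intro x
    obtain ⟨m, hm⟩ := hg x
    exact ⟨(m : ℤ), by simpa using hm⟩
  have hfix : σ ((g : F) * σ (g : F)) = (g : F) * σ (g : F) := by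
    rw [map_mul, h.inv, mul_comm]
  have hne0 : (g : F) * σ (g : F) ≠ 0 :=
    mul_ne_zero g.ne_zero ((map_ne_zero σ).mpr g.ne_zero)
  have hne1 : (g : F) * σ (g : F) ≠ 1 := by
    intro h1
    rw [h.pow, ← pow_succ'] at h1
    have h2 : g ^ (q + 1) = 1 := by
      apply Units.ext
      rw [Units.val_pow_eq_pow_val, h1, Units.val_one]
    have h3 := orderOf_dvd_of_pow_eq_one h2
    rw [hord] at h3
    have h4 := Nat.le_of_dvd (by omega) h3
    have h5 : 3 * q ≤ q ^ 2 := by nlinarith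
    omega
  by_cases hb : b = 1
  · exact ⟨(g : F) * σ (g : F), hfix, hne0, by rw [hb]; exact hne1⟩
  · exact ⟨1, map_one σ, one_ne_zero, fun h1 => hb h1.symm⟩

/-- **Piece G1 of the S5778 call.**  For `q` at least 3 the special unitary group of degree 3 is not
contained in the stabiliser of a decomposition into three non-degenerate lines. -/
theorem su3_notSU_decomp [Fintype F] {q : ℕ} {σ : F ≃+* F} (h : IsSigma q σ)
    (hF : Fintype.card F = q ^ 2) (hq : 3 ≤ q) (D : Fin 3 → Submodule F (Fin 3 → F))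
    (hD : IsNondegenerateMDecomposition (hermForm 3 F q) 1 D) :
    ¬ GU 3 F q ⊓ specialLinear (Fin 3) F ≤ decompositionStabilizer D := by
  classical
  intro hle
  have hS := h.isSesq (n := 3)
  obtain ⟨c, hc0, hc⟩ := h.exists_trace_zero
  have hex : ∀ i, ∃ d : Fin 3 → F, d ∈ D i ∧ hermForm 3 F q d d ≠ 0 := by
    intro i
    have hfr := hD.decomp.finrank_eq i
    obtain ⟨d, hd0, hd⟩ := finrank_eq_one_iff'.mp hfr
    have hd0' : (d : Fin 3 → F) ≠ 0 := fun h0 => hd0 (Subtype.ext h0)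
    obtain ⟨⟨x, hx, hxd⟩, -⟩ := hD.nondegenerate i d d.2 hd0'
    obtain ⟨a, ha⟩ := hd ⟨x, hx⟩
    refine ⟨d, d.2, ?_⟩
    intro h0
    apply hxd
    have e : x = a • (d : Fin 3 → F) := (congrArg Subtype.val ha).symm
    rw [e, hS.smul_left, h0, mul_zero]
  choose d hdD hdd using hex
  obtain ⟨i0, hi0⟩ : ∃ i : Fin 3, i = 0 := ⟨_, rfl⟩
  obtain ⟨i1, hi1⟩ : ∃ i : Fin 3, i = 1 := ⟨_, rfl⟩
  obtain ⟨i2, hi2⟩ : ∃ i : Fin 3, i = 2 := ⟨_, rfl⟩
  have hort : ∀ i j, i ≠ j → hermForm 3 F q (d i) (d j) = 0 :=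
    fun i j hij => hD.orthogonal i j hij _ (hdD i) _ (hdD j)
  have h01 : i0 ≠ i1 := by rw [hi0, hi1]; decide
  have h02 : i0 ≠ i2 := by rw [hi0, hi2]; decide
  have h12 : i1 ≠ i2 := by rw [hi1, hi2]; decide
  have o01 := hort i0 i1 h01
  have o02 := hort i0 i2 h02
  have o12 := hort i1 i2 h12
  have o10 := hort i1 i0 h01.symm
  have o20 := hort i2 i0 h02.symm
  have o21 := hort i2 i1 h12.symm
  obtain ⟨k0, hk0⟩ : ∃ k : F, k = hermForm 3 F q (d i0) (d i0) := ⟨_, rfl⟩
  obtain ⟨k1, hk1⟩ : ∃ k : F, k = hermForm 3 F q (d i1) (d i1) := ⟨_, rfl⟩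
  obtain ⟨k2, hk2⟩ : ∃ k : F, k = hermForm 3 F q (d i2) (d i2) := ⟨_, rfl⟩
  have hk00 : k0 ≠ 0 := hk0 ▸ hdd i0
  have hk10 : k1 ≠ 0 := hk1 ▸ hdd i1
  have hk20 : k2 ≠ 0 := hk2 ▸ hdd i2
  have hf0 : σ k0 = k0 := by rw [hk0, h.herm_self_fixed]
  have hf1 : σ k1 = k1 := by rw [hk1, h.herm_self_fixed]
  have hf2 : σ k2 = k2 := by rw [hk2, h.herm_self_fixed]
  obtain ⟨a, hfa, ha0, hab⟩ := sigma_exists_fixed_ne h hF hq (-k0 / k1)
  have hsum : k0 + a * k1 ≠ 0 := by
    intro h0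
    apply hab
    rw [eq_div_iff hk10]
    linear_combination h0
  obtain ⟨mu, hmu⟩ := h.exists_norm_eq hF a hfa ha0
  obtain ⟨nu, hnu⟩ := h.exists_norm_eq hF (-(k0 + a * k1) / k2)
    (by rw [map_div₀, map_neg, map_add, map_mul, hf0, hf1, hf2, hfa])
    (div_ne_zero (neg_ne_zero.mpr hsum) hk20)
  have hmu0 : mu ≠ 0 := by
    rintro rfl
    rw [zero_mul] at hmu
    exact ha0 hmu.symm
  have hnu0 : nu ≠ 0 := by
    rintro rfl
    rw [zero_mul] at hnu
    exact (div_ne_zero (neg_ne_zero.mpr hsum) hk20) hnu.symm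
  obtain ⟨u, hudef⟩ : ∃ u : Fin 3 → F, u = d i0 + mu • d i1 + nu • d i2 := ⟨_, rfl⟩
  have hu : hermForm 3 F q u u = 0 := by
    simp only [hudef, hS.add_left, hS.add_right, hS.smul_left, hS.smul_right, o01, o02, o12,
      o10, o20, o21, mul_zero, add_zero, zero_add, ← hk0, ← hk1, ← hk2]
    have e1 : mu * σ mu * k1 = a * k1 := by rw [hmu]
    have e2 : nu * σ nu * k2 = -(k0 + a * k1) := by rw [hnu]; field_simp
    linear_combination e1 + e2
  have hd0u : hermForm 3 F q (d i0) u = k0 := by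
    simp only [hudef, hS.add_right, hS.smul_right, o01, o02, mul_zero, add_zero, ← hk0]
  have hud1 : hermForm 3 F q u (d i1) = mu * k1 := by
    simp only [hudef, hS.add_left, hS.smul_left, o01, o21, mul_zero, add_zero, zero_add, ← hk1]
  have hud2 : hermForm 3 F q u (d i2) = nu * k2 := by
    simp only [hudef, hS.add_left, hS.smul_left, o02, o12, mul_zero, add_zero, zero_add, ← hk2]
  obtain ⟨tt, htG, htt, -⟩ := h.exists_utv u hu c hc
  obtain ⟨π, hπ⟩ := (mem_decompositionStabilizer_iff D tt).mp (hle htG)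
  have hw : (tt : Matrix (Fin 3) (Fin 3) F) *ᵥ d i0 ∈ D (π i0) := by
    rw [← hπ i0]
    exact ⟨d i0, hdD i0, by rw [Matrix.toLin'_apply]⟩
  rw [htt, hd0u] at hw
  have e1 : π i0 = i1 := by
    by_contra hne
    have h1 := hD.orthogonal (π i0) i1 hne _ hw _ (hdD i1)
    rw [hS.add_left, hS.smul_left, o01, hud1, zero_add] at h1
    exact (mul_ne_zero (mul_ne_zero hc0 hk00) (mul_ne_zero hmu0 hk10)) h1
  have e2 : π i0 = i2 := by
    by_contra hne
    have h1 := hD.orthogonal (π i0) i2 hne _ hw _ (hdD i2)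
    rw [hS.add_left, hS.smul_left, o02, hud2, zero_add] at h1
    exact (mul_ne_zero (mul_ne_zero hc0 hk00) (mul_ne_zero hnu0 hk20)) h1
  exact h12 (e1.symm.trans e2)

end Cfsg.Agent.Helper33
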