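-- helper33 library: piece G2 of the S5778 call (the extraspecial case inside the unitary group of
-- degree 3, for q at least 3).
import Cfsg.Agent.Helper33.SU3G1

set_option autoImplicit false
open Cfsg Cfsg.Geo Matrix
open Cfsg.Agent.Helper97

namespace Cfsg.Agent.Helper33

variable {F : Type*} [Field F] {n : ℕ}

/-- The special unitary group does not normalise the extraspecial group: a version of
`Helper97.ExtraBasis.notSU_normalizer` valid for every prime degree `n ≥ 3`, for `q ≥ 3`. -/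
theorem extra_notSU_normalizer_three_le [Fintype F] {N : Subgroup (GL (Fin n) F)}
    {x y z : GL (Fin n) F} {ζ lam : F} {ev : ℕ → (Fin n → F)}
    {b : Module.Basis (Fin n) F (Fin n → F)} {q : ℕ} {σ : F ≃+* F} (hσ : IsSigma q σ)
    (hF : Fintype.card F = q ^ 2) (hq : 3 ≤ q) (E : ExtraBasis x y ζ lam ev b)
    (D : ExtraData N x y z ζ)
    (hn : n.Prime) (hn3 : 3 ≤ n) (hNGU : N ≤ GU n F q) (hnq : n ∣ q + 1) :
    ¬ GU n F q ⊓ specialLinear (Fin n) F ≤ subgroupNormalizer N := by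
  classical
  intro hle
  have hnz : NeZero n := ⟨hn.ne_zero⟩
  have hS := hσ.isSesq (n := n)
  have hζ0 : ζ ≠ 0 := D.hprim.ne_zero hn.ne_zero
  have hlam0 := E.lam_ne_zero hn.ne_zero
  have hσinv : ∀ w : F, w ^ n = 1 → σ w = w⁻¹ := by
    intro w hw
    obtain ⟨m, hm⟩ := hnq
    have h1 : w ^ (q + 1) = 1 := by rw [hm, pow_mul, hw, one_pow]
    rw [hσ.pow]
    rw [pow_succ] at h1
    exact eq_inv_of_mul_eq_one_left h1
  have hμn : ∀ i : ℕ, (ζ ^ i * lam) ^ n = 1 := by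
    intro i
    rw [mul_pow, ← pow_mul, mul_comm i n, pow_mul, D.hprim.pow_eq_one, one_pow, one_mul, E.hlam]
  have hort : ∀ i j : ℕ, i < n → j < n → i ≠ j → hermForm n F q (ev i) (ev j) = 0 := by
    intro i j hi hj hij
    have h1 := hNGU D.hx (ev i) (ev j)
    change hermForm n F q ((x : Matrix (Fin n) (Fin n) F) *ᵥ ev i)
      ((x : Matrix (Fin n) (Fin n) F) *ᵥ ev j) = hermForm n F q (ev i) (ev j) at h1
    rw [E.hx, E.hx, hS.smul_left, hS.smul_right, hσinv _ (hμn j)] at h1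
    by_contra hne
    have hne' : ζ ^ j * lam ≠ 0 := mul_ne_zero (pow_ne_zero _ hζ0) hlam0
    have h2 : (ζ ^ i * lam) * hermForm n F q (ev i) (ev j)
        = (ζ ^ j * lam) * hermForm n F q (ev i) (ev j) := by
      calc (ζ ^ i * lam) * hermForm n F q (ev i) (ev j)
          = (ζ ^ j * lam) * ((ζ ^ i * lam) * ((ζ ^ j * lam)⁻¹ * hermForm n F q (ev i) (ev j))) := by
            field_simp
        _ = (ζ ^ j * lam) * hermForm n F q (ev i) (ev j) := by rw [h1]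
    have h3 : ζ ^ i * lam = ζ ^ j * lam := mul_right_cancel₀ hne h2
    have h4 : ζ ^ i = ζ ^ j := mul_right_cancel₀ hlam0 h3
    exact hij (D.hprim.pow_inj hi hj h4)
  obtain ⟨κ, hκ⟩ : ∃ κ : F, κ = hermForm n F q (ev 0) (ev 0) := ⟨_, rfl⟩
  have hκ0 : κ ≠ 0 := by
    intro h0
    obtain ⟨⟨w, hw⟩, -⟩ := hσ.isUnitaryForm.nondegenerate (ev 0) (E.ev_ne_zero hn.ne_zero 0)
    apply hw
    rw [← b.sum_repr w, hS.sum_left]
    apply Finset.sum_eq_zero
    intro j _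
    rw [hS.smul_left, E.hb]
    by_cases hj : (j : ℕ) = 0
    · rw [hj, ← hκ, h0, mul_zero]
    · rw [hort j 0 j.2 hn.pos hj, mul_zero]
  have hκfix : σ κ = κ := by rw [hκ, hσ.herm_self_fixed]
  have hκ1 : hermForm n F q (ev 1) (ev 1) = κ := by
    have h1 := hNGU D.hy (ev 0) (ev 0)
    change hermForm n F q ((y : Matrix (Fin n) (Fin n) F) *ᵥ ev 0)
      ((y : Matrix (Fin n) (Fin n) F) *ᵥ ev 0) = hermForm n F q (ev 0) (ev 0) at h1
    rw [E.hy, zero_add] at h1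
    rw [h1, hκ]
  obtain ⟨μ, hμ⟩ := hσ.exists_norm_eq hF (-1) (by rw [map_neg, map_one]) (by simp)
  have hμ0 : μ ≠ 0 := by
    rintro rfl
    simp at hμ
  obtain ⟨u, hu⟩ : ∃ u : Fin n → F, u = ev 0 + μ • ev 1 := ⟨_, rfl⟩
  have h01 := hort 0 1 hn.pos (by omega) (by norm_num)
  have h10 := hort 1 0 (by omega) hn.pos (by norm_num)
  have huu : hermForm n F q u u = 0 := by
    simp only [hu, hS.add_left, hS.add_right, hS.smul_left, hS.smul_right, h01, h10, hκ1, ← hκ, mul_zero,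
      add_zero, zero_add]
    linear_combination κ * hμ
  -- a trace-zero parameter `c` with `c * κ ≠ 1`
  obtain ⟨c0, hc00, hc0⟩ := hσ.exists_trace_zero
  obtain ⟨a, hfa, ha0, hab⟩ := sigma_exists_fixed_ne hσ hF hq ((c0 * κ)⁻¹)
  obtain ⟨c, hcdef⟩ : ∃ c : F, c = c0 * a := ⟨_, rfl⟩
  have hcne : c ≠ 0 := hcdef ▸ mul_ne_zero hc00 ha0
  have hc : σ c = -c := by
    rw [hcdef, map_mul, hc0, hfa]
    ring
  have hcκ : 1 - c * κ ≠ 0 := by
    intro h1
    apply hab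
    apply eq_inv_of_mul_eq_one_left
    rw [hcdef] at h1
    linear_combination -h1
  obtain ⟨t, htG, ht, hti⟩ := hσ.exists_utv u huu c hc
  have htN : t ∈ Subgroup.normalizer (N : Set (GL (Fin n) F)) := hle htG
  have htx : t * x * t⁻¹ ∈ N := (Subgroup.mem_normalizer_iff.mp htN x).mp D.hx
  have hfix : ∀ j : ℕ, j < n → j ≠ 0 → j ≠ 1 → hermForm n F q (ev j) u = 0 := by
    intro j hj hj0 hj1
    rw [hu, hS.add_right, hS.smul_right, hort j 0 hj hn.pos hj0, hort j 1 hj (by omega) hj1, mul_zero,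
      add_zero]
  have htev : ∀ j : ℕ, j < n → j ≠ 0 → j ≠ 1 → (t : Matrix (Fin n) (Fin n) F) *ᵥ ev j = ev j := by
    intro j hj hj0 hj1
    rw [ht, hfix j hj hj0 hj1, mul_zero, zero_smul, add_zero]
  have htiev : ∀ j : ℕ, j < n → j ≠ 0 → j ≠ 1 →
      ((t⁻¹ : GL (Fin n) F) : Matrix (Fin n) (Fin n) F) *ᵥ ev j = ev j := by
    intro j hj hj0 hj1
    rw [hti, hfix j hj hj0 hj1, mul_zero, zero_smul, sub_zero]
  obtain ⟨g, hg⟩ : ∃ g : GL (Fin n) F, g = x⁻¹ * (t * x * t⁻¹) := ⟨_, rfl⟩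
  have hgN : g ∈ N := hg ▸ N.mul_mem (N.inv_mem D.hx) htx
  have hh : ∀ j : ℕ, j < n → j ≠ 0 → j ≠ 1 →
      (g : Matrix (Fin n) (Fin n) F) *ᵥ ev j = ev j := by
    intro j hj hj0 hj1
    rw [hg, Units.val_mul, Units.val_mul, Units.val_mul, ← Matrix.mulVec_mulVec, ← Matrix.mulVec_mulVec,
      ← Matrix.mulVec_mulVec, htiev j hj hj0 hj1, E.hx, Matrix.mulVec_smul, htev j hj hj0 hj1, ← E.hx,
      mulVec_inv_cancel]
  -- `g` is diagonal in the basis `ev`
  obtain ⟨c', m, hm⟩ := E.mono D hn g hgN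
  have h2 := hh 2 (by omega) (by norm_num) (by norm_num)
  rw [hm 2] at h2
  have hc' : n ∣ c' := by
    have h2' : ζ ^ m 2 • ev ((2 + c') % n) = (1 : F) • ev 2 := by
      rw [E.ev_mod, one_smul]
      exact h2
    have h4 := E.smul_ev_inj (Nat.mod_lt _ hn.pos) (by omega : 2 < n) (pow_ne_zero _ hζ0) h2'
    have h5 := Nat.div_add_mod (2 + c') n
    rw [h4] at h5
    exact ⟨(2 + c') / n, by linarith⟩
  obtain ⟨c'', rfl⟩ := hc'
  have h0 := hm 0
  rw [E.ev_add_mul] at h0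
  obtain ⟨θ, hθ⟩ : ∃ θ : F, θ = ζ ^ m 0 := ⟨_, rfl⟩
  rw [← hθ] at h0
  have hf0 : hermForm n F q (ev 0) u = κ := by
    rw [hu, hS.add_right, hS.smul_right, h01, mul_zero, add_zero, hκ]
  have hw : ((t⁻¹ : GL (Fin n) F) : Matrix (Fin n) (Fin n) F) *ᵥ ev 0
      = (1 - c * κ) • ev 0 + (-(c * κ * μ)) • ev 1 := by
    rw [hti, hf0, hu]
    module
  have e1 : x * t⁻¹ = t⁻¹ * (x * g) := by
    rw [hg]
    group
  have e2 := congrArg (fun w : GL (Fin n) F => (w : Matrix (Fin n) (Fin n) F) *ᵥ ev 0) e1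
  simp only [Units.val_mul, ← Matrix.mulVec_mulVec] at e2
  rw [h0, Matrix.mulVec_smul, E.hx, pow_zero, one_mul, Matrix.mulVec_smul, Matrix.mulVec_smul, hw,
    Matrix.mulVec_add, Matrix.mulVec_smul, Matrix.mulVec_smul, E.hx, E.hx, pow_zero, one_mul,
    pow_one] at e2
  have key : ((1 - c * κ) * lam) • ev 0 + (-(c * κ * μ) * (ζ * lam)) • ev 1
      = (θ * lam * (1 - c * κ)) • ev 0 + (θ * lam * (-(c * κ * μ))) • ev 1 := by
    calc ((1 - c * κ) * lam) • ev 0 + (-(c * κ * μ) * (ζ * lam)) • ev 1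
        = (1 - c * κ) • lam • ev 0 + (-(c * κ * μ)) • (ζ * lam) • ev 1 := by module
      _ = θ • lam • ((1 - c * κ) • ev 0 + (-(c * κ * μ)) • ev 1) := e2
      _ = (θ * lam * (1 - c * κ)) • ev 0 + (θ * lam * (-(c * κ * μ))) • ev 1 := by module
  have k0 := congrArg (fun v => hermForm n F q v (ev 0)) key
  simp only [hS.add_left, hS.smul_left, h10, ← hκ, mul_zero, add_zero] at k0
  have k1 := congrArg (fun v => hermForm n F q v (ev 1)) key
  simp only [hS.add_left, hS.smul_left, h01, hκ1, mul_zero, zero_add] at k1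
  have hθ1 : θ = 1 := by
    have h3 : ((1 - c * κ) * lam * κ) * (θ - 1) = 0 := by linear_combination -k0
    rcases mul_eq_zero.mp h3 with h4 | h4
    · exact absurd h4 (mul_ne_zero (mul_ne_zero hcκ hlam0) hκ0)
    · exact sub_eq_zero.mp h4
  have hζ1 : ζ = 1 := by
    have h3 : (c * κ * μ * lam * κ) * (ζ - θ) = 0 := by linear_combination -k1
    rcases mul_eq_zero.mp h3 with h4 | h4
    · exact absurd h4
        (mul_ne_zero (mul_ne_zero (mul_ne_zero (mul_ne_zero hcne hκ0) hμ0) hlam0) hκ0)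
    · rw [← hθ1]
      exact sub_eq_zero.mp h4
  exact D.hprim.ne_one hn.one_lt hζ1

/-- **Piece G2 of the S5778 call.**  The extraspecial case inside the unitary group of degree 3,
for `q ≥ 3`. -/
theorem su3_extra_unitary [Fintype F] {p : ℕ} [Fact p.Prime] [CharP F p] {q : ℕ} {σ : F ≃+* F}
    (hσ : IsSigma q σ) (hF : Fintype.card F = q ^ 2) (hq : 3 ≤ q)
    (H N : Subgroup (GL (Fin 3) F)) (hNGU : N ≤ GU 3 F q)
    (hNSL : N ≤ specialLinear (Fin 3) F)
    (hNn : ∀ h ∈ H, ∀ x ∈ N, h * x * h⁻¹ ∈ N) (hNZ : ¬ N ≤ scalars (Fin 3) F)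
    (hNmin : ∀ N' : Subgroup (GL (Fin 3) F), N' ≤ N → (∀ h ∈ H, ∀ x ∈ N', h * x * h⁻¹ ∈ N') →
      N' ≤ scalars (Fin 3) F ∨ N' = N)
    (hab : ∀ a ∈ N, ∀ b ∈ N, a * b * a⁻¹ * b⁻¹ ∈ scalars (Fin 3) F)
    (habs : ActsAbsolutelyIrreducibly (matrixSet N)) :
    (∃ F₀ : Subfield F, F₀ ≠ ⊤ ∧ RealisableOver F₀ (matrixSet N)) ∨
    (IsSymplecticTypeGroup 3 N ∧ Nat.card N = 3 ^ 3 ∧ Nat.card (Subgroup.center N) = 3 ∧
      ¬ GU 3 F q ⊓ specialLinear (Fin 3) F ≤ subgroupNormalizer N ∧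
      ∃ a : ℕ, q = p ^ a ∧ 3 ∣ p ^ (2 * a) - 1 ∧ ∀ d : ℕ, 0 < d → d < 2 * a → ¬ 3 ∣ p ^ d - 1) := by
  classical
  have hp := (Fact.out : p.Prime)
  have hn : Nat.Prime 3 := Nat.prime_three
  have hodd : Odd 3 := by decide
  have hnz : NeZero 3 := ⟨hn.ne_zero⟩
  have hq2 := two_le_of_card hF
  obtain ⟨x, y, z, ζ, D⟩ := extraData_exists hn hodd H N hNSL hNn hNZ hNmin hab habs
  obtain ⟨lam, ev, b, E⟩ := D.exists_extraBasis hn
  obtain ⟨e', -, hcard⟩ := FiniteField.card F p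
  obtain ⟨e, he⟩ : ∃ e : ℕ, e = (e' : ℕ) := ⟨_, rfl⟩
  rw [← he] at hcard
  have he0 : 0 < e := he ▸ e'.pos
  have hζ0 : ζ ≠ 0 := D.hprim.ne_zero hn.ne_zero
  have hndvd : 3 ∣ p ^ e - 1 := by
    rw [← hcard, ← D.hprim.pow_eq_one_iff_dvd]
    exact FiniteField.pow_card_sub_one_eq_one ζ hζ0
  by_cases hmin : ∃ d, 0 < d ∧ d < e ∧ 3 ∣ p ^ d - 1
  · left
    obtain ⟨d, hd0, hde, hdn⟩ := hmin
    obtain ⟨F₀, hF₀⟩ : ∃ F₀ : Subfield F,
        F₀ = RingHom.eqLocusField (iterateFrobenius F p d) (RingHom.id F) := ⟨_, rfl⟩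
    have hmem : ∀ a : F, a ∈ F₀ ↔ a ^ p ^ d = a := by
      intro a
      rw [hF₀, RingHom.mem_eqLocusField, iterateFrobenius_def, RingHom.id_apply]
    have hpd : 1 ≤ p ^ d := Nat.one_le_pow _ _ hp.pos
    have hζF₀ : ζ ∈ F₀ := by
      rw [hmem]
      have h1 : ζ ^ (p ^ d - 1) = 1 := (D.hprim.pow_eq_one_iff_dvd _).mpr hdn
      calc ζ ^ p ^ d = ζ ^ (p ^ d - 1 + 1) := by rw [Nat.sub_add_cancel hpd]
        _ = ζ := by rw [pow_succ, h1, one_mul]
    have hF₀top : F₀ ≠ ⊤ := by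
      intro htop
      obtain ⟨g, hg⟩ := IsCyclic.exists_ofOrder_eq_natCard (α := Fˣ)
      rw [Nat.card_units, Nat.card_eq_fintype_card, hcard] at hg
      have h1 : (g : F) ∈ F₀ := by rw [htop]; exact Subfield.mem_top _
      rw [hmem] at h1
      have h2 : (g : F) ^ (p ^ d - 1) = 1 := by
        have h3 : (g : F) ^ (p ^ d - 1) * (g : F) = 1 * (g : F) := by
          rw [← pow_succ, Nat.sub_add_cancel hpd, h1, one_mul]
        exact mul_right_cancel₀ g.ne_zero h3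
      have h4 : g ^ (p ^ d - 1) = 1 := by
        apply Units.ext
        rw [Units.val_pow_eq_pow_val, h2, Units.val_one]
      have h5 := orderOf_dvd_of_pow_eq_one h4
      rw [hg] at h5
      have h6 : p ^ d < p ^ e := Nat.pow_lt_pow_right hp.one_lt hde
      have h7 : 2 ≤ p ^ d := by
        calc 2 ≤ p := hp.two_le
          _ = p ^ 1 := (pow_one p).symm
          _ ≤ p ^ d := Nat.pow_le_pow_right hp.pos hd0
      have h8 := Nat.le_of_dvd (by omega) h5
      omega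
    exact ⟨F₀, hF₀top, E.realisable D hn F₀ hζF₀⟩
  · right
    have hmin' : ∀ d, 0 < d → d < e → ¬ 3 ∣ p ^ d - 1 := fun d h1 h2 h3 => hmin ⟨d, h1, h2, h3⟩
    have hqd : q ∣ p ^ e := by
      rw [← hcard, hF]
      exact dvd_pow_self q (by norm_num)
    obtain ⟨a, -, ha⟩ := (Nat.dvd_prime_pow hp).mp hqd
    have hea : e = 2 * a := by
      have h1 : p ^ e = p ^ (2 * a) := by
        rw [← hcard, hF, ha, ← pow_mul, mul_comm]
      exact Nat.pow_right_injective hp.two_le h1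
    have ha0 : 0 < a := by omega
    have hnq : 3 ∣ q + 1 := by
      have h1 : p ^ e - 1 = (q + 1) * (q - 1) := by
        rw [hea, mul_comm 2 a, pow_mul, ← ha]
        exact IsSigma.sq_sub_one_eq q (by omega)
      rw [h1] at hndvd
      rcases hn.dvd_mul.mp hndvd with h2 | h2
      · exact h2
      · exfalso
        rw [ha] at h2
        exact hmin' a ha0 (by omega) h2
    have hpowN : ∀ g : N, g ^ 3 = 1 := by
      intro g
      apply Subtype.ext
      rw [Subgroup.coe_pow, D.hexp g g.2]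
      rfl
    refine ⟨⟨hn, ?_, ?_, ?_⟩, ?_, E.card_center D hn,
      extra_notSU_normalizer_three_le hσ hF hq E D hn (le_refl 3) hNGU hnq, a, ha, ?_, ?_⟩
    · intro g
      exact ⟨1, by rw [pow_one]; exact hpowN g⟩
    · exact ExtraBasis.char_cyclic D hn H hNn hNmin
    · have h1 : Monoid.exponent N ∣ 3 := Monoid.exponent_dvd_of_forall_pow_eq_one hpowN
      have h2 : Monoid.exponent N ≠ 1 := by
        intro h
        rw [Monoid.exp_eq_one_iff] at h
        have h3 := Subsingleton.elim (⟨z, D.hz⟩ : N) 1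
        exact ExtraBasis.z_ne_one D hn (congrArg Subtype.val h3)
      have h3 : Nat.gcd 2 3 = 1 := by decide
      rw [h3, mul_one]
      exact ((Nat.dvd_prime hn).mp h1).resolve_left h2
    · rw [E.card_eq D hn]
    · rw [← hea]
      exact hndvd
    · rw [← hea]
      exact hmin'

end Cfsg.Agent.Helper33
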