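import Mathlib
import Cfsg.Prelude.Def_Classical
import Cfsg.Agent.Helper6.BN
import Cfsg.Agent.Helper40.BNStD

/-!
# Helper33: PIECE GMUL of CALL S2547 (helper45): cell sizes multiply when `C(s) C(n) = C(s n)`.
-/

set_option autoImplicit false

namespace Cfsg.Agent.Helper33.StGMUL

open Cfsg

section gen

open Cfsg.Agent.Helper6

variable {G : Type*} [Group G]

/-- the double coset `B g B` has `|B| * |B g B / B|` elements -/
theorem card_DC_eq [Finite G] (P : Cfsg.BNPair G) (g : G) :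
    Nat.card (DC P g) =
      Nat.card P.B * Nat.card (MulAction.orbit ↥P.B ((g : G) : G ⧸ P.B)) := by
  rw [← Nat.card_prod]
  have hset : DC P g = QuotientGroup.mk ⁻¹' (MulAction.orbit ↥P.B ((g : G) : G ⧸ P.B)) := by
    ext x
    rw [Set.mem_preimage]
    exact (Cfsg.Agent.Helper40.BNSt.mem_orbit_iff P).symm
  rw [hset]
  exact Nat.card_congr (QuotientGroup.preimageMkEquivSubgroupProdSet _ _)

-- === PIECE GMUL ===
theorem p_GMUL [Finite G] (P : Cfsg.BNPair G) {s n : G} (hs : s ∈ P.S) (hn : n ∈ P.N)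
    (hPg : Pg P s n) :
    Nat.card (MulAction.orbit ↥P.B (((s * n : G)) : G ⧸ P.B)) =
      Nat.card (MulAction.orbit ↥P.B ((s : G) : G ⧸ P.B)) *
        Nat.card (MulAction.orbit ↥P.B ((n : G) : G ⧸ P.B)) := by
  classical
  have hsN := S_mem_N P hs
  have hprod : ∀ x ∈ DC P s, ∀ y ∈ DC P n, x * y ∈ DC P (s * n) := by
    intro x hx y hy
    obtain ⟨c, hc, c', hc', rfl⟩ := (mem_DC P).1 hx
    obtain ⟨e, he, e', he', rfl⟩ := (mem_DC P).1 hy
    have e1 : c * s * c' * (e * n * e') = c * (s * (c' * e) * n) * e' := by group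
    rw [e1]
    exact mul_mem_DC P hc he' (hPg _ (P.B.mul_mem hc' he))
  have hfib : ∀ x ∈ DC P s, ∀ x' ∈ DC P s, ∀ y ∈ DC P n, ∀ y' ∈ DC P n,
      x * y = x' * y' → x'⁻¹ * x ∈ P.B := by
    intro x hx x' hx' y hy y' hy' hxy
    by_contra hg
    have hgs : x'⁻¹ * x ∈ DC P s := by
      obtain ⟨c, hc, c', hc', rfl⟩ := (mem_DC P).1 hx
      obtain ⟨e, he, e', he', rfl⟩ := (mem_DC P).1 hx'
      have h1 := T3_inv_left P hs hsN
        (mul_left_mem_DC P (P.B.mul_mem (P.B.inv_mem he) hc) (DC_self P s))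
      have e2 : (e * s * e')⁻¹ * (c * s * c') = e'⁻¹ * (s⁻¹ * (e⁻¹ * c * s)) * c' := by group
      rcases h1 with h1 | h1
      · exfalso
        apply hg
        rw [e2]
        exact P.B.mul_mem (P.B.mul_mem (P.B.inv_mem he')
          (mem_B_of_mem_DC P (S_sq P hs) h1)) hc'
      · rw [e2]
        exact mul_mem_DC P (P.B.inv_mem he') hc' h1
    have hy'2 : y' ∈ DC P (s * n) := by
      have h7 : y' = (x'⁻¹ * x) * y := by rw [mul_assoc, hxy]; group
      rw [h7]
      exact hprod _ hgs y hy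
    have h4 := bruhat_unique P (P.N.mul_mem hsN hn) hn (DC_eq_of_inter P hy'2 hy')
    rw [proj_mul P hsN hn] at h4
    have h5 : proj P s = 1 := by
      have h6 := congrArg (fun t => t * (proj P n)⁻¹) h4
      simpa using h6
    exact S_not_mem_B P hs ((proj_eq_one_iff P hsN).1 h5)
  have hsec : ∀ z : DC P (s * n), ∃ p : DC P s × DC P n, (p.1 : G) * (p.2 : G) = z := by
    rintro ⟨z, hz⟩
    obtain ⟨c, hc, c', hc', rfl⟩ := (mem_DC P).1 hz
    refine ⟨(⟨c * s, mul_left_mem_DC P hc (DC_self P s)⟩,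
      ⟨n * c', mul_right_mem_DC P hc' (DC_self P n)⟩), ?_⟩
    show c * s * (n * c') = c * (s * n) * c'
    group
  choose σ hσ using hsec
  have hequiv : Nat.card (DC P (s * n) × P.B) = Nat.card (DC P s × DC P n) := by
    refine Nat.card_congr (Equiv.ofBijective
      (fun q : DC P (s * n) × P.B =>
        ((⟨((σ q.1).1 : G) * (q.2 : G), mul_right_mem_DC P q.2.2 (σ q.1).1.2⟩ : DC P s),
         (⟨(q.2 : G)⁻¹ * ((σ q.1).2 : G),
            mul_left_mem_DC P (P.B.inv_mem q.2.2) (σ q.1).2.2⟩ : DC P n)))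
      ⟨?_, ?_⟩)
    · rintro ⟨z, b⟩ ⟨z', b'⟩ h
      have h1 : ((σ z).1 : G) * (b : G) = ((σ z').1 : G) * (b' : G) :=
        congrArg (fun p : DC P s × DC P n => (p.1 : G)) h
      have h2 : (b : G)⁻¹ * ((σ z).2 : G) = (b' : G)⁻¹ * ((σ z').2 : G) :=
        congrArg (fun p : DC P s × DC P n => (p.2 : G)) h
      have hz : z = z' := by
        apply Subtype.ext
        rw [← hσ z, ← hσ z']
        calc ((σ z).1 : G) * ((σ z).2 : G)
            = (((σ z).1 : G) * (b : G)) * ((b : G)⁻¹ * ((σ z).2 : G)) := by group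
          _ = (((σ z').1 : G) * (b' : G)) * ((b' : G)⁻¹ * ((σ z').2 : G)) := by rw [h1, h2]
          _ = ((σ z').1 : G) * ((σ z').2 : G) := by group
      subst hz
      have hb : b = b' := Subtype.ext (mul_left_cancel h1)
      rw [hb]
    · rintro ⟨⟨x, hx⟩, ⟨y, hy⟩⟩
      obtain ⟨z, hz⟩ : ∃ z : DC P (s * n), (z : G) = x * y :=
        ⟨⟨x * y, hprod x hx y hy⟩, rfl⟩
      have hxy : ((σ z).1 : G) * ((σ z).2 : G) = x * y := by rw [hσ z, hz]
      have hb : ((σ z).1 : G)⁻¹ * x ∈ P.B :=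
        hfib x hx _ (σ z).1.2 y hy _ (σ z).2.2 hxy.symm
      refine ⟨(z, ⟨_, hb⟩), ?_⟩
      apply Prod.ext
      · apply Subtype.ext
        show ((σ z).1 : G) * (((σ z).1 : G)⁻¹ * x) = x
        group
      · apply Subtype.ext
        show (((σ z).1 : G)⁻¹ * x)⁻¹ * ((σ z).2 : G) = y
        calc (((σ z).1 : G)⁻¹ * x)⁻¹ * ((σ z).2 : G)
            = x⁻¹ * (((σ z).1 : G) * ((σ z).2 : G)) := by group
          _ = y := by rw [hxy]; group
  have hB : 0 < Nat.card P.B := Nat.card_pos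
  rw [Nat.card_prod, Nat.card_prod, card_DC_eq P s, card_DC_eq P n, card_DC_eq P (s * n)]
    at hequiv
  have h8 : Nat.card P.B * Nat.card P.B *
      Nat.card (MulAction.orbit ↥P.B (((s * n : G)) : G ⧸ P.B))
      = Nat.card P.B * Nat.card P.B *
        (Nat.card (MulAction.orbit ↥P.B ((s : G) : G ⧸ P.B)) *
          Nat.card (MulAction.orbit ↥P.B ((n : G) : G ⧸ P.B))) := by
    calc Nat.card P.B * Nat.card P.B *
          Nat.card (MulAction.orbit ↥P.B (((s * n : G)) : G ⧸ P.B))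
        = Nat.card P.B * Nat.card (MulAction.orbit ↥P.B (((s * n : G)) : G ⧸ P.B))
            * Nat.card P.B := by ring
      _ = _ := by rw [hequiv]; ring
  exact Nat.eq_of_mul_eq_mul_left (Nat.mul_pos hB hB) h8

end gen

end Cfsg.Agent.Helper33.StGMUL
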