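import Cfsg.Agent.Helper33.MinConfig
import Cfsg.Agent.Helper33.PAPStable

set_option autoImplicit false

/-!
Helper33: `ThLoc` from control of strong fusion in sections all of whose sections are `p`-stable
(S1990). In the minimal configuration `X` (`X / O_p(X)` with a normal `p`-complement, a Sylow
`p`-subgroup maximal) every section is `p`-by-abelian `p'`-by-`p`, hence `p`-stable for odd `p`; and
if `W(T)` controls strong fusion in a group `X` with `C_X(O_p(X)) ≤ O_p(X)`, then `W(T)` is normal.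
-/

namespace Cfsg.Agent.Helper33

universe u

variable {p : ℕ} [Fact p.Prime]

theorem MinConf.isPAP {X : Type*} [Group X] {T K₁ : Subgroup X} (hK : MinConf p X T K₁) :
    IsPAP p X :=
  ⟨Cfsg.pCore p X, K₁, inferInstance, hK.normal, hK.pCore_le,
    Cfsg.Agent.Helper48.isPGroup_pCore p X, hK.comm, hK.pel, hK.p'mem⟩

theorem thLoc_of_controls (hp2 : p ≠ 2) {W : ∀ (Q : Type u) [Group Q], Subgroup Q}
    (hW : Cfsg.IsCharPFunctor.{u} p W) {X : Type u} [Group X] [Finite X]
    (h : (∀ (K' R' : Subgroup X) [hR' : (R'.subgroupOf K').Normal],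
        Cfsg.IsNormalizerPStable p (↥K' ⧸ R'.subgroupOf K')) →
      ∀ T : Sylow p X, Cfsg.ControlsStrongFusion p (Cfsg.inducedFunctor W (T : Subgroup X))) :
    ThLoc W p X := by
  intro hc hq T hT
  obtain ⟨K₁, hK⟩ := exists_minConf hq T hT
  have hX : IsPAP p X := hK.isPAP
  have hst : ∀ (K' R' : Subgroup X) [hR' : (R'.subgroupOf K').Normal],
      Cfsg.IsNormalizerPStable p (↥K' ⧸ R'.subgroupOf K') := by
    intro K' R' hR'
    haveI : Finite (↥K' ⧸ R'.subgroupOf K') := inferInstance
    exact isNormalizerPStable_of_isPAP hp2 (hX.of_isSectionOf (isSectionOf_quotient_subgroupOf K' R'))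
  obtain ⟨T', -, hctl⟩ := h hst T
  rw [← Subgroup.normalizer_eq_top_iff, eq_top_iff]
  intro y _
  obtain ⟨-, hf⟩ := hctl ((Cfsg.pCore p X : Subgroup X) : Set X)
    (SetLike.coe_subset_coe.mpr (pCore_le_sylow T'))
  obtain ⟨x, hx, hxa⟩ := hf y (by
    rintro _ ⟨a, ha, rfl⟩
    exact pCore_le_sylow T' ((inferInstance : (Cfsg.pCore p X).Normal).conj_mem a ha y))
  have h1 : x⁻¹ * y ∈ Subgroup.centralizer ((Cfsg.pCore p X : Subgroup X) : Set X) := by
    rw [Subgroup.mem_centralizer_iff]
    intro a ha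
    have h2 := hxa a ha
    calc a * (x⁻¹ * y) = x⁻¹ * (x * a * x⁻¹) * y := by group
      _ = x⁻¹ * (y * a * y⁻¹) * y := by rw [h2]
      _ = x⁻¹ * y * a := by group
  have h2 : x⁻¹ * y ∈ Subgroup.normalizer
      ((Cfsg.inducedFunctor W (T : Subgroup X) : Subgroup X) : Set X) :=
    (normalizer_le_normalizer_inducedFunctor hW T.2)
      (Subgroup.le_normalizer (pCore_le_sylow T (hc h1)))
  have h3 := Subgroup.mul_mem _ hx h2
  rwa [mul_inv_cancel_left] at h3

end Cfsg.Agent.Helper33
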