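import Mathlib
import Cfsg.Prelude.Def_GeometricClasses
import Cfsg.Agent.Helper71.T4Defs
import Cfsg.Agent.Helper97.OForm
import Cfsg.Agent.Helper96.T5Defs
import Cfsg.Agent.Helper33.T5CNT

/-!
# Helper33: PIECE RY2B of CALL S5704 (helper96).
-/

set_option autoImplicit false
set_option linter.unusedVariables false
set_option linter.unusedSimpArgs false

namespace Cfsg.Agent.Helper33.T5RY2B

open Matrix Cfsg Cfsg.Geo Cfsg.Agent.Helper71.T4 Cfsg.Agent.Helper96.T5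
open scoped Kronecker

variable {F : Type*} [Field F] {a b : ℕ}

/-- `(1 ⊗ rk J₂ x z) v = (cnt J₂ z v) ⊗ x`. -/
theorem one_kron_rk_mulVec (J₂ : Matrix (Fin b) (Fin b) F) (x z : Fin b → F)
    (v : Fin a × Fin b → F) :
    ((1 : Matrix (Fin a) (Fin a) F) ⊗ₖ rk J₂ x z) *ᵥ v = pt (cnt J₂ z v) x := by
  ext ⟨i, k⟩
  simp only [Matrix.mulVec, dotProduct, Matrix.kroneckerMap_apply, Fintype.sum_prod_type, pt, cnt,
    rk, Matrix.vecMulVec_apply, Matrix.one_apply]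
  rw [Finset.sum_eq_single i]
  · rw [Finset.sum_mul]
    refine Finset.sum_congr rfl fun l _ => ?_
    rw [if_pos rfl]
    ring
  · intro j _ hj
    simp [Ne.symm hj]
  · intro h; exact absurd (Finset.mem_univ _) h

/-- `(1 ⊗ tv J₂ x c) v = v + c • (cnt J₂ x v) ⊗ x`. -/
theorem one_kron_tv_mulVec (J₂ : Matrix (Fin b) (Fin b) F) (x : Fin b → F) (c : F)
    (v : Fin a × Fin b → F) :
    ((1 : Matrix (Fin a) (Fin a) F) ⊗ₖ tv J₂ x c) *ᵥ v = v + c • pt (cnt J₂ x v) x := by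
  rw [tv, Matrix.kronecker_add, Matrix.one_kronecker_one, Matrix.kronecker_smul,
    Matrix.add_mulVec, Matrix.one_mulVec, Matrix.smul_mulVec, one_kron_rk_mulVec]

theorem tv_mul_tv {n : ℕ} (J : Matrix (Fin n) (Fin n) F) (halt : ∀ x, bf J x x = 0)
    (x : Fin n → F) (c c' : F) : tv J x c * tv J x c' = tv J x (c + c') := by
  simp only [tv, Matrix.add_mul, Matrix.mul_add, Matrix.one_mul, Matrix.mul_one, Matrix.smul_mul,
    Matrix.mul_smul, rk_mul_rk, halt, zero_smul, smul_zero, add_zero, add_smul]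
  abel

theorem tv_zero {n : ℕ} (J : Matrix (Fin n) (Fin n) F) (x : Fin n → F) : tv J x 0 = 1 := by
  simp [tv]

variable {J₁ : Matrix (Fin a) (Fin a) F} {J₂ : Matrix (Fin b) (Fin b) F}
  {Q : (Fin a × Fin b → F) → F}

/-- The case where `y` moves `U ⊗ e^⊥` only by `U ⊗ e`. -/
theorem ry2b_core (hT : TQ J₁ J₂ Q) (M : Subgroup (GL (Fin a × Fin b) F))
    (hA1 : ∀ d : Fin b → F, d ≠ 0 → ∀ g ∈ M, InU J₂ d (g.1 - 1) → IsKron g.1)
    (z : GL (Fin a × Fin b) F) (hz : z ∈ M) (e : Fin b → F) (he : e ≠ 0)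
    (hfix : ∀ u : Fin a → F, z.1 *ᵥ pt u e = pt u e)
    (hcnt : ∀ v, cnt J₂ e ((z.1 - 1) *ᵥ v) = 0)
    (h3 : ∀ w' : Fin b → F, bf J₂ w' e = 0 → ∀ u : Fin a → F, ∃ u'' : Fin a → F,
        z.1 *ᵥ pt u w' = pt u w' + pt u'' e) : IsKron z.1 := by
  refine hA1 e he z hz ⟨?_, hcnt, ?_⟩
  · intro u
    rw [Matrix.sub_mulVec, Matrix.one_mulVec, hfix, sub_self]
  · refine Cfsg.Agent.Helper33.T5CNT.cnt_induction hT e he _ ⟨0, ?_⟩ ?_ ?_
    · rw [Matrix.mulVec_zero, pt_zero_left]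
    · rintro r r' ⟨u, hu⟩ ⟨u', hu'⟩
      exact ⟨u + u', by rw [Matrix.mulVec_add, hu, hu', pt_add_left]⟩
    · intro u w hw
      obtain ⟨u'', h⟩ := h3 w hw u
      exact ⟨u'', by rw [Matrix.sub_mulVec, Matrix.one_mulVec, h]; abel⟩

/-- PIECE RY2B -/
theorem ry2b (hT : TQ J₁ J₂ Q) (ha : 1 ≤ a) (M : Subgroup (GL (Fin a × Fin b) F))
    (hMO : M ≤ isometryGroup F Q) (hR : HasR J₁ J₂ M)
    (hA1 : ∀ d : Fin b → F, d ≠ 0 → ∀ g ∈ M, InU J₂ d (g.1 - 1) → IsKron g.1)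
    (y : GL (Fin a × Fin b) F) (hy : y ∈ M) (e : Fin b → F) (he : e ≠ 0)
    (hfix : ∀ u : Fin a → F, y.1 *ᵥ pt u e = pt u e)
    (hcnt : ∀ v, cnt J₂ e ((y.1 - 1) *ᵥ v) = 0)
    (w₀ : Fin b → F) (hw₀ : bf J₂ w₀ e = 0)
    (h2 : ∀ w' : Fin b → F, bf J₂ w' e = 0 → ∃ c : F,
      ∀ u : Fin a → F, ∃ u'' : Fin a → F,
        y.1 *ᵥ pt u w' = pt u w' + c • pt u w₀ + pt u'' e) :
    IsKron y.1 := by
  by_cases hcase : ∃ t : F, w₀ = t • e
  · obtain ⟨t, rfl⟩ := hcase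
    refine ry2b_core hT M hA1 y hy e he hfix hcnt ?_
    intro w' hw' u
    obtain ⟨c, hc⟩ := h2 w' hw'
    obtain ⟨u'', hu''⟩ := hc u
    refine ⟨(c * t) • u + u'', ?_⟩
    rw [hu'', pt_smul_right, pt_add_left, pt_smul_left, smul_smul]
    abel
  · push Not at hcase
    have hyO := hMO hy
    have hiso : ∀ v v', bf (J₁ ⊗ₖ J₂) (y.1 *ᵥ v) (y.1 *ᵥ v') = bf (J₁ ⊗ₖ J₂) v v' := by
      intro v v'
      rw [← hT.polar, ← hT.polar]
      exact Cfsg.Agent.Helper97.Gen.polar_isometry hyO v v'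
    have hew₀ : bf J₂ e w₀ = 0 := by rw [bf_swap J₂ hT.alt₂, hw₀, neg_zero]
    obtain ⟨u₁, u₂, hu12⟩ : ∃ u₁ u₂ : Fin a → F, bf J₁ u₁ u₂ = 1 := by
      have hne : (Pi.single (⟨0, ha⟩ : Fin a) (1 : F) : Fin a → F) ≠ 0 := by
        intro h
        have := congrFun h ⟨0, ha⟩
        simp at this
      obtain ⟨u₂, h⟩ := exists_bf_eq_one J₁ hT.det₁ _ hne
      exact ⟨_, u₂, h⟩
    have hstar : ∀ w' w'' : Fin b → F, bf J₂ w' e = 0 → bf J₂ w'' e = 0 → ∀ c' c'' : F,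
        (∀ u : Fin a → F, ∃ u'' : Fin a → F,
          y.1 *ᵥ pt u w' = pt u w' + c' • pt u w₀ + pt u'' e) →
        (∀ u : Fin a → F, ∃ u'' : Fin a → F,
          y.1 *ᵥ pt u w'' = pt u w'' + c'' • pt u w₀ + pt u'' e) →
        c'' * bf J₂ w' w₀ = c' * bf J₂ w'' w₀ := by
      intro w' w'' hw' hw'' c' c'' h' h''
      obtain ⟨p, hp⟩ := h' u₁
      obtain ⟨q, hq⟩ := h'' u₂
      have h := hiso (pt u₁ w') (pt u₂ w'')
      rw [hp, hq] at h
      have e1 : bf J₂ e w'' = 0 := by rw [bf_swap J₂ hT.alt₂, hw'', neg_zero]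
      have e2 : bf J₂ w₀ w'' = - bf J₂ w'' w₀ := bf_swap J₂ hT.alt₂ _ _
      have e3 : bf J₂ e e = 0 := hT.alt₂ e
      have e4 : bf J₂ w₀ w₀ = 0 := hT.alt₂ w₀
      simp only [bf_add_left, bf_add_right, bf_smul_left, bf_smul_right, bf_kron_pt, hu12, hw',
        hw₀, hew₀, e1, e2, e3, e4] at h
      linear_combination h
    obtain ⟨w1, hw1e, hw1⟩ : ∃ w1 : Fin b → F, bf J₂ w1 e = 0 ∧ bf J₂ w1 w₀ = 1 := by
      by_contra hno
      push Not at hno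
      have hall : ∀ w : Fin b → F, bf J₂ w e = 0 → bf J₂ w w₀ = 0 := by
        intro w hw
        by_contra hne
        refine hno ((bf J₂ w w₀)⁻¹ • w) ?_ ?_
        · rw [bf_smul_left, hw, mul_zero]
        · rw [bf_smul_left, inv_mul_cancel₀ hne]
      obtain ⟨y', hy'⟩ := exists_bf_eq_one J₂ hT.det₂ e he
      have het : bf J₂ (-y') e = 1 := by
        rw [bf_neg_left, bf_swap J₂ hT.alt₂ y' e, hy']; ring
      apply hcase (bf J₂ (-y') w₀)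
      by_contra hne
      have hx : w₀ - bf J₂ (-y') w₀ • e ≠ 0 := fun h => hne (sub_eq_zero.mp h)
      obtain ⟨x', hx'⟩ := exists_bf_eq_one J₂ hT.det₂ _ hx
      have h1 := hall (x' - bf J₂ x' e • (-y')) (by rw [bf_sub_left, bf_smul_left, het]; ring)
      rw [bf_sub_left, bf_smul_left] at h1
      rw [bf_swap J₂ hT.alt₂, bf_sub_right, bf_smul_right] at hx'
      have : (1 : F) = 0 := by linear_combination -hx' - h1
      exact one_ne_zero this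
    obtain ⟨κ, hκ1⟩ := h2 w1 hw1e
    have hκ : ∀ w' : Fin b → F, bf J₂ w' e = 0 → ∀ u : Fin a → F, ∃ u'' : Fin a → F,
        y.1 *ᵥ pt u w' = pt u w' + (κ * bf J₂ w' w₀) • pt u w₀ + pt u'' e := by
      intro w' hw'
      obtain ⟨c', hc'⟩ := h2 w' hw'
      have := hstar w' w1 hw' hw1e c' κ hc' hκ1
      rw [hw1, mul_one] at this
      rw [this]; exact hc'
    obtain ⟨T, hTM, hT1⟩ := hR.1 w₀ (-κ)
    have hzv : ∀ v, (y * T).1 *ᵥ v = y.1 *ᵥ (v + (-κ) • pt (cnt J₂ w₀ v) w₀) := by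
      intro v
      rw [show (y * T).1 = y.1 * T.1 from rfl, ← Matrix.mulVec_mulVec]
      have hT1' : T.1 = (1 : Matrix (Fin a) (Fin a) F) ⊗ₖ tv J₂ w₀ (-κ) := hT1
      rw [hT1', one_kron_tv_mulVec]
    have hzpt : ∀ u w, (y * T).1 *ᵥ pt u w
        = y.1 *ᵥ pt u w + (-κ * bf J₂ w w₀) • y.1 *ᵥ pt u w₀ := by
      intro u w
      rw [hzv, cnt_pt, Matrix.mulVec_add, Matrix.mulVec_smul, pt_smul_left, Matrix.mulVec_smul,
        smul_smul]
    have hzK : IsKron (y * T).1 := by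
      refine ry2b_core hT M hA1 (y * T) (M.mul_mem hy hTM) e he ?_ ?_ ?_
      · intro u
        rw [hzpt, hew₀, mul_zero, zero_smul, add_zero, hfix]
      · intro v
        have h1 : ((y * T).1 - 1) *ᵥ v = (y.1 - 1) *ᵥ (v + (-κ) • pt (cnt J₂ w₀ v) w₀)
            + (-κ) • pt (cnt J₂ w₀ v) w₀ := by
          rw [Matrix.sub_mulVec, hzv, Matrix.sub_mulVec, Matrix.one_mulVec, Matrix.one_mulVec]
          abel
        rw [h1, cnt_add, hcnt, cnt_smul, cnt_pt, hw₀, zero_smul, smul_zero, add_zero]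
      · intro w' hw' u
        obtain ⟨u'', hu''⟩ := hκ w' hw' u
        obtain ⟨u3, hu3⟩ := hκ w₀ hw₀ u
        rw [hT.alt₂ w₀, mul_zero, zero_smul, add_zero] at hu3
        refine ⟨u'' + (-κ * bf J₂ w' w₀) • u3, ?_⟩
        rw [hzpt, hu'', hu3, pt_add_left, pt_smul_left, smul_add, neg_mul, neg_smul]
        abel
    obtain ⟨A, B, hAB⟩ := hzK
    refine ⟨A, B * tv J₂ w₀ κ, ?_⟩
    have hT1' : T.1 = (1 : Matrix (Fin a) (Fin a) F) ⊗ₖ tv J₂ w₀ (-κ) := hT1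
    have hinv : T.1 * ((1 : Matrix (Fin a) (Fin a) F) ⊗ₖ tv J₂ w₀ κ) = 1 := by
      rw [hT1', ← Matrix.mul_kronecker_mul, Matrix.one_mul, tv_mul_tv J₂ hT.alt₂, neg_add_cancel,
        tv_zero, Matrix.one_kronecker_one]
    calc y.1 = y.1 * (T.1 * ((1 : Matrix (Fin a) (Fin a) F) ⊗ₖ tv J₂ w₀ κ)) := by
          rw [hinv, Matrix.mul_one]
      _ = (y * T).1 * ((1 : Matrix (Fin a) (Fin a) F) ⊗ₖ tv J₂ w₀ κ) := by
          rw [← Matrix.mul_assoc]; rfl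
      _ = A ⊗ₖ (B * tv J₂ w₀ κ) := by
          rw [hAB, ← Matrix.mul_kronecker_mul, Matrix.mul_one]

end Cfsg.Agent.Helper33.T5RY2B
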