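import Mathlib
import Cfsg.Agent.Helper97.TNDefs

/-!
# Helper33: PIECE IOM2 of CALL S2413 (helper97): core, with the statement of TVO as a hypothesis.
-/

set_option autoImplicit false

universe u

namespace Cfsg.Agent.Helper33

open Cfsg Matrix Cfsg.Agent.Helper45 Cfsg.Agent.Helper98 Cfsg.Agent.Helper97.TM
  Cfsg.Agent.Helper97.TN

variable {m : ℕ} {F : Type u} [Field F]

/-- IOM2, with TVO (for `m = 2`) as a hypothesis. -/
theorem tn_iotaO_w2_mem_omega_core [Fintype F] (n : ℕ) (hn : n = 1)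
    (htv : ∀ (T : Matrix.SpecialLinearGroup (Fin (n + 1)) F) (i j : Fin (n + 1))
      (hij : i ≠ j) (c : F)
      (_ : (T : Matrix (Fin (n + 1)) (Fin (n + 1)) F) = Matrix.transvection i j c),
      iotaO (n + 1) F T = eichO (QO (n + 1) F) (eO (n + 1) F i) (c • fO (n + 1) F j) (QO_eO i)
        (polar_eO_smul_fO i j hij c))
    (hnd : (QuadraticMap.polarBilin (QO (n + 1) F)).Nondegenerate)
    (w : Matrix.SpecialLinearGroup (Fin (n + 1)) F)
    (hw : (w : Matrix (Fin (n + 1)) (Fin (n + 1)) F) =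
      Matrix.of (fun i j => if j.val = i.val + 1 then 1 else
        if i.val = n ∧ j.val = 0 then (-1) ^ n else 0)) :
    iotaO (n + 1) F w ∈ Omega F ⇑(QO (n + 1) F) := by
  subst hn
  have h01 : (0 : Fin (1 + 1)) ≠ 1 := by decide
  have h10 : (1 : Fin (1 + 1)) ≠ 0 := by decide
  have hcard : 5 ≤ Fintype.card (Unit ⊕ (Fin (1 + 1) ⊕ Fin (1 + 1))) := by simp
  obtain ⟨T₁, hT₁⟩ : ∃ T : Matrix.SpecialLinearGroup (Fin (1 + 1)) F,
      (T : Matrix (Fin (1 + 1)) (Fin (1 + 1)) F) = Matrix.transvection 0 1 1 :=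
    ⟨⟨Matrix.transvection 0 1 1, Matrix.det_transvection_of_ne _ _ h01 _⟩, rfl⟩
  obtain ⟨T₂, hT₂⟩ : ∃ T : Matrix.SpecialLinearGroup (Fin (1 + 1)) F,
      (T : Matrix (Fin (1 + 1)) (Fin (1 + 1)) F) = Matrix.transvection 1 0 (-1) :=
    ⟨⟨Matrix.transvection 1 0 (-1), Matrix.det_transvection_of_ne _ _ h10 _⟩, rfl⟩
  have hwT : w = T₁ * T₂ * T₁ := by
    apply Subtype.ext
    show (w : Matrix (Fin (1 + 1)) (Fin (1 + 1)) F)
      = (T₁ : Matrix (Fin (1 + 1)) (Fin (1 + 1)) F) * (T₂ : Matrix (Fin (1 + 1)) (Fin (1 + 1)) F)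
        * (T₁ : Matrix (Fin (1 + 1)) (Fin (1 + 1)) F)
    rw [hw, hT₁, hT₂]
    ext i j
    fin_cases i <;> fin_cases j <;>
      simp [Matrix.transvection, Matrix.mul_apply, Fin.sum_univ_two, Matrix.single_apply,
        Matrix.one_apply]
  have hm1 : iotaO (1 + 1) F T₁ ∈ Omega F ⇑(QO (1 + 1) F) := by
    rw [htv T₁ 0 1 h01 1 hT₁]
    exact eichO_mem_omega (QO (1 + 1) F) hnd hcard _ _ _ _
  have hm2 : iotaO (1 + 1) F T₂ ∈ Omega F ⇑(QO (1 + 1) F) := by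
    rw [htv T₂ 1 0 h10 (-1) hT₂]
    exact eichO_mem_omega (QO (1 + 1) F) hnd hcard _ _ _ _
  rw [hwT, map_mul, map_mul]
  exact mul_mem (mul_mem hm1 hm2) hm1

end Cfsg.Agent.Helper33
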