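import Mathlib
import Cfsg.Agent.Helper97.TNDefs
import Cfsg.Agent.Helper24.TNTVO
import Cfsg.Agent.Helper33.TNIOM2Core

/-!
# Helper33: PIECE IOM2 of CALL S2413 (helper97).
-/

set_option autoImplicit false

universe u

namespace Cfsg.Agent.Helper33

open Cfsg Matrix Cfsg.Agent.Helper45 Cfsg.Agent.Helper98 Cfsg.Agent.Helper97.TM
  Cfsg.Agent.Helper97.TN

variable {m : ℕ} {F : Type u} [Field F]

/-- IOM2 -/
theorem tn_iotaO_w2_mem_omega [Fintype F] (n : ℕ) (hn : n = 1)
    (hnd : (QuadraticMap.polarBilin (QO (n + 1) F)).Nondegenerate)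
    (w : Matrix.SpecialLinearGroup (Fin (n + 1)) F)
    (hw : (w : Matrix (Fin (n + 1)) (Fin (n + 1)) F) =
      Matrix.of (fun i j => if j.val = i.val + 1 then 1 else
        if i.val = n ∧ j.val = 0 then (-1) ^ n else 0)) :
    iotaO (n + 1) F w ∈ Omega F ⇑(QO (n + 1) F) :=
  tn_iotaO_w2_mem_omega_core n hn
    (fun T i j hij c hT => Cfsg.Agent.Helper24.tn_iotaO_transvection T i j hij c hT) hnd w hw

end Cfsg.Agent.Helper33
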