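import Mathlib
import Cfsg.Agent.Helper97.TNDefs

/-!
# Helper33: PIECE WF of CALL S2413 (helper97).
-/

set_option autoImplicit false

universe u

namespace Cfsg.Agent.Helper33

open Cfsg Matrix Cfsg.Agent.Helper45 Cfsg.Agent.Helper98 Cfsg.Agent.Helper97.TM
  Cfsg.Agent.Helper97.TN

variable {m : ℕ} {F : Type u} [Field F]

/-- The inverse transpose applied to `Aᵀ u` gives back `u`. -/
theorem tn_inv_transpose_mulVec (A : Matrix.SpecialLinearGroup (Fin m) F) (u : Fin m → F) :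
    ((A⁻¹ : Matrix.SpecialLinearGroup (Fin m) F) : Matrix (Fin m) (Fin m) F)ᵀ *ᵥ
      ((A : Matrix (Fin m) (Fin m) F)ᵀ *ᵥ u) = u := by
  rw [Matrix.mulVec_mulVec, ← Matrix.transpose_mul, ← Matrix.SpecialLinearGroup.coe_mul,
    mul_inv_cancel, Matrix.SpecialLinearGroup.coe_one, Matrix.transpose_one, Matrix.one_mulVec]

/-- WF (1/2) -/
theorem tn_w_f (n : ℕ) (w : Matrix.SpecialLinearGroup (Fin (n + 1)) F)
    (hw : (w : Matrix (Fin (n + 1)) (Fin (n + 1)) F) =
      Matrix.of (fun i j => if j.val = i.val + 1 then 1 else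
        if i.val = n ∧ j.val = 0 then (-1) ^ n else 0))
    (c d : Fin (n + 1)) (h : c.val = d.val + 1) :
    mv ⇑(QO (n + 1) F) (iotaO (n + 1) F w) (fO (n + 1) F c) = fO (n + 1) F d := by
  rw [mv_iotaO]
  have h1 : (fO (n + 1) F c) ∘ Sum.inr ∘ Sum.inl = 0 := by
    ext j
    simp
  have h3 : (fO (n + 1) F c) ∘ Sum.inr ∘ Sum.inr = Pi.single c 1 := by
    ext j
    simp [Pi.single_apply]
  have hrow : (w : Matrix (Fin (n + 1)) (Fin (n + 1)) F)ᵀ *ᵥ Pi.single d 1 = Pi.single c 1 := by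
    rw [hw]
    ext j
    rw [Matrix.mulVec_single_one]
    simp only [Matrix.col_apply, Matrix.transpose_apply, Matrix.of_apply, Pi.single_apply]
    have hd : d.val ≠ n := by
      have := c.isLt
      omega
    by_cases hj : j = c
    · subst hj
      simp [h]
    · have hj' : j.val ≠ d.val + 1 := fun hh => hj (Fin.ext (hh.trans h.symm))
      simp [hj', hj, hd]
  have key : ((w⁻¹ : Matrix.SpecialLinearGroup (Fin (n + 1)) F) :
      Matrix (Fin (n + 1)) (Fin (n + 1)) F)ᵀ *ᵥ Pi.single c 1 = Pi.single d 1 := by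
    rw [← hrow]
    exact tn_inv_transpose_mulVec w _
  rw [h1, h3, Matrix.mulVec_zero, key]
  funext t
  rcases t with u | j | j
  · simp [fO]
  · simp [fO]
  · simp [fO, Pi.single_apply]

/-- WF (2/2) -/
theorem tn_w_f0 (n : ℕ) (w : Matrix.SpecialLinearGroup (Fin (n + 1)) F)
    (hw : (w : Matrix (Fin (n + 1)) (Fin (n + 1)) F) =
      Matrix.of (fun i j => if j.val = i.val + 1 then 1 else
        if i.val = n ∧ j.val = 0 then (-1) ^ n else 0)) :
    mv ⇑(QO (n + 1) F) (iotaO (n + 1) F w) (fO (n + 1) F 0) =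
      ((-1 : F) ^ n) • fO (n + 1) F (Fin.last n) := by
  rw [mv_iotaO]
  have h1 : (fO (n + 1) F 0) ∘ Sum.inr ∘ Sum.inl = 0 := by
    ext j
    simp
  have h3 : (fO (n + 1) F 0) ∘ Sum.inr ∘ Sum.inr = Pi.single 0 1 := by
    ext j
    simp [Pi.single_apply]
  have hrow : (w : Matrix (Fin (n + 1)) (Fin (n + 1)) F)ᵀ *ᵥ
      (((-1 : F) ^ n) • Pi.single (Fin.last n) 1) = Pi.single 0 1 := by
    rw [hw, Matrix.mulVec_smul, Matrix.mulVec_single_one]
    ext j
    simp only [Pi.smul_apply, Matrix.col_apply, Matrix.transpose_apply, Matrix.of_apply,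
      Fin.val_last, smul_eq_mul, Pi.single_apply]
    have hj1 : j.val ≠ n + 1 := by
      have := j.isLt
      omega
    by_cases hj : j = 0
    · subst hj
      simp [← mul_pow]
    · have hj' : j.val ≠ 0 := fun hh => hj (Fin.ext hh)
      simp [hj1, hj', hj]
  have key : ((w⁻¹ : Matrix.SpecialLinearGroup (Fin (n + 1)) F) :
      Matrix (Fin (n + 1)) (Fin (n + 1)) F)ᵀ *ᵥ Pi.single 0 1
        = ((-1 : F) ^ n) • Pi.single (Fin.last n) 1 := by
    rw [← hrow]
    exact tn_inv_transpose_mulVec w _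
  rw [h1, h3, Matrix.mulVec_zero, key]
  funext t
  rcases t with u | j | j
  · simp [fO]
  · simp [fO]
  · simp [fO, Pi.single_apply]

end Cfsg.Agent.Helper33
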