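import Mathlib
import Cfsg.Prelude.Def_GeometricClasses
import Cfsg.Prelude.Def_Classical
import Cfsg.Agent.Helper58.TSDefs
import Cfsg.Agent.Helper43.OTDefs
import Cfsg.Agent.Helper33.OHOSINGCNT

set_option autoImplicit false

/-!
# Sub-CALL TSEG piece SINGCNT (helper33): `eg_sing_count` = `o_sing_count` of CALL S5992.
-/

namespace Cfsg.Agent.Helper33.TSEG

open Module Polynomial Cfsg Cfsg.Geo Cfsg.Agent.Helper58.TS Cfsg.Agent.Helper90.HT
  Cfsg.Agent.Helper43.OT

section quad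

variable {ι : Type} [Fintype ι] [DecidableEq ι] {F : Type*} [Field F] [Fintype F]

theorem eg_sing_count (Q : (ι → F) → F) (hQ : IsNondegenerateQuadraticForm Q)
    (N : Submodule F (ι → F)) (hN : IsNondegenerateOn (QuadraticMap.polar Q) N) (l : ℕ)
    (hl : 1 ≤ l) (hdim : finrank F N = 2 * l) :
    (IsPlusTypeOn Q N → Fintype.card F * Nat.card {v : ι → F // v ∈ N ∧ Q v = 0} =
      Fintype.card F ^ (l + 1) + (Fintype.card F ^ l - 1) * Fintype.card F ^ l) ∧
    (¬ IsPlusTypeOn Q N → Fintype.card F * Nat.card {v : ι → F // v ∈ N ∧ Q v = 0} =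
      Fintype.card F ^ l +
        Fintype.card F ^ 2 * (Fintype.card F ^ (l - 1) - 1) * Fintype.card F ^ (l - 1)) :=
  Cfsg.Agent.Helper33.OH5992.o_sing_count Q hQ N hN l hl hdim

end quad

end Cfsg.Agent.Helper33.TSEG
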