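-- helper33 library: piece W of the S5835 call: an element of the standard tensor-wreath group with
-- two factors of dimension at least 3 whose "residual space" has dimension at most 2 has scalar
-- square.
import Cfsg.Agent.Helper96.TensorPower

set_option autoImplicit false
open Cfsg Cfsg.Geo Matrix

namespace Cfsg.Agent.Helper33

open Cfsg.Agent.Helper96

variable {F : Type*} [Field F]

/-! ### Pure vectors of the tensor square -/

/-- The pure vector `x ⊗ y`. -/
def pv2 {m : ℕ} (x y : Fin m → F) : (Fin 2 → Fin m) → F := fun f => x (f 0) * y (f 1)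

theorem pv2_apply {m : ℕ} (x y : Fin m → F) (f : Fin 2 → Fin m) : pv2 x y f = x (f 0) * y (f 1) :=
  rfl

/-- `y ↦ x ⊗ y` as a linear map. -/
def pv2R {m : ℕ} (x : Fin m → F) : (Fin m → F) →ₗ[F] ((Fin 2 → Fin m) → F) where
  toFun := fun y => pv2 x y
  map_add' := by
    intro y y'
    funext f
    simp only [pv2_apply, Pi.add_apply]
    ring
  map_smul' := by
    intro c y
    funext f
    simp only [pv2_apply, Pi.smul_apply, smul_eq_mul, RingHom.id_apply]
    ring

/-- `x ↦ x ⊗ y` as a linear map. -/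
def pv2L {m : ℕ} (y : Fin m → F) : (Fin m → F) →ₗ[F] ((Fin 2 → Fin m) → F) where
  toFun := fun x => pv2 x y
  map_add' := by
    intro x x'
    funext f
    simp only [pv2_apply, Pi.add_apply]
    ring
  map_smul' := by
    intro c x
    funext f
    simp only [pv2_apply, Pi.smul_apply, smul_eq_mul, RingHom.id_apply]
    ring

theorem ptM_two_mulVec {m : ℕ} (a b : Matrix (Fin m) (Fin m) F) (x y : Fin m → F) :
    ptM ![a, b] *ᵥ pv2 x y = pv2 (a *ᵥ x) (b *ᵥ y) := by
  funext f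
  simp only [pv2_apply, Matrix.mulVec, dotProduct]
  rw [Finset.sum_mul_sum, ← Fintype.sum_prod_type',
    ← (piFinTwoEquiv (fun _ => Fin m)).symm.sum_comp]
  apply Finset.sum_congr rfl
  intro p _
  rw [ptM_apply, Fin.prod_univ_two]
  simp only [piFinTwoEquiv_symm_apply, Fin.cons_zero, Fin.cons_one, Matrix.cons_val_zero,
    Matrix.cons_val_one]
  ring

theorem pv2_eq_left {m : ℕ} {x x' y y' : Fin m → F} (h : pv2 x' y' = pv2 x y) (hx : x ≠ 0)
    (hy : y ≠ 0) : ∃ c : F, x' = c • x := by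
  obtain ⟨i₀, hi₀⟩ := Function.ne_iff.mp hx
  obtain ⟨j₀, hj₀⟩ := Function.ne_iff.mp hy
  have h1 : ∀ i, x' i * y' j₀ = x i * y j₀ := fun i => congrFun h ![i, j₀]
  have hy' : y' j₀ ≠ 0 := by
    intro h0
    have h2 := h1 i₀
    rw [h0, mul_zero] at h2
    exact mul_ne_zero hi₀ hj₀ h2.symm
  refine ⟨y j₀ / y' j₀, ?_⟩
  funext i
  have h2 := h1 i
  simp only [Pi.smul_apply, smul_eq_mul]
  field_simp
  linear_combination h2

theorem pv2_eq_right {m : ℕ} {x x' y y' : Fin m → F} (h : pv2 x' y' = pv2 x y) (hx : x ≠ 0)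
    (hy : y ≠ 0) : ∃ c : F, y' = c • y := by
  obtain ⟨i₀, hi₀⟩ := Function.ne_iff.mp hx
  obtain ⟨j₀, hj₀⟩ := Function.ne_iff.mp hy
  have h1 : ∀ j, x' i₀ * y' j = x i₀ * y j := fun j => congrFun h ![i₀, j]
  have hx' : x' i₀ ≠ 0 := by
    intro h0
    have h2 := h1 j₀
    rw [h0, zero_mul] at h2
    exact mul_ne_zero hi₀ hj₀ h2.symm
  refine ⟨x i₀ / x' i₀, ?_⟩
  funext j
  have h2 := h1 j
  simp only [Pi.smul_apply, smul_eq_mul]
  field_simp
  linear_combination h2

/-- A matrix having every vector as an eigenvector is a scalar (copy of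
`Helper96.Sy.scalar_of_eigen`, to keep the imports light). -/
theorem mat_scalar_of_eigen {ι : Type} [Fintype ι] [DecidableEq ι] (k : Matrix ι ι F)
    (h : ∀ u : ι → F, ∃ c : F, k *ᵥ u = c • u) : ∃ c : F, k = c • (1 : Matrix ι ι F) := by
  classical
  rcases isEmpty_or_nonempty ι with hι | ⟨⟨i₀⟩⟩
  · exact ⟨0, by ext i; exact (hι.false i).elim⟩
  have hcol : ∀ i, ∃ c : F, ∀ j, k j i = if j = i then c else 0 := by
    intro i
    obtain ⟨c, hc⟩ := h (Pi.single i 1)
    refine ⟨c, fun j => ?_⟩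
    have := congrFun hc j
    rw [Matrix.mulVec_single_one] at this
    simpa [Pi.single_apply] using this
  choose c hc using hcol
  have hceq : ∀ i j, c i = c j := by
    intro i j
    by_cases hij : i = j
    · rw [hij]
    obtain ⟨d, hd⟩ := h (Pi.single i 1 + Pi.single j 1)
    have h1 := congrFun hd i
    have h2 := congrFun hd j
    rw [Matrix.mulVec_add, Matrix.mulVec_single_one, Matrix.mulVec_single_one] at h1 h2
    simp only [Pi.add_apply, Matrix.col_apply, Pi.smul_apply, smul_eq_mul, Pi.single_apply] at h1 h2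
    rw [hc i i, hc j i] at h1
    rw [hc i j, hc j j] at h2
    simp [hij, Ne.symm hij] at h1 h2
    rw [h1, h2]
  refine ⟨c i₀, ?_⟩
  ext j i
  rw [hc i j, Matrix.smul_apply, Matrix.one_apply, hceq i i₀]
  simp

/-- **Key lemma.**  A pure tensor `a ⊗ b` on the tensor square of a space of dimension at least 3
whose residual space has dimension at most 2 is a scalar. -/
theorem ptM_two_scalar {m : ℕ} (hm : 3 ≤ m) (a b : Matrix (Fin m) (Fin m) F)
    (U : Submodule F ((Fin 2 → Fin m) → F)) (hU : Module.finrank F U ≤ 2)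
    (h : ∀ w, ptM ![a, b] *ᵥ w - w ∈ U) :
    ∃ c : F, ptM ![a, b] = c • (1 : Matrix (Fin 2 → Fin m) (Fin 2 → Fin m) F) := by
  classical
  have ha : ∀ x : Fin m → F, ∃ c : F, a *ᵥ x = c • x := by
    intro x
    by_contra hcon
    have hx : x ≠ 0 := by
      rintro rfl
      exact hcon ⟨0, by simp⟩
    obtain ⟨L₀, hL₀⟩ : ∃ L₀ : (Fin m → F) →ₗ[F] ((Fin 2 → Fin m) → F),
        ∀ y, L₀ y = ptM ![a, b] *ᵥ pv2 x y - pv2 x y :=
      ⟨(Matrix.toLin' (ptM ![a, b]) - LinearMap.id) ∘ₗ pv2R x, fun y => by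
        simp only [LinearMap.comp_apply, LinearMap.sub_apply, Matrix.toLin'_apply,
          LinearMap.id_apply]
        rfl⟩
    have hLU : ∀ y, L₀ y ∈ U := fun y => by rw [hL₀]; exact h _
    have hinj : Function.Injective (L₀.codRestrict U hLU) := by
      rw [injective_iff_map_eq_zero]
      intro y hy
      by_contra hy0
      have h1 : L₀ y = 0 := congrArg Subtype.val hy
      rw [hL₀, sub_eq_zero, ptM_two_mulVec] at h1
      exact hcon (pv2_eq_left h1 hx hy0)
    have h2 := LinearMap.finrank_le_finrank_of_injective hinj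
    rw [Module.finrank_fin_fun] at h2
    omega
  have hb : ∀ y : Fin m → F, ∃ c : F, b *ᵥ y = c • y := by
    intro y
    by_contra hcon
    have hy : y ≠ 0 := by
      rintro rfl
      exact hcon ⟨0, by simp⟩
    obtain ⟨L₀, hL₀⟩ : ∃ L₀ : (Fin m → F) →ₗ[F] ((Fin 2 → Fin m) → F),
        ∀ x, L₀ x = ptM ![a, b] *ᵥ pv2 x y - pv2 x y :=
      ⟨(Matrix.toLin' (ptM ![a, b]) - LinearMap.id) ∘ₗ pv2L y, fun x => by
        simp only [LinearMap.comp_apply, LinearMap.sub_apply, Matrix.toLin'_apply,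
          LinearMap.id_apply]
        rfl⟩
    have hLU : ∀ x, L₀ x ∈ U := fun x => by rw [hL₀]; exact h _
    have hinj : Function.Injective (L₀.codRestrict U hLU) := by
      rw [injective_iff_map_eq_zero]
      intro x hx
      by_contra hx0
      have h1 : L₀ x = 0 := congrArg Subtype.val hx
      rw [hL₀, sub_eq_zero, ptM_two_mulVec] at h1
      exact hcon (pv2_eq_right h1 hx0 hy)
    have h2 := LinearMap.finrank_le_finrank_of_injective hinj
    rw [Module.finrank_fin_fun] at h2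
    omega
  obtain ⟨α, hα⟩ := mat_scalar_of_eigen a ha
  obtain ⟨β, hβ⟩ := mat_scalar_of_eigen b hb
  refine ⟨α * β, ?_⟩
  ext f f'
  rw [ptM_apply, Fin.prod_univ_two]
  simp only [Matrix.cons_val_zero, Matrix.cons_val_one, hα, hβ, Matrix.smul_apply, Matrix.one_apply,
    smul_eq_mul]
  by_cases h0 : f 0 = f' 0
  · by_cases h1 : f 1 = f' 1
    · have hff : f = f' := by
        funext i
        fin_cases i
        · exact h0
        · exact h1
      rw [if_pos h0, if_pos h1, if_pos hff]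
      ring
    · have hff : f ≠ f' := fun hff => h1 (congrFun hff 1)
      rw [if_pos h0, if_neg h1, if_neg hff]
      ring
  · have hff : f ≠ f' := fun hff => h0 (congrFun hff 0)
    rw [if_neg h0, if_neg hff]
    ring

/-! ### The normal form of the elements of the standard tensor-wreath group with two factors -/

theorem ptM_two_mul {m : ℕ} (a b c d : Matrix (Fin m) (Fin m) F) :
    ptM ![a, b] * ptM ![c, d] = ptM ![a * c, b * d] := by
  rw [ptM_mul]
  congr 1
  funext i
  fin_cases i <;> rfl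

theorem ptM_two_one {m : ℕ} :
    ptM ![(1 : Matrix (Fin m) (Fin m) F), 1] = 1 := by
  rw [← ptM_one (F := F) (t := 2) (d := m)]
  congr 1
  funext i
  fin_cases i <;> rfl

theorem fpM_swap_mul_ptM {m : ℕ} (a b : Matrix (Fin m) (Fin m) F) :
    fpM F m (Equiv.swap 0 1) * ptM ![a, b] = ptM ![b, a] * fpM F m (Equiv.swap 0 1) := by
  rw [fpM_mul_ptM]
  congr 2
  funext i
  fin_cases i <;> rfl

theorem fpM_swap_mul_self {m : ℕ} :
    fpM F m (Equiv.swap (0 : Fin 2) 1) * fpM F m (Equiv.swap (0 : Fin 2) 1) = 1 := by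
  have h := fpM_mul_symm (F := F) (d := m) (Equiv.swap (0 : Fin 2) 1)
  rwa [Equiv.symm_swap] at h

theorem fpM_one_eq {m : ℕ} : fpM F m (1 : Equiv.Perm (Fin 2)) = 1 := by
  classical
  ext x y
  rw [fpM_apply, Matrix.one_apply]
  have h : (y = x ∘ ⇑(1 : Equiv.Perm (Fin 2))) ↔ x = y := by
    constructor
    · intro h
      rw [h]
      rfl
    · intro h
      rw [← h]
      rfl
  simp only [h]

/-- Every element of the standard tensor-wreath group with two factors is a pure tensor of two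
invertible matrices, possibly followed by the swap of the factors. -/
theorem std_two_nf {m : ℕ} (g : GL (Fin 2 → Fin m) F) (hg : g ∈ tensorWreathStandard m 2 F) :
    ∃ a b a' b' : Matrix (Fin m) (Fin m) F, a * a' = 1 ∧ b * b' = 1 ∧
      ((g : Matrix (Fin 2 → Fin m) (Fin 2 → Fin m) F) = ptM ![a, b] ∨
       (g : Matrix (Fin 2 → Fin m) (Fin 2 → Fin m) F)
        = ptM ![a, b] * fpM F m (Equiv.swap 0 1)) := by
  classical
  induction hg using Subgroup.closure_induction with
  | mem g hg =>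
    rcases hg with ⟨gs, hgs⟩ | ⟨σ, hσ⟩
    · refine ⟨gs 0, gs 1, ((gs 0)⁻¹ : GL (Fin m) F), ((gs 1)⁻¹ : GL (Fin m) F), Units.mul_inv _,
        Units.mul_inv _, Or.inl ?_⟩
      ext x y
      rw [hgs, ptM_apply, Fin.prod_univ_two, Fin.prod_univ_two]
      rfl
    · have hval : (g : Matrix (Fin 2 → Fin m) (Fin 2 → Fin m) F) = fpM F m σ := by
        ext x y
        rw [hσ, fpM_apply]
      have hdec : ∀ τ : Equiv.Perm (Fin 2), τ = 1 ∨ τ = Equiv.swap 0 1 := by decide
      rcases hdec σ with rfl | rfl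
      · refine ⟨1, 1, 1, 1, mul_one 1, mul_one 1, Or.inl ?_⟩
        rw [hval, fpM_one_eq, ptM_two_one]
      · refine ⟨1, 1, 1, 1, mul_one 1, mul_one 1, Or.inr ?_⟩
        rw [hval, ptM_two_one, Matrix.one_mul]
  | one =>
    refine ⟨1, 1, 1, 1, mul_one 1, mul_one 1, Or.inl ?_⟩
    rw [Units.val_one, ptM_two_one]
  | mul x y _ _ hx hy =>
    obtain ⟨a, b, a', b', ha, hb, h⟩ := hx
    obtain ⟨c, d, c', d', hc, hd, h'⟩ := hy
    have e1 : ∀ p q p' q' : Matrix (Fin m) (Fin m) F, p * p' = 1 → q * q' = 1 →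
        (p * q) * (q' * p') = 1 := by
      intro p q p' q' hp hq
      rw [Matrix.mul_assoc, ← Matrix.mul_assoc q, hq, Matrix.one_mul, hp]
    rcases h with h | h <;> rcases h' with h' | h'
    · refine ⟨a * c, b * d, c' * a', d' * b', e1 _ _ _ _ ha hc, e1 _ _ _ _ hb hd, Or.inl ?_⟩
      rw [Units.val_mul, h, h', ptM_two_mul]
    · refine ⟨a * c, b * d, c' * a', d' * b', e1 _ _ _ _ ha hc, e1 _ _ _ _ hb hd, Or.inr ?_⟩
      rw [Units.val_mul, h, h', ← Matrix.mul_assoc, ptM_two_mul]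
    · refine ⟨a * d, b * c, d' * a', c' * b', e1 _ _ _ _ ha hd, e1 _ _ _ _ hb hc, Or.inr ?_⟩
      rw [Units.val_mul, h, h', Matrix.mul_assoc, fpM_swap_mul_ptM, ← Matrix.mul_assoc, ptM_two_mul]
    · refine ⟨a * d, b * c, d' * a', c' * b', e1 _ _ _ _ ha hd, e1 _ _ _ _ hb hc, Or.inl ?_⟩
      rw [Units.val_mul, h, h', Matrix.mul_assoc, ← Matrix.mul_assoc (fpM F m (Equiv.swap 0 1)),
        fpM_swap_mul_ptM, Matrix.mul_assoc, fpM_swap_mul_self, Matrix.mul_one, ptM_two_mul]
  | inv x _ hx =>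
    obtain ⟨a, b, a', b', ha, hb, h | h⟩ := hx
    · refine ⟨a', b', a, b, mul_eq_one_comm.mp ha, mul_eq_one_comm.mp hb, Or.inl ?_⟩
      apply Units.inv_eq_of_mul_eq_one_right
      rw [h, ptM_two_mul, ha, hb, ptM_two_one]
    · refine ⟨b', a', b, a, mul_eq_one_comm.mp hb, mul_eq_one_comm.mp ha, Or.inr ?_⟩
      apply Units.inv_eq_of_mul_eq_one_right
      rw [h, Matrix.mul_assoc, ← Matrix.mul_assoc (fpM F m (Equiv.swap 0 1)), fpM_swap_mul_ptM,
        Matrix.mul_assoc, fpM_swap_mul_self, Matrix.mul_one, ptM_two_mul, ha, hb, ptM_two_one]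

/-- **Piece W of the S5835 call.** -/
theorem std_two_sq_scalar {F : Type*} [Field F] {m : ℕ} (hm : 3 ≤ m)
    (g : GL (Fin 2 → Fin m) F) (hg : g ∈ tensorWreathStandard m 2 F)
    (U : Submodule F ((Fin 2 → Fin m) → F)) (hU : Module.finrank F U ≤ 2)
    (hgU : ∀ x, (g : Matrix (Fin 2 → Fin m) (Fin 2 → Fin m) F) *ᵥ x - x ∈ U) :
    ∃ c : F, ((g * g : GL (Fin 2 → Fin m) F) : Matrix (Fin 2 → Fin m) (Fin 2 → Fin m) F) =
      c • (1 : Matrix (Fin 2 → Fin m) (Fin 2 → Fin m) F) := by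
  classical
  obtain ⟨a, b, a', b', -, -, h | h⟩ := std_two_nf g hg
  · obtain ⟨c, hc⟩ := ptM_two_scalar hm a b U hU (by rw [← h]; exact hgU)
    refine ⟨c * c, ?_⟩
    rw [Units.val_mul, h, hc, Matrix.smul_mul, Matrix.one_mul, smul_smul]
  · have hgg : ((g * g : GL (Fin 2 → Fin m) F) : Matrix (Fin 2 → Fin m) (Fin 2 → Fin m) F)
        = ptM ![a * b, b * a] := by
      rw [Units.val_mul, h, Matrix.mul_assoc, ← Matrix.mul_assoc (fpM F m (Equiv.swap 0 1)),
        fpM_swap_mul_ptM, Matrix.mul_assoc, fpM_swap_mul_self, Matrix.mul_one, ptM_two_mul]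
    obtain ⟨U', hU'⟩ : ∃ U' : Submodule F ((Fin 2 → Fin m) → F),
        U' = U.map (Matrix.toLin' ((g : Matrix (Fin 2 → Fin m) (Fin 2 → Fin m) F) + 1)) :=
      ⟨_, rfl⟩
    have hU'rank : Module.finrank F U' ≤ 2 := by
      rw [hU']
      exact (Submodule.finrank_map_le _ _).trans hU
    have hmem : ∀ w, ptM ![a * b, b * a] *ᵥ w - w ∈ U' := by
      intro w
      rw [← hgg, hU']
      refine ⟨_, hgU w, ?_⟩
      rw [Matrix.toLin'_apply, Units.val_mul, Matrix.add_mulVec, Matrix.one_mulVec,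
        Matrix.mulVec_sub, ← Matrix.mulVec_mulVec]
      abel
    obtain ⟨c, hc⟩ := ptM_two_scalar hm _ _ U' hU'rank hmem
    exact ⟨c, by rw [hgg, hc]⟩

end Cfsg.Agent.Helper33
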