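import Mathlib
import Cfsg.Prelude.Def_GeometricClasses
import Cfsg.Agent.Helper90.UFRDefs
import Cfsg.Agent.Helper80.SFRCount

/-!
# Helper33: PIECE BADE4U of CALL S5982 (helper90): core, with the statement of NECU as a
hypothesis.  `diag(ζ, ζ, ζ⁻², 1, …, 1)` is not conjugate into the unitary similarity group.
-/

set_option autoImplicit false
set_option linter.unusedVariables false

namespace Cfsg.Agent.Helper33

open Module Polynomial Cfsg.Agent.Helper90.UFR

section fin
variable {F : Type*} [Field F] [Fintype F]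

theorem bad_three_u_core (q₀ : ℕ) (hq : Fintype.card F = q₀ ^ 2) (r : ℕ) [Fact r.Prime]
    (hr2 : r ≠ 2) (hr : r ∣ q₀ - 1) (n : ℕ) (hn : 6 ≤ n) (hgap : ¬ (n = 6 ∧ r = 3))
    (f : (Fin n → F) → (Fin n → F) → F) (hf : Cfsg.Geo.IsUnitaryFormPow q₀ f)
    (hnec : ∀ (x : GL (Fin n) F) (d : Fin n → F),
      (x : Matrix (Fin n) (Fin n) F) = Matrix.diagonal d → IsConjU f x →
      ∃ c : F, c ≠ 0 ∧ (Finset.univ.val.map fun i : Fin n => (d i) ^ q₀)
        = Finset.univ.val.map fun i : Fin n => c * (d i)⁻¹) : IsBadU f r := by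
  classical
  have hrp : r.Prime := Fact.out
  have hq₀ : 2 ≤ q₀ := by
    by_contra hlt
    have h1 : 1 < Fintype.card F := Fintype.one_lt_card
    have h2 : q₀ ≤ 1 := by omega
    have h3 : q₀ ^ 2 ≤ 1 := by
      calc q₀ ^ 2 ≤ 1 ^ 2 := Nat.pow_le_pow_left h2 2
        _ = 1 := one_pow 2
    omega
  have hr' : r ∣ Fintype.card F - 1 := by
    rw [hq]
    have h1 : q₀ ^ 2 - 1 = (q₀ - 1) * (q₀ + 1) := by
      obtain ⟨k, rfl⟩ : ∃ k, q₀ = k + 1 := ⟨q₀ - 1, by omega⟩
      have : (k + 1) ^ 2 = k * (k + 1 + 1) + 1 := by ring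
      rw [this]
      simp
    rw [h1]
    exact Dvd.dvd.mul_right hr _
  obtain ⟨ζ, hζr, hζ1⟩ := Cfsg.Agent.Helper80.SFRCount.sfr_exists_zeta (F := F) r hr'
  have hζ0 : ζ ≠ 0 := by
    rintro rfl
    rw [zero_pow hrp.ne_zero] at hζr
    exact zero_ne_one hζr
  have hoζ : orderOf ζ = r := orderOf_eq_prime hζr hζ1
  have hζq : ζ ^ q₀ = ζ := by
    obtain ⟨k, hk⟩ := hr
    have h1 : q₀ = r * k + 1 := by omega
    rw [h1, pow_succ, pow_mul, hζr, one_pow, one_mul]
  have hζ2 : ζ ^ 2 ≠ 1 := by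
    intro h'
    have := orderOf_dvd_of_pow_eq_one h'
    rw [hoζ] at this
    exact hr2 ((Nat.prime_dvd_prime_iff_eq hrp Nat.prime_two).mp this)
  obtain ⟨i₁, hi₁⟩ : ∃ i : Fin n, i = ⟨0, by omega⟩ := ⟨_, rfl⟩
  obtain ⟨i₂, hi₂⟩ : ∃ i : Fin n, i = ⟨1, by omega⟩ := ⟨_, rfl⟩
  obtain ⟨i₃, hi₃⟩ : ∃ i : Fin n, i = ⟨2, by omega⟩ := ⟨_, rfl⟩
  obtain ⟨i₄, hi₄⟩ : ∃ i : Fin n, i = ⟨3, by omega⟩ := ⟨_, rfl⟩
  have h12 : i₁ ≠ i₂ := by
    rw [hi₁, hi₂]; intro h; have := congrArg Fin.val h; simp at this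
  have h13 : i₁ ≠ i₃ := by
    rw [hi₁, hi₃]; intro h; have := congrArg Fin.val h; simp at this
  have h23 : i₂ ≠ i₃ := by
    rw [hi₂, hi₃]; intro h; have := congrArg Fin.val h; simp at this
  have h41 : i₄ ≠ i₁ := by
    rw [hi₁, hi₄]; intro h; have := congrArg Fin.val h; simp at this
  have h42 : i₄ ≠ i₂ := by
    rw [hi₂, hi₄]; intro h; have := congrArg Fin.val h; simp at this
  have h43 : i₄ ≠ i₃ := by
    rw [hi₃, hi₄]; intro h; have := congrArg Fin.val h; simp at this
  obtain ⟨d, hd⟩ : ∃ d : Fin n → F, d = fun i => (if i = i₁ then ζ else 1) *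
      (if i = i₂ then ζ else 1) * (if i = i₃ then ζ⁻¹ ^ 2 else 1) := ⟨_, rfl⟩
  have hd1 : d i₁ = ζ := by
    rw [hd]; simp [h12, h13]
  have hd2 : d i₂ = ζ := by
    rw [hd]; simp [h12.symm, h23]
  have hd3 : d i₃ = ζ⁻¹ ^ 2 := by
    rw [hd]; simp [h13.symm, h23.symm]
  have hdo : ∀ i, i ≠ i₁ → i ≠ i₂ → i ≠ i₃ → d i = 1 := by
    intro i a1 a2 a3
    rw [hd]; simp [a1, a2, a3]
  have hdet : (Matrix.diagonal d).det = 1 := by
    rw [Matrix.det_diagonal, hd, Finset.prod_mul_distrib, Finset.prod_mul_distrib,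
      Finset.prod_ite_eq' Finset.univ i₁ (fun _ => ζ), Finset.prod_ite_eq' Finset.univ i₂ (fun _ => ζ),
      Finset.prod_ite_eq' Finset.univ i₃ (fun _ => ζ⁻¹ ^ 2)]
    simp only [Finset.mem_univ, if_true]
    field_simp
  obtain ⟨x, hx⟩ : ∃ x : GL (Fin n) F,
      (x : Matrix (Fin n) (Fin n) F) = Matrix.diagonal d :=
    ⟨Matrix.GeneralLinearGroup.mkOfDetNeZero (Matrix.diagonal d)
      (by rw [hdet]; exact one_ne_zero), rfl⟩
  refine ⟨x, ?_, ⟨1, ?_⟩, ?_, ?_⟩
  · rw [Cfsg.Geo.specialLinear, MonoidHom.mem_ker]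
    apply Units.ext
    rw [Matrix.GeneralLinearGroup.val_det_apply, hx, hdet, Units.val_one]
  · rw [Units.val_pow_eq_pow_val, hx, Matrix.diagonal_pow, Matrix.smul_one_eq_diagonal]
    congr 1
    funext i
    rw [hd]
    simp only [Pi.pow_apply, mul_pow]
    have e1 : (if i = i₁ then ζ else 1) ^ r = 1 := by
      by_cases h : i = i₁
      · rw [if_pos h, hζr]
      · rw [if_neg h, one_pow]
    have e2 : (if i = i₂ then ζ else 1) ^ r = 1 := by
      by_cases h : i = i₂
      · rw [if_pos h, hζr]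
      · rw [if_neg h, one_pow]
    have e3 : (if i = i₃ then ζ⁻¹ ^ 2 else 1) ^ r = 1 := by
      by_cases h : i = i₃
      · rw [if_pos h, ← pow_mul, mul_comm, pow_mul, inv_pow, hζr, inv_one, one_pow]
      · rw [if_neg h, one_pow]
    rw [e1, e2, e3, mul_one, mul_one]
  · intro z hz
    have hz' : Matrix.diagonal d = z • (1 : Matrix (Fin n) (Fin n) F) := by rw [← hx]; exact hz
    have e0 := congrFun (congrFun hz' i₁) i₁
    have e1 := congrFun (congrFun hz' i₄) i₄
    simp only [Matrix.diagonal_apply_eq, Matrix.smul_apply, Matrix.one_apply_eq, smul_eq_mul,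
      mul_one] at e0 e1
    rw [hd1] at e0
    rw [hdo i₄ h41 h42 h43] at e1
    exact hζ1 (by rw [e0, ← e1])
  · intro hconj
    obtain ⟨c, hc, hM⟩ := hnec x d hx hconj
    have hcount0 := Cfsg.Agent.Helper80.SFRCount.sfr_count_eq (fun i : Fin n => c * (d i)⁻¹)
      (fun i => (d i) ^ q₀) hM
    obtain ⟨s, hs⟩ : ∃ s : Finset (Fin n), s = {i₁, i₂, i₃} := ⟨_, rfl⟩
    have hscard : s.card = 3 := Finset.card_eq_three.mpr ⟨i₁, i₂, i₃, h12, h13, h23, hs⟩
    have hmem : ∀ i, i ∈ s ↔ i = i₁ ∨ i = i₂ ∨ i = i₃ := by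
      intro i
      rw [hs]
      simp
    have hcompl : sᶜ.card = n - 3 := by
      rw [Finset.card_compl, hscard, Fintype.card_fin]
    have hfo : ∀ i, i ∉ s → d i = 1 := by
      intro i hi
      rw [hmem] at hi
      exact hdo i (fun h => hi (Or.inl h)) (fun h => hi (Or.inr (Or.inl h)))
        (fun h => hi (Or.inr (Or.inr h)))
    have hdq : ∀ i, d i ^ q₀ = d i := by
      intro i
      by_cases his : i ∈ s
      · rw [hmem] at his
        rcases his with rfl | rfl | rfl
        · rw [hd1, hζq]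
        · rw [hd2, hζq]
        · rw [hd3, ← pow_mul, mul_comm, pow_mul, inv_pow, hζq]
      · rw [hfo i his, one_pow]
    have hcount : ∀ v : F, (Finset.univ.filter fun i : Fin n => d i = v).card
        = (Finset.univ.filter fun i : Fin n => c * (d i)⁻¹ = v).card := by
      intro v
      rw [← hcount0 v]
      congr 1
      ext i
      simp only [Finset.mem_filter, Finset.mem_univ, true_and, hdq]
    -- c = 1
    have hc1 : c = 1 := by
      by_contra hne
      have hge : n - 3 ≤ (Finset.univ.filter fun i : Fin n => c * (d i)⁻¹ = c).card := by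
        have hsub : sᶜ ⊆ Finset.univ.filter (fun i : Fin n => c * (d i)⁻¹ = c) := by
          intro i hi
          rw [Finset.mem_compl] at hi
          rw [Finset.mem_filter, hfo i hi, inv_one, mul_one]
          exact ⟨Finset.mem_univ _, rfl⟩
        have := Finset.card_le_card hsub
        rwa [hcompl] at this
      have hsub2 : Finset.univ.filter (fun i : Fin n => d i = c) ⊆ s := by
        intro i hi
        rw [Finset.mem_filter] at hi
        by_contra his
        rw [hfo i his] at hi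
        exact hne hi.2.symm
      have hle := Finset.card_le_card hsub2
      rw [← hcount] at hge
      have hn6 : n = 6 := by omega
      have heq : Finset.univ.filter (fun i : Fin n => d i = c) = s :=
        Finset.eq_of_subset_of_card_le hsub2 (by omega)
      have m1 : i₁ ∈ Finset.univ.filter (fun i : Fin n => d i = c) := by
        rw [heq, hmem]; exact Or.inl rfl
      have m3 : i₃ ∈ Finset.univ.filter (fun i : Fin n => d i = c) := by
        rw [heq, hmem]; exact Or.inr (Or.inr rfl)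
      rw [Finset.mem_filter, hd1] at m1
      rw [Finset.mem_filter, hd3] at m3
      have e : ζ = ζ⁻¹ ^ 2 := m1.2.trans m3.2.symm
      have e3 : ζ ^ 3 = 1 := by
        have : ζ ^ 3 = ζ * ζ ^ 2 := by ring
        rw [this]
        nth_rewrite 1 [e]
        rw [inv_pow, inv_mul_cancel₀ (pow_ne_zero 2 hζ0)]
      have hdvd := orderOf_dvd_of_pow_eq_one e3
      rw [hoζ] at hdvd
      exact hgap ⟨hn6, (Nat.prime_dvd_prime_iff_eq hrp Nat.prime_three).mp hdvd⟩
    subst hc1
    have hge : 2 ≤ (Finset.univ.filter fun i : Fin n => d i = ζ).card := by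
      have hsub : ({i₁, i₂} : Finset (Fin n)) ⊆
          Finset.univ.filter (fun i : Fin n => d i = ζ) := by
        intro i hi
        rw [Finset.mem_insert, Finset.mem_singleton] at hi
        rw [Finset.mem_filter]
        refine ⟨Finset.mem_univ _, ?_⟩
        rcases hi with rfl | rfl
        · rw [hd1]
        · rw [hd2]
      have := Finset.card_le_card hsub
      rwa [Finset.card_pair h12] at this
    have hempty : (Finset.univ.filter fun i : Fin n => 1 * (d i)⁻¹ = ζ) = ∅ := by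
      apply Finset.filter_eq_empty_iff.mpr
      intro i _ hi
      rw [one_mul] at hi
      have hinv : ζ⁻¹ ≠ ζ := by
        intro h
        apply hζ2
        calc ζ ^ 2 = ζ * ζ := sq ζ
          _ = ζ⁻¹ * ζ := by rw [h]
          _ = 1 := inv_mul_cancel₀ hζ0
      by_cases his : i ∈ s
      · rw [hmem] at his
        rcases his with rfl | rfl | rfl
        · rw [hd1] at hi; exact hinv hi
        · rw [hd2] at hi; exact hinv hi
        · rw [hd3, inv_pow, inv_inv] at hi
          apply hζ1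
          have : ζ * ζ = ζ * 1 := by rw [mul_one, ← sq]; exact hi
          exact mul_left_cancel₀ hζ0 this
      · rw [hfo i his, inv_one] at hi
        exact hζ1 hi.symm
    rw [hcount, hempty, Finset.card_empty] at hge
    omega

end fin

end Cfsg.Agent.Helper33
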