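import Mathlib
import Cfsg.Prelude.Def_GeometricClasses
import Cfsg.Agent.Helper90.UFRDefs
import Cfsg.Agent.Helper90.UFRBase
import Cfsg.Agent.Helper33.UFRBADE4UCore
import Cfsg.Agent.Helper69.UFRNECU

/-!
# Helper33: PIECE BADE4U of CALL S5982 (helper90).
-/

set_option autoImplicit false
set_option linter.unusedVariables false

namespace Cfsg.Agent.Helper33

open Module Polynomial Cfsg.Agent.Helper90.UFR

section fin
variable {F : Type*} [Field F] [Fintype F]

/-! ## PIECE BADE4U -/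
theorem bad_three_u (q₀ : ℕ) (hq : Fintype.card F = q₀ ^ 2) (r : ℕ) [Fact r.Prime]
    (hr2 : r ≠ 2) (hr : r ∣ q₀ - 1) (n : ℕ) (hn : 6 ≤ n) (hgap : ¬ (n = 6 ∧ r = 3))
    (f : (Fin n → F) → (Fin n → F) → F) (hf : Cfsg.Geo.IsUnitaryFormPow q₀ f) : IsBadU f r :=
  bad_three_u_core q₀ hq r hr2 hr n hn hgap f hf
    (fun x d hx h => Cfsg.Agent.Helper69.conj_diag_nec_u q₀ hq n f hf x d hx h)

end fin

end Cfsg.Agent.Helper33
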