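import Mathlib
import Cfsg.Agent.Helper30.UGDefs

set_option autoImplicit false

/-!
Helper library (helper33), CALL S2708 piece A6 (with local copies of A4 and A5): conjugacy of
the graph automorphisms `ugr g` of `PSU_n(q)` under the inner-diagonal group.
-/

namespace Cfsg.Agent.Helper33.UGA6

open Matrix Cfsg.Agent.Helper44.PSLn Cfsg.Agent.Helper44.PSUn Cfsg.Agent.Helper43.GraphAut
open Cfsg.Agent.Helper30.UG

universe u v

variable {F : Type u} [Field F] [Fintype F] {q n : ℕ}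

theorem ug_coe_mul3 (a b c : ↥(Cfsg.GU n F q)) :
    (((a * b * c : ↥(Cfsg.GU n F q)) : GL (Fin n) F) : Mn n F)
      = ((a : GL (Fin n) F) : Mn n F) * ((b : GL (Fin n) F) : Mn n F)
        * ((c : GL (Fin n) F) : Mn n F) := rfl

theorem ug_inv_mul_coe (a : ↥(Cfsg.GU n F q)) :
    (((a⁻¹ : ↥(Cfsg.GU n F q)) : GL (Fin n) F) : Mn n F) * ((a : GL (Fin n) F) : Mn n F)
      = 1 := by
  have h : ((a⁻¹ * a : ↥(Cfsg.GU n F q)) : GL (Fin n) F) = 1 := by
    rw [inv_mul_cancel]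
    rfl
  exact congrArg (fun x : GL (Fin n) F => (x : Mn n F)) h

theorem ug_mul_inv_coe (a : ↥(Cfsg.GU n F q)) :
    ((a : GL (Fin n) F) : Mn n F) * (((a⁻¹ : ↥(Cfsg.GU n F q)) : GL (Fin n) F) : Mn n F)
      = 1 := by
  have h : ((a * a⁻¹ : ↥(Cfsg.GU n F q)) : GL (Fin n) F) = 1 := by
    rw [mul_inv_cancel]
    rfl
  exact congrArg (fun x : GL (Fin n) F => (x : Mn n F)) h

/-- A4 (local copy) -/
theorem ug_conj' (hF : Fintype.card F = q ^ 2) (h g : ↥(Cfsg.GU n F q)) :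
    uD h * ugr hF g * (uD h)⁻¹ = ugr hF (h * g * (mapGU (ulang_tau hF) h)⁻¹) := by
  have h1 : (uF (ulang_tau hF) : MulAut (Cfsg.PSU n F q)) * (uD h)⁻¹
      = (uD (mapGU (ulang_tau hF) h))⁻¹ * uF (ulang_tau hF) := by
    rw [← map_inv, uF_mul_uD, ulang_mapGU_inv, map_inv]
  unfold ugr
  rw [map_mul, map_mul, map_inv]
  calc uD h * (uD g * uF (ulang_tau hF)) * (uD h)⁻¹
      = uD h * uD g * ((uF (ulang_tau hF) : MulAut (Cfsg.PSU n F q)) * (uD h)⁻¹) := by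
        simp only [mul_assoc]
    _ = uD h * uD g * ((uD (mapGU (ulang_tau hF) h))⁻¹ * uF (ulang_tau hF)) := by rw [h1]
    _ = uD h * uD g * (uD (mapGU (ulang_tau hF) h))⁻¹ * uF (ulang_tau hF) := by
        simp only [mul_assoc]

/-- A5 (local copy) -/
theorem ug_eq_iff' (hF : Fintype.card F = q ^ 2) (p : ℕ) [Fact p.Prime] [CharP F p]
    (hn : 3 ≤ n) (h32 : ¬ (n = 3 ∧ q = 2)) (g g' : ↥(Cfsg.GU n F q)) :
    ugr hF g = ugr hF g' ↔
      ∃ c : F, ((g' : GL (Fin n) F) : Mn n F) = c • ((g : GL (Fin n) F) : Mn n F) := by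
  unfold ugr
  rw [mul_left_inj, ulang_uD_eq_iff hF p hn h32]
  constructor
  · rintro ⟨c, rfl⟩
    exact ⟨((c : Fˣ) : F), ulang_mul_scalarGU_coe g c⟩
  · rintro ⟨c, hc⟩
    have h1 := ug_GU hF g'
    rw [hc, Matrix.transpose_smul, ug_map_smul, Matrix.smul_mul, Matrix.mul_smul, smul_smul,
      ug_GU hF g] at h1
    have h2 : (c * ulang_tau hF c) • (1 : Mn n F) = (1 : F) • (1 : Mn n F) := by
      rw [one_smul]
      exact h1
    have h3 : c * ulang_tau hF c = 1 := lang_smul_one_inj (by omega) _ _ h2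
    have hc1 : c ^ (q + 1) = 1 := by
      rw [pow_succ', ← ulang_tau_apply hF]
      exact h3
    refine ⟨ulang_mkN1 c hc1, ?_⟩
    apply Subtype.ext
    apply Units.ext
    rw [ulang_mul_scalarGU_coe, hc]
    rfl

/-- A6 -/
theorem ug_isConj (hF : Fintype.card F = q ^ 2) (p : ℕ) [Fact p.Prime] [CharP F p]
    (hn : 3 ≤ n) (h32 : ¬ (n = 3 ∧ q = 2)) (g g' : ↥(Cfsg.GU n F q)) :
    Cfsg.IsConjUnder (Cfsg.inndiagPSU n F q) (ugr hF g) (ugr hF g') ↔
      ∃ (h : ↥(Cfsg.GU n F q)) (c : F),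
        ((g' : GL (Fin n) F) : Mn n F) * ((h : GL (Fin n) F) : Mn n F).map (ulang_tau hF)
          = c • (((h : GL (Fin n) F) : Mn n F) * ((g : GL (Fin n) F) : Mn n F)) := by
  have key : ∀ (h : ↥(Cfsg.GU n F q)) (c : F),
      ((g' : GL (Fin n) F) : Mn n F)
          = c • (((h * g * (mapGU (ulang_tau hF) h)⁻¹ : ↥(Cfsg.GU n F q)) : GL (Fin n) F) :
              Mn n F) ↔
        ((g' : GL (Fin n) F) : Mn n F) * ((h : GL (Fin n) F) : Mn n F).map (ulang_tau hF)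
          = c • (((h : GL (Fin n) F) : Mn n F) * ((g : GL (Fin n) F) : Mn n F)) := by
    intro h c
    have hT1 := ug_inv_mul_coe (mapGU (ulang_tau hF) h)
    have hT2 := ug_mul_inv_coe (mapGU (ulang_tau hF) h)
    rw [ug_mapGU_coe] at hT1 hT2
    rw [ug_coe_mul3]
    constructor
    · intro h1
      rw [h1, Matrix.smul_mul, Matrix.mul_assoc, hT1, Matrix.mul_one]
    · intro h1
      calc ((g' : GL (Fin n) F) : Mn n F)
          = ((g' : GL (Fin n) F) : Mn n F) * ((h : GL (Fin n) F) : Mn n F).map (ulang_tau hF)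
            * ((((mapGU (ulang_tau hF) h)⁻¹ : ↥(Cfsg.GU n F q)) : GL (Fin n) F) : Mn n F) := by
            rw [Matrix.mul_assoc, hT2, Matrix.mul_one]
        _ = _ := by rw [h1, Matrix.smul_mul]
  constructor
  · rintro ⟨x, hx, hxy⟩
    obtain ⟨h, rfl⟩ := (ulang_mem_inndiag x).mp hx
    rw [ug_conj' hF h g] at hxy
    obtain ⟨c, hc⟩ := (ug_eq_iff' hF p hn h32 _ _).mp hxy.symm
    exact ⟨h, c, (key h c).mp hc⟩
  · rintro ⟨h, c, hc⟩
    refine ⟨uD h, (ulang_mem_inndiag _).mpr ⟨h, rfl⟩, ?_⟩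
    rw [ug_conj' hF h g]
    exact ((ug_eq_iff' hF p hn h32 _ _).mpr ⟨c, (key h c).mpr hc⟩).symm

end Cfsg.Agent.Helper33.UGA6
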