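import Mathlib
import Cfsg.Agent.Helper33.UGA6

set_option autoImplicit false

/-!
Helper library (helper33), CALL S2708 piece A7: the unitary matrices inducing automorphisms
commuting with the graph automorphism `ugr g` of `PSU_n(q)`.
-/

namespace Cfsg.Agent.Helper33.UGA7

open Matrix Cfsg.Agent.Helper44.PSLn Cfsg.Agent.Helper44.PSUn Cfsg.Agent.Helper43.GraphAut
open Cfsg.Agent.Helper30.UG Cfsg.Agent.Helper33.UGA6

universe u v

variable {F : Type u} [Field F] [Fintype F] {q n : ℕ}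

/-- A7 -/
theorem ug_mem_cGU (hF : Fintype.card F = q ^ 2) (p : ℕ) [Fact p.Prime] [CharP F p]
    (hn : 3 ≤ n) (h32 : ¬ (n = 3 ∧ q = 2)) (g h : ↥(Cfsg.GU n F q)) :
    h ∈ ulang_cGU (ugr hF g) ↔
      ∃ c : F, ((h : GL (Fin n) F) : Mn n F) * ((g : GL (Fin n) F) : Mn n F)
        = c • (((g : GL (Fin n) F) : Mn n F) * ((h : GL (Fin n) F) : Mn n F).map (ulang_tau hF)) := by
  have key : ∀ (c : F),
      (((h * g * (mapGU (ulang_tau hF) h)⁻¹ : ↥(Cfsg.GU n F q)) : GL (Fin n) F) : Mn n F)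
          = c • ((g : GL (Fin n) F) : Mn n F) ↔
        ((h : GL (Fin n) F) : Mn n F) * ((g : GL (Fin n) F) : Mn n F)
          = c • (((g : GL (Fin n) F) : Mn n F)
              * ((h : GL (Fin n) F) : Mn n F).map (ulang_tau hF)) := by
    intro c
    have hT1 := ug_inv_mul_coe (mapGU (ulang_tau hF) h)
    have hT2 := ug_mul_inv_coe (mapGU (ulang_tau hF) h)
    rw [ug_mapGU_coe] at hT1 hT2
    rw [ug_coe_mul3]
    constructor
    · intro h1
      calc ((h : GL (Fin n) F) : Mn n F) * ((g : GL (Fin n) F) : Mn n F)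
          = ((h : GL (Fin n) F) : Mn n F) * ((g : GL (Fin n) F) : Mn n F)
            * ((((mapGU (ulang_tau hF) h)⁻¹ : ↥(Cfsg.GU n F q)) : GL (Fin n) F) : Mn n F)
            * ((h : GL (Fin n) F) : Mn n F).map (ulang_tau hF) := by
            rw [Matrix.mul_assoc _ _ (((h : GL (Fin n) F) : Mn n F).map (ulang_tau hF)), hT1,
              Matrix.mul_one]
        _ = _ := by rw [h1, Matrix.smul_mul]
    · intro h1
      rw [h1, Matrix.smul_mul, Matrix.mul_assoc, hT2, Matrix.mul_one]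
  have h0 : uD h * ugr hF g = ugr hF g * uD h ↔
      ugr hF g = ugr hF (h * g * (mapGU (ulang_tau hF) h)⁻¹) := by
    rw [← ug_conj' hF h g]
    constructor
    · intro h1
      rw [h1, mul_inv_cancel_right]
    · intro h1
      calc uD h * ugr hF g = uD h * ugr hF g * (uD h)⁻¹ * uD h := by
            rw [inv_mul_cancel_right]
        _ = ugr hF g * uD h := by rw [← h1]
  rw [ulang_mem_cGU, h0, ug_eq_iff' hF p hn h32]
  constructor
  · rintro ⟨c, hc⟩
    exact ⟨c, (key c).mp hc⟩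
  · rintro ⟨c, hc⟩
    exact ⟨c, (key c).mpr hc⟩

end Cfsg.Agent.Helper33.UGA7
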